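/-
Regular p-groups: p^n-th powers form a subgroup, single power criterion.
-/
import Mathlib
import Cfsg.Prelude.Def_PLocal

set_option autoImplicit false

namespace Cfsg.Agent.H29.RegP

open Cfsg
open scoped commutatorElement

variable {G : Type*} [Group G] [Finite G] {p : ℕ} [Fact p.Prime]

theorem commutator_le_coatom {X : Type*} [Group X] [Finite X] (hX : IsPGroup p X) {M : Subgroup X}
    (hM : IsCoatom M) : commutator X ≤ M := by
  have hnil : Group.IsNilpotent X := hX.isNilpotent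
  have hN : Subgroup.normalizer (M : Set X) = ⊤ := by
    have h1 := Group.normalizerCondition_of_isNilpotent (G := X) M hM.lt_top
    exact hM.2 _ h1
  haveI hMn : M.Normal := Subgroup.normalizer_eq_top_iff.1 hN
  haveI : Nontrivial (X ⧸ M) := QuotientGroup.nontrivial_iff.2 (by
    intro h
    exact hM.1 h)
  have hQ : IsPGroup p (X ⧸ M) := hX.of_surjective (QuotientGroup.mk' M) (QuotientGroup.mk'_surjective M)
  have hc := hQ.center_nontrivial
  have hcen : Subgroup.center (X ⧸ M) = ⊤ := by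
    by_contra hne
    have hle : M ≤ (Subgroup.center (X ⧸ M)).comap (QuotientGroup.mk' M) := by
      intro x hx
      rw [Subgroup.mem_comap]
      have : QuotientGroup.mk' M x = 1 := (QuotientGroup.eq_one_iff x).2 hx
      rw [this]
      exact one_mem _
    rcases hle.eq_or_lt with h1 | h1
    · obtain ⟨z, hz⟩ := (Subgroup.nontrivial_iff_exists_ne_one _).1 hc
      obtain ⟨hz1, hz2⟩ := hz
      obtain ⟨x, rfl⟩ := QuotientGroup.mk'_surjective M z
      have hx : x ∈ (Subgroup.center (X ⧸ M)).comap (QuotientGroup.mk' M) := hz1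
      rw [← h1] at hx
      exact hz2 ((QuotientGroup.eq_one_iff x).2 hx)
    · have h2 := hM.2 _ h1
      apply hne
      rw [eq_top_iff]
      intro z _
      obtain ⟨x, rfl⟩ := QuotientGroup.mk'_surjective M z
      have hx : x ∈ (Subgroup.center (X ⧸ M)).comap (QuotientGroup.mk' M) := by rw [h2]; trivial
      exact hx
  rw [commutator_def, Subgroup.commutator_le]
  rintro x - y -
  rw [← QuotientGroup.eq_one_iff]
  have h3 : (QuotientGroup.mk x : X ⧸ M) ∈ Subgroup.center (X ⧸ M) := by rw [hcen]; trivial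
  have h4 := Subgroup.mem_center_iff.1 h3 (QuotientGroup.mk y)
  have h5 : ((⁅x, y⁆ : X) : X ⧸ M) = ⁅(x : X ⧸ M), (y : X ⧸ M)⁆ := rfl
  rw [h5, commutatorElement_eq_one_iff_mul_comm]
  exact h4.symm

/-- A maximal subgroup containing a given element and the derived subgroup. -/
theorem exists_max (hG : IsPGroup p G) (H : Subgroup G) {y : G} (hy : y ∈ H)
    (hne : Subgroup.zpowers y ≠ H) : ∃ M : Subgroup G, M < H ∧ y ∈ M ∧ ⁅H, H⁆ ≤ M := by
  have hle : Subgroup.zpowers y ≤ H := by rwa [Subgroup.zpowers_le]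
  have hA : (Subgroup.zpowers y).subgroupOf H ≠ ⊤ := by
    intro e
    apply hne
    apply le_antisymm hle
    intro x hx
    have : (⟨x, hx⟩ : H) ∈ (Subgroup.zpowers y).subgroupOf H := by rw [e]; trivial
    exact Subgroup.mem_subgroupOf.1 this
  obtain ⟨M, hM, hAM⟩ := (eq_top_or_exists_le_coatom _).resolve_left hA
  have hPH : IsPGroup p H := hG.to_subgroup H
  have hcomm := commutator_le_coatom hPH hM
  refine ⟨M.map H.subtype, ?_, ?_, ?_⟩
  · apply lt_of_le_of_ne
    · rintro _ ⟨y, _, rfl⟩; exact y.2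
    · intro e
      apply hM.1
      rw [eq_top_iff]
      intro y _
      have hy : (y : G) ∈ M.map H.subtype := by rw [e]; exact y.2
      obtain ⟨z, hz, hzy⟩ := hy
      have : z = y := Subtype.ext hzy
      rwa [← this]
  · refine ⟨⟨y, hy⟩, ?_, rfl⟩
    apply hAM
    exact Subgroup.mem_subgroupOf.2 (Subgroup.mem_zpowers y)
  · rw [← Subgroup.map_subtype_commutator]
    exact Subgroup.map_mono hcomm

/-- The power condition for an exponent `e`. -/
def RCond (e : ℕ) (G : Type*) [Group G] : Prop :=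
  ∀ a b : G, ∃ c ∈ Subgroup.closure {y : G | ∃ x ∈ ⁅Subgroup.closure ({a, b} : Set G), Subgroup.closure ({a, b} : Set G)⁆, y = x ^ e},
    (a * b) ^ e = a ^ e * b ^ e * c

omit [Finite G] [Fact p.Prime] in
theorem closure_pow_of {e : ℕ} {K : Subgroup G} (h : ∀ u ∈ K, ∀ v ∈ K, ∃ x ∈ K, u ^ e * v ^ e = x ^ e)
    {z : G} (hz : z ∈ Subgroup.closure {y : G | ∃ x ∈ K, y = x ^ e}) : ∃ y ∈ K, z = y ^ e := by
  induction hz using Subgroup.closure_induction with
  | mem z hz => exact hz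
  | one => exact ⟨1, one_mem _, by simp⟩
  | mul a b _ _ ha hb =>
    obtain ⟨u, hu, rfl⟩ := ha
    obtain ⟨v, hv, rfl⟩ := hb
    obtain ⟨x, hx, he⟩ := h u hu v hv
    exact ⟨x, hx, he⟩
  | inv a _ ha =>
    obtain ⟨u, hu, rfl⟩ := ha
    exact ⟨u⁻¹, inv_mem hu, by simp⟩

omit [Finite G] [Fact p.Prime] in
theorem closure_pair_le {a b : G} {K : Subgroup G} (ha : a ∈ K) (hb : b ∈ K) :
    Subgroup.closure ({a, b} : Set G) ≤ K := by
  rw [Subgroup.closure_le]
  rintro x (rfl | rfl)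
  · exact ha
  · exact hb

/-- Products of `e`-th powers are `e`-th powers. -/
theorem prod_pow_aux (hG : IsPGroup p G) {e : ℕ} (hR : RCond e G) :
    ∀ (m : ℕ) (a b : G), Nat.card (Subgroup.closure ({a, b} : Set G)) = m →
      ∃ x ∈ Subgroup.closure ({a, b} : Set G), a ^ e * b ^ e = x ^ e := by
  intro m
  induction m using Nat.strong_induction_on with
  | _ m ih =>
  intro a b hm
  set H := Subgroup.closure ({a, b} : Set G) with hH
  have haH : a ∈ H := Subgroup.subset_closure (by simp)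
  have hbH : b ∈ H := Subgroup.subset_closure (by simp)
  by_cases hcyc : Subgroup.zpowers (a * b) = H
  · refine ⟨a * b, H.mul_mem haH hbH, ?_⟩
    have ha' : a ∈ Subgroup.zpowers (a * b) := hcyc ▸ haH
    have hb' : b ∈ Subgroup.zpowers (a * b) := hcyc ▸ hbH
    obtain ⟨k, hk⟩ := Subgroup.mem_zpowers_iff.1 ha'
    obtain ⟨l, hl⟩ := Subgroup.mem_zpowers_iff.1 hb'
    have hc : Commute a b := by
      have h := (Commute.refl (a * b)).zpow_zpow k l
      rwa [hk, hl] at h
    rw [hc.mul_pow]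
  · obtain ⟨M, hMH, habM, hcM⟩ := exists_max hG H (H.mul_mem haH hbH) hcyc
    have hcard : ∀ K : Subgroup G, K ≤ M → Nat.card K < m := by
      intro K hK
      rw [← hm]
      have h1 : K < H := lt_of_le_of_lt hK hMH
      exact lt_of_le_of_ne (Nat.le_of_dvd Nat.card_pos (Subgroup.card_dvd_of_le h1.le))
        (fun e => h1.ne (Subgroup.eq_of_le_of_card_ge h1.le e.ge))
    have hMprod : ∀ u ∈ M, ∀ v ∈ M, ∃ x ∈ M, u ^ e * v ^ e = x ^ e := by
      intro u hu v hv
      have hle := closure_pair_le hu hv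
      obtain ⟨x, hx, he⟩ := ih _ (hcard _ hle) u v rfl
      exact ⟨x, hle hx, he⟩
    obtain ⟨c, hc, he⟩ := hR a b
    have hcM' : c ∈ Subgroup.closure {y : G | ∃ x ∈ M, y = x ^ e} := by
      refine Subgroup.closure_mono ?_ hc
      rintro y ⟨x, hx, rfl⟩
      exact ⟨x, hcM hx, rfl⟩
    obtain ⟨y, hy, rfl⟩ := closure_pow_of hMprod hcM'
    have h1 : a ^ e * b ^ e = (a * b) ^ e * (y⁻¹) ^ e := by
      rw [he, inv_pow]
      group
    obtain ⟨x, hx, h2⟩ := hMprod _ habM _ (inv_mem hy)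
    exact ⟨x, hMH.le hx, h1.trans h2⟩

theorem prod_pow (hG : IsPGroup p G) {e : ℕ} (hR : RCond e G) (a b : G) :
    ∃ x ∈ Subgroup.closure ({a, b} : Set G), a ^ e * b ^ e = x ^ e :=
  prod_pow_aux hG hR _ a b rfl

theorem closure_pow (hG : IsPGroup p G) {e : ℕ} (hR : RCond e G) (K : Subgroup G) {z : G}
    (hz : z ∈ Subgroup.closure {y : G | ∃ x ∈ K, y = x ^ e}) : ∃ y ∈ K, z = y ^ e := by
  refine closure_pow_of ?_ hz
  intro u hu v hv
  obtain ⟨x, hx, he⟩ := prod_pow hG hR u v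
  exact ⟨x, closure_pair_le hu hv hx, he⟩

omit [Finite G] [Fact p.Prime] in
/-- The commutator of a power with an element. -/
theorem comm_pow_mem {e : ℕ} (hR : RCond e G) (H : Subgroup G) {a y : G} (ha : a ∈ H) (hy : y ∈ H) :
    ⁅a ^ e, y⁆ ∈ Subgroup.closure {z : G | ∃ x ∈ ⁅H, H⁆, z = x ^ e} := by
  set w := ⁅a, y⁆ with hw
  have hwH : w ∈ ⁅H, H⁆ := Subgroup.commutator_mem_commutator ha hy
  have hwH' : w ∈ H := by
    rw [hw, commutatorElement_def]
    exact H.mul_mem (H.mul_mem (H.mul_mem ha hy) (inv_mem ha)) (inv_mem hy)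
  have h1 : y * a⁻¹ * y⁻¹ = a⁻¹ * w := by
    rw [hw, commutatorElement_def]
    group
  have h2 : y * (a ^ e)⁻¹ * y⁻¹ = (a⁻¹ * w) ^ e := by
    rw [← h1, conj_pow, inv_pow]
  obtain ⟨c, hc, he⟩ := hR a⁻¹ w
  have h3 : ⁅a ^ e, y⁆ = w ^ e * c := by
    rw [commutatorElement_def, mul_assoc (a ^ e), mul_assoc (a ^ e), h2, he, inv_pow]
    group
  rw [h3]
  refine Subgroup.mul_mem _ (Subgroup.subset_closure ⟨w, hwH, rfl⟩) ?_
  refine Subgroup.closure_mono ?_ hc
  rintro z ⟨x, hx, rfl⟩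
  refine ⟨x, ?_, rfl⟩
  have hle := closure_pair_le (inv_mem ha) hwH'
  exact Subgroup.commutator_mono hle hle hx

omit [Finite G] [Fact p.Prime] in
theorem rcond_of_regular (hG : IsRegularPGroup p G) (n : ℕ) : RCond (p ^ n) G := fun a b => hG.2 a b n

/-- Part one of the theorem on powers. -/
theorem powers_eq (hG : IsRegularPGroup p G) (H : Subgroup G) (n : ℕ) :
    {y : G | ∃ x ∈ H, y = x ^ (p ^ n)} = (powerClosure p n H : Set G) := by
  ext y
  constructor
  · rintro ⟨x, hx, rfl⟩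
    exact Subgroup.subset_closure ⟨x, hx, rfl⟩
  · intro hy
    exact closure_pow hG.1 (rcond_of_regular hG n) H hy

theorem powers_comm (hG : IsRegularPGroup p G) (H : Subgroup G) (n : ℕ) :
    ⁅powerClosure p n H, powerClosure p n H⁆ ≤ powerClosure p n ⁅H, H⁆ := by
  rw [Subgroup.commutator_le]
  intro a ha b hb
  obtain ⟨x, hx, rfl⟩ := closure_pow hG.1 (rcond_of_regular hG n) H ha
  obtain ⟨z, hz, rfl⟩ := closure_pow hG.1 (rcond_of_regular hG n) H hb
  exact comm_pow_mem (rcond_of_regular hG n) H hx (H.pow_mem hz _)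

/-- Kemhadze's criterion, forward direction. -/
theorem single_of_regular (hG : IsRegularPGroup p G) (a b : G) :
    ∃ c ∈ ⁅Subgroup.closure ({a, b} : Set G), Subgroup.closure ({a, b} : Set G)⁆,
      (a * b) ^ p = a ^ p * b ^ p * c ^ p := by
  obtain ⟨c, hc, he⟩ := hG.2 a b 1
  simp only [pow_one] at he
  have hc' : c ∈ Subgroup.closure {y : G | ∃ x ∈ ⁅Subgroup.closure ({a, b} : Set G), Subgroup.closure ({a, b} : Set G)⁆, y = x ^ p ^ 1} := hc
  obtain ⟨y, hy, rfl⟩ := closure_pow hG.1 (rcond_of_regular hG 1) _ hc'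
  exact ⟨y, hy, by simpa using he⟩

/-- Kemhadze's criterion, converse direction. -/
theorem regular_of_single (hG : IsPGroup p G)
    (hK : ∀ a b : G, ∃ c ∈ ⁅Subgroup.closure ({a, b} : Set G), Subgroup.closure ({a, b} : Set G)⁆,
      (a * b) ^ p = a ^ p * b ^ p * c ^ p) : IsRegularPGroup p G := by
  have hR1 : RCond p G := by
    intro a b
    obtain ⟨c, hc, he⟩ := hK a b
    exact ⟨c ^ p, Subgroup.subset_closure ⟨c, hc, rfl⟩, he⟩
  refine ⟨hG, ?_⟩
  intro a b n
  induction n generalizing a b with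
  | zero =>
    refine ⟨1, one_mem _, ?_⟩
    simp
  | succ n ih =>
    set H := Subgroup.closure ({a, b} : Set G) with hH
    have haH : a ∈ H := Subgroup.subset_closure (by simp)
    have hbH : b ∈ H := Subgroup.subset_closure (by simp)
    obtain ⟨c, hc, he⟩ := hK a b
    have hcH : c ∈ H := by
      have hle : ⁅H, H⁆ ≤ H := Subgroup.commutator_le_self H
      exact hle hc
    set q := p ^ n with hq
    have hpow : ∀ x : G, x ^ (p ^ (n + 1)) = (x ^ p) ^ q := by
      intro x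
      rw [← pow_mul, pow_succ, mul_comm]
    -- the subgroup of `p`-th powers of `H`
    let Pw : Subgroup G := Subgroup.closure {y : G | ∃ x ∈ H, y = x ^ p}
    have hPwpow : ∀ {z : G}, z ∈ Pw → ∃ y ∈ H, z = y ^ p := fun hz => closure_pow hG hR1 H hz
    have hderiv : ∀ {z : G}, z ∈ ⁅Pw, Pw⁆ → ∃ v ∈ ⁅H, H⁆, z = v ^ p := by
      intro z hz
      have hle : ⁅Pw, Pw⁆ ≤ Subgroup.closure {z : G | ∃ x ∈ ⁅H, H⁆, z = x ^ p} := by
        rw [Subgroup.commutator_le]
        intro u hu v hv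
        obtain ⟨x, hx, rfl⟩ := hPwpow hu
        obtain ⟨y, hy, rfl⟩ := hPwpow hv
        exact comm_pow_mem hR1 H hx (H.pow_mem hy _)
      exact closure_pow hG hR1 _ (hle hz)
    have htarget : ∀ {A B : G}, A ∈ Pw → B ∈ Pw →
        Subgroup.closure {y : G | ∃ x ∈ ⁅Subgroup.closure ({A, B} : Set G), Subgroup.closure ({A, B} : Set G)⁆, y = x ^ q} ≤
          powerClosure p (n + 1) ⁅H, H⁆ := by
      intro A B hA hB
      rw [Subgroup.closure_le]
      rintro y ⟨x, hx, rfl⟩
      have hle := closure_pair_le hA hB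
      obtain ⟨v, hv, rfl⟩ := hderiv (Subgroup.commutator_mono hle hle hx)
      refine Subgroup.subset_closure ⟨v, hv, ?_⟩
      rw [hpow]
    have hAm : a ^ p ∈ Pw := Subgroup.subset_closure ⟨a, haH, rfl⟩
    have hBm : b ^ p ∈ Pw := Subgroup.subset_closure ⟨b, hbH, rfl⟩
    have hCm : c ^ p ∈ Pw := Subgroup.subset_closure ⟨c, hcH, rfl⟩
    obtain ⟨d₁, hd₁, he₁⟩ := ih (a ^ p) (b ^ p * c ^ p)
    obtain ⟨d₂, hd₂, he₂⟩ := ih (b ^ p) (c ^ p)
    refine ⟨c ^ (p ^ (n + 1)) * d₂ * d₁, ?_, ?_⟩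
    · refine Subgroup.mul_mem _ (Subgroup.mul_mem _ (Subgroup.subset_closure ⟨c, hc, rfl⟩) ?_) ?_
      · exact htarget hBm hCm hd₂
      · exact htarget hAm (Pw.mul_mem hBm hCm) hd₁
    · rw [hpow (a * b), he, mul_assoc (a ^ p), he₁, he₂, hpow a, hpow b, hpow c]
      group

end Cfsg.Agent.H29.RegP
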