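/-
Jordan types of nilpotent maps: the multiset of block sizes of a nilpotent linear map over a field,
existence, uniqueness (through ranks of powers), sub-decompositions.
-/
import Cfsg.Agent.Lib.H29.Chain

set_option autoImplicit false

namespace Cfsg.Agent.H29

open Module

section Jordan

variable {F V : Type*} [Field F] [AddCommGroup V] [Module F V] [FiniteDimensional F V]

/-- A cyclic block of size `a` for `N`. -/
def JBlock (N : V →ₗ[F] V) (C : Submodule F V) (a : ℕ) : Prop :=
  0 < a ∧ finrank F C = a ∧ ∃ v : V, C = Submodule.span F (Set.range fun l : Fin a => (N ^ (l : ℕ)) v) ∧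
    (N ^ a) v = 0

theorem pow_succ_apply (N : V →ₗ[F] V) (l : ℕ) (v : V) : N ((N ^ l) v) = (N ^ (l + 1)) v := by
  rw [pow_succ', Module.End.mul_apply]

theorem pow_add_apply (N : V →ₗ[F] V) (k l : ℕ) (v : V) : (N ^ k) ((N ^ l) v) = (N ^ (k + l)) v := by
  rw [pow_add, Module.End.mul_apply]

theorem pow_eq_zero_of_le (N : V →ₗ[F] V) {a l : ℕ} {v : V} (h : (N ^ a) v = 0) (hl : a ≤ l) :
    (N ^ l) v = 0 := by
  obtain ⟨d, rfl⟩ := Nat.exists_eq_add_of_le hl
  rw [add_comm, ← pow_add_apply, h, map_zero]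

theorem JBlock.stable {N : V →ₗ[F] V} {C : Submodule F V} {a : ℕ} (h : JBlock N C a) :
    TStable N C := by
  obtain ⟨_, _, v, rfl, hv⟩ := h
  intro u hu
  induction hu using Submodule.span_induction with
  | mem u hu =>
    obtain ⟨l, rfl⟩ := hu
    simp only
    rw [pow_succ_apply]
    by_cases hl : (l : ℕ) + 1 < a
    · exact Submodule.subset_span ⟨⟨(l : ℕ) + 1, hl⟩, rfl⟩
    · rw [pow_eq_zero_of_le N hv (by omega)]
      exact Submodule.zero_mem _
  | zero => simp
  | add x y _ _ hx hy =>
    rw [map_add]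
    exact Submodule.add_mem _ hx hy
  | smul c x _ hx =>
    rw [map_smul]
    exact Submodule.smul_mem _ _ hx

/-- The rank of a power of `N` on a block. -/
theorem JBlock.finrank_map {N : V →ₗ[F] V} {C : Submodule F V} {a : ℕ} (h : JBlock N C a) (t : ℕ) :
    finrank F (C.map (N ^ t)) = a - t := by
  obtain ⟨hpos, hC, v, hCv, hv⟩ := h
  set b : Fin a → V := fun l => (N ^ (l : ℕ)) v with hb
  have hli : LinearIndependent F b := by
    rw [linearIndependent_iff_card_eq_finrank_span, Fintype.card_fin, Set.finrank, ← hCv, hC]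
  let ι : Fin (a - t) → Fin a := fun l => ⟨t + l, by have := l.2; omega⟩
  have hι : Function.Injective ι := by
    intro x y hxy
    have : t + (x : ℕ) = t + y := congrArg Fin.val hxy
    exact Fin.ext (by omega)
  have hli2 : LinearIndependent F (b ∘ ι) := hli.comp ι hι
  have hspan : C.map (N ^ t) = Submodule.span F (Set.range (b ∘ ι)) := by
    rw [hCv, Submodule.map_span]
    apply le_antisymm
    · apply Submodule.span_le.2
      rintro _ ⟨_, ⟨l, rfl⟩, rfl⟩
      simp only [SetLike.mem_coe]
      by_cases hl : t + (l : ℕ) < a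
      · apply Submodule.subset_span
        refine ⟨⟨l, by omega⟩, ?_⟩
        show (N ^ (t + (l : ℕ))) v = (N ^ t) ((N ^ (l : ℕ)) v)
        rw [pow_add_apply]
      · have : (N ^ t) ((N ^ (l : ℕ)) v) = 0 := by
          rw [pow_add_apply]
          exact pow_eq_zero_of_le N hv (by omega)
        show (N ^ t) ((N ^ (l : ℕ)) v) ∈ _
        rw [this]
        exact Submodule.zero_mem _
    · apply Submodule.span_le.2
      rintro _ ⟨l, rfl⟩
      apply Submodule.subset_span
      refine ⟨(N ^ (l : ℕ)) v, ⟨⟨l, by have := l.2; omega⟩, rfl⟩, ?_⟩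
      show (N ^ t) ((N ^ (l : ℕ)) v) = (N ^ (t + (l : ℕ))) v
      rw [pow_add_apply]
  rw [hspan, finrank_span_eq_card hli2, Fintype.card_fin]

theorem JBlock.kill {N : V →ₗ[F] V} {C : Submodule F V} {a : ℕ} (h : JBlock N C a) {L : ℕ}
    (hL : a ≤ L) {u : V} (hu : u ∈ C) : (N ^ L) u = 0 := by
  obtain ⟨_, _, v, hCv, hv⟩ := h
  rw [hCv] at hu
  induction hu using Submodule.span_induction with
  | mem u hu =>
    obtain ⟨l, rfl⟩ := hu
    simp only
    rw [pow_add_apply]
    exact pow_eq_zero_of_le N hv (by omega)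
  | zero => simp
  | add x y _ _ hx hy => rw [map_add, hx, hy, add_zero]
  | smul c x _ hx => rw [map_smul, hx, smul_zero]

/-- A stable subspace has Jordan type `μ`. -/
inductive HasJType (N : V →ₗ[F] V) : Submodule F V → Multiset ℕ → Prop
  | nil : HasJType N ⊥ 0
  | cons {W C : Submodule F V} {μ : Multiset ℕ} {a : ℕ} : HasJType N W μ → JBlock N C a →
      W ⊓ C = ⊥ → HasJType N (W ⊔ C) (a ::ₘ μ)

namespace HasJType

variable {N : V →ₗ[F] V} {W : Submodule F V} {μ : Multiset ℕ}

theorem stable (h : HasJType N W μ) : TStable N W := by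
  induction h with
  | nil => exact tStable_bot N
  | cons _ hC _ ih => exact ih.sup hC.stable

theorem finrank_eq (h : HasJType N W μ) : finrank F W = μ.sum := by
  induction h with
  | nil => simp
  | cons hW hC hd ih =>
    rename_i W C μ a
    have h1 := Submodule.finrank_sup_add_finrank_inf_eq W C
    rw [hd, finrank_bot, add_zero, ih, hC.2.1] at h1
    rw [h1, Multiset.sum_cons, add_comm]

theorem pos (h : HasJType N W μ) : ∀ a ∈ μ, 0 < a := by
  induction h with
  | nil => simp
  | cons _ hC _ ih =>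
    intro a ha
    rw [Multiset.mem_cons] at ha
    rcases ha with rfl | ha
    · exact hC.1
    · exact ih a ha

theorem kill (h : HasJType N W μ) {L : ℕ} (hL : ∀ a ∈ μ, a ≤ L) {u : V} (hu : u ∈ W) :
    (N ^ L) u = 0 := by
  induction h generalizing u with
  | nil =>
    rw [Submodule.mem_bot] at hu
    rw [hu, map_zero]
  | cons _ hC _ ih =>
    obtain ⟨x, hx, y, hy, rfl⟩ := Submodule.mem_sup.1 hu
    rw [map_add, ih (fun a ha => hL a (Multiset.mem_cons_of_mem ha)) hx,
      hC.kill (hL _ (Multiset.mem_cons_self _ _)) hy, add_zero]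

theorem map_pow_le {T : V →ₗ[F] V} {W : Submodule F V} (hW : TStable T W) (t : ℕ) :
    W.map (T ^ t) ≤ W := by
  rintro _ ⟨v, hv, rfl⟩
  exact hW.pow t hv

/-- The rank of the powers of `N`. -/
theorem finrank_map_pow (h : HasJType N W μ) (t : ℕ) :
    finrank F (W.map (N ^ t)) = (μ.map fun a => a - t).sum := by
  induction h with
  | nil => simp
  | cons hW hC hd ih =>
    rename_i W C μ a
    rw [Submodule.map_sup]
    have h1 : W.map (N ^ t) ⊓ C.map (N ^ t) = ⊥ := by
      rw [eq_bot_iff, ← hd]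
      exact inf_le_inf (map_pow_le hW.stable t) (map_pow_le hC.stable t)
    have h2 := Submodule.finrank_sup_add_finrank_inf_eq (W.map (N ^ t)) (C.map (N ^ t))
    rw [h1, finrank_bot, add_zero, ih, hC.finrank_map] at h2
    rw [h2, Multiset.map_cons, Multiset.sum_cons, add_comm]

/-- Sub-decompositions. -/
theorem split (h : HasJType N W μ) : ∀ ν : Multiset ℕ, ν ≤ μ →
    ∃ U U' : Submodule F V, U ⊔ U' = W ∧ TStable N U ∧ TStable N U' ∧ finrank F U = ν.sum ∧
      finrank F U' = μ.sum - ν.sum := by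
  induction h with
  | nil =>
    intro ν hν
    have : ν = 0 := by simpa using hν
    subst this
    exact ⟨⊥, ⊥, by simp, tStable_bot N, tStable_bot N, by simp, by simp⟩
  | cons hW hC hd ih =>
    rename_i W C μ a
    have hfin : ∀ A B : Submodule F V, A ≤ W → B ≤ C → finrank F (A ⊔ B : Submodule F V) =
        finrank F A + finrank F B := by
      intro A B hA hB
      have h1 : A ⊓ B = ⊥ := by
        rw [eq_bot_iff, ← hd]
        exact inf_le_inf hA hB
      have h2 := Submodule.finrank_sup_add_finrank_inf_eq A B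
      rw [h1, finrank_bot, add_zero] at h2
      exact h2
    have hCa := hC.2.1
    intro ν hν
    by_cases ha : a ∈ ν
    · obtain ⟨ν₀, rfl⟩ := Multiset.exists_cons_of_mem ha
      have hν₀ : ν₀ ≤ μ := (Multiset.cons_le_cons_iff a).1 hν
      obtain ⟨U, U', h1, h2, h3, h4, h5⟩ := ih ν₀ hν₀
      have hUW : U ≤ W := h1 ▸ le_sup_left
      refine ⟨U ⊔ C, U', ?_, h2.sup hC.stable, h3, ?_, ?_⟩
      · rw [← h1]
        ac_rfl
      · rw [hfin U C hUW le_rfl, h4, hCa, Multiset.sum_cons, add_comm]
      · rw [h5, Multiset.sum_cons, Multiset.sum_cons]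
        omega
    · have hν₀ : ν ≤ μ := (Multiset.le_cons_of_notMem ha).1 hν
      obtain ⟨U, U', h1, h2, h3, h4, h5⟩ := ih ν hν₀
      have hUW : U' ≤ W := h1 ▸ le_sup_right
      refine ⟨U, U' ⊔ C, ?_, h2, h3.sup hC.stable, h4, ?_⟩
      · rw [← h1]
        ac_rfl
      · rw [hfin U' C hUW le_rfl, h5, hCa, Multiset.sum_cons]
        have : ν.sum ≤ μ.sum := by
          obtain ⟨ρ, hρ⟩ := Multiset.le_iff_exists_add.1 hν₀
          rw [hρ, Multiset.sum_add]
          omega
        omega

end HasJType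

/-- Splitting off a block of maximal size. -/
theorem exists_block_complement (N : V →ₗ[F] V) (W₀ : Submodule F V) (hW₀ : TStable N W₀) (L : ℕ)
    (hL : ∀ v ∈ W₀, (N ^ L) v = 0) (v₀ : V) (hv₀ : v₀ ∈ W₀) (hne : (N ^ (L - 1)) v₀ ≠ 0)
    (hLpos : 0 < L) :
    ∃ C D : Submodule F V, JBlock N C L ∧ TStable N D ∧ C ⊓ D = ⊥ ∧ C ⊔ D = W₀ := by
  classical
  obtain ⟨φ, hφ⟩ : ∃ φ : Module.Dual F V, φ ((N ^ (L - 1)) v₀) ≠ 0 := by
    by_contra hcon
    push Not at hcon
    exact hne ((Module.forall_dual_apply_eq_zero_iff F _).1 hcon)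
  set b : Fin L → V := fun l => (N ^ (l : ℕ)) v₀ with hb
  have hvL : (N ^ L) v₀ = 0 := hL v₀ hv₀
  -- the map `W₀ → F ^ L`
  let Ψ : V →ₗ[F] (Fin L → F) := LinearMap.pi fun l => φ ∘ₗ (N ^ (l : ℕ))
  have hΨ : ∀ (u : V) (l : Fin L), Ψ u l = φ ((N ^ (l : ℕ)) u) := fun _ _ => rfl
  -- key computation
  have hkey : ∀ f : Fin L → F, (∀ l : Fin L, φ ((N ^ (l : ℕ)) (∑ j, f j • b j)) = 0) → f = 0 := by
    intro f hf
    by_contra hne0
    have hex : ∃ j, f j ≠ 0 := by
      by_contra hcon
      push Not at hcon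
      exact hne0 (funext hcon)
    classical
    let S : Finset (Fin L) := Finset.univ.filter fun j => f j ≠ 0
    have hS : S.Nonempty := by
      obtain ⟨j, hj⟩ := hex
      exact ⟨j, by simp [S, hj]⟩
    obtain ⟨j₀, hj₀S, hj₀⟩ := S.exists_min_image (fun j => (j : ℕ)) hS
    have hfj₀ : f j₀ ≠ 0 := by simpa [S] using hj₀S
    have hlt : L - 1 - (j₀ : ℕ) < L := by omega
    have h1 := hf ⟨L - 1 - (j₀ : ℕ), hlt⟩
    simp only at h1
    rw [map_sum, map_sum] at h1
    rw [Finset.sum_eq_single j₀] at h1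
    · rw [map_smul, map_smul, smul_eq_mul] at h1
      have h2 : (N ^ (L - 1 - (j₀ : ℕ))) (b j₀) = (N ^ (L - 1)) v₀ := by
        show (N ^ (L - 1 - (j₀ : ℕ))) ((N ^ (j₀ : ℕ)) v₀) = _
        rw [pow_add_apply]
        congr 2
        have := j₀.2
        omega
      rw [h2] at h1
      exact (mul_ne_zero hfj₀ hφ) h1
    · intro j _ hj
      by_cases hfj : f j = 0
      · simp [hfj]
      · have hjS : j ∈ S := by simp [S, hfj]
        have h3 : (j₀ : ℕ) ≤ j := hj₀ j hjS
        have h4 : (j₀ : ℕ) < j := lt_of_le_of_ne h3 (fun h => hj (Fin.ext h).symm)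
        have h5 : (N ^ (L - 1 - (j₀ : ℕ))) (b j) = 0 := by
          show (N ^ (L - 1 - (j₀ : ℕ))) ((N ^ (j : ℕ)) v₀) = 0
          rw [pow_add_apply]
          exact pow_eq_zero_of_le N hvL (by have := j₀.2; omega)
        rw [map_smul, map_smul, h5]
        simp
    · intro h
      exact absurd (Finset.mem_univ _) h
  have hli : LinearIndependent F b := by
    rw [Fintype.linearIndependent_iff]
    intro f hf i
    have := hkey f (fun l => by rw [hf]; simp)
    rw [this]
    rfl
  set C : Submodule F V := Submodule.span F (Set.range b) with hC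
  have hCrank : finrank F C = L := by
    rw [hC, finrank_span_eq_card hli, Fintype.card_fin]
  have hblock : JBlock N C L := ⟨hLpos, hCrank, v₀, rfl, hvL⟩
  have hCW : C ≤ W₀ := by
    apply Submodule.span_le.2
    rintro _ ⟨l, rfl⟩
    exact hW₀.pow _ hv₀
  set D : Submodule F V := W₀ ⊓ LinearMap.ker Ψ with hD
  have hDs : TStable N D := by
    rintro u ⟨huW, huK⟩
    refine ⟨hW₀ u huW, ?_⟩
    have huK' : Ψ u = 0 := LinearMap.mem_ker.1 huK
    apply LinearMap.mem_ker.2
    funext l
    have hcomp : (N ^ (l : ℕ)) (N u) = (N ^ ((l : ℕ) + 1)) u := by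
      rw [pow_succ, Module.End.mul_apply]
    rw [hΨ, hcomp]
    by_cases hl : (l : ℕ) + 1 < L
    · have := congrFun huK' ⟨(l : ℕ) + 1, hl⟩
      simpa [hΨ] using this
    · have h0 : (N ^ ((l : ℕ) + 1)) u = 0 := pow_eq_zero_of_le N (hL u huW) (by omega)
      rw [h0, map_zero]
      rfl
  refine ⟨C, D, hblock, hDs, ?_, ?_⟩
  · rw [eq_bot_iff]
    rintro u ⟨huC, -, huK⟩
    obtain ⟨f, rfl⟩ := (Submodule.mem_span_range_iff_exists_fun F).1 huC
    have huK' := LinearMap.mem_ker.1 huK
    have := hkey f (fun l => by rw [← hΨ, huK']; rfl)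
    rw [this]
    simp
  · apply le_antisymm
    · exact sup_le hCW inf_le_left
    · intro w hw
      let A : (Fin L → F) →ₗ[F] (Fin L → F) :=
        Ψ ∘ₗ (Fintype.linearCombination F b)
      have hA : ∀ f, A f = Ψ (∑ j, f j • b j) := by
        intro f
        simp [A, Fintype.linearCombination_apply]
      have hinj : Function.Injective A := by
        rw [← LinearMap.ker_eq_bot, eq_bot_iff]
        intro f hf
        have h0 : A f = 0 := hf
        rw [hA] at h0
        have := hkey f (fun l => by rw [← hΨ, h0]; rfl)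
        rw [this]
        exact Submodule.zero_mem _
      obtain ⟨f, hf⟩ := (LinearMap.injective_iff_surjective.1 hinj) (Ψ w)
      rw [hA] at hf
      have hc : (∑ j, f j • b j) ∈ C :=
        Submodule.sum_mem _ fun j _ => Submodule.smul_mem _ _ (Submodule.subset_span ⟨j, rfl⟩)
      have hdec : w = (∑ j, f j • b j) + (w - ∑ j, f j • b j) := by abel
      rw [hdec]
      apply Submodule.add_mem_sup hc
      refine ⟨W₀.sub_mem hw (hCW hc), ?_⟩
      apply LinearMap.mem_ker.2
      rw [map_sub, hf, sub_self]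

/-- Existence of the Jordan type. -/
theorem exists_hasJType (N : V →ₗ[F] V) (K : ℕ) : ∀ (d : ℕ) (W₀ : Submodule F V), finrank F W₀ = d →
    TStable N W₀ → (∀ v ∈ W₀, (N ^ K) v = 0) → ∃ μ : Multiset ℕ, HasJType N W₀ μ ∧ ∀ a ∈ μ, a ≤ K := by
  classical
  intro d
  induction d using Nat.strong_induction_on with
  | _ d ih =>
    intro W₀ hd hW₀ hK
    by_cases hbot : W₀ = ⊥
    · subst hbot
      exact ⟨0, HasJType.nil, by simp⟩
    have hex : ∃ L, ∀ v ∈ W₀, (N ^ L) v = 0 := ⟨K, hK⟩
    set L := Nat.find hex with hLdef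
    have hL : ∀ v ∈ W₀, (N ^ L) v = 0 := Nat.find_spec hex
    have hLK : L ≤ K := Nat.find_min' hex hK
    have hLpos : 0 < L := by
      rcases Nat.eq_zero_or_pos L with h0 | h0
      · exfalso
        apply hbot
        rw [eq_bot_iff]
        intro v hv
        have := hL v hv
        rw [h0, pow_zero] at this
        simpa using this
      · exact h0
    obtain ⟨v₀, hv₀, hne⟩ : ∃ v₀ ∈ W₀, (N ^ (L - 1)) v₀ ≠ 0 := by
      have := Nat.find_min hex (m := L - 1) (by omega)
      push Not at this
      exact this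
    obtain ⟨C, D, hC, hD, hinf, hsup⟩ := exists_block_complement N W₀ hW₀ L hL v₀ hv₀ hne hLpos
    have hDW : D ≤ W₀ := hsup ▸ le_sup_right
    have hfin := Submodule.finrank_sup_add_finrank_inf_eq C D
    rw [hinf, finrank_bot, add_zero, hsup, hC.2.1, hd] at hfin
    obtain ⟨μ, hμ, hμK⟩ := ih (finrank F D) (by omega) D rfl hD (fun v hv => hK v (hDW hv))
    refine ⟨L ::ₘ μ, ?_, ?_⟩
    · have h1 : W₀ = D ⊔ C := by rw [← hsup, sup_comm]
      rw [h1]
      exact HasJType.cons hμ hC (by rw [inf_comm]; exact hinf)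
    · intro a ha
      rw [Multiset.mem_cons] at ha
      rcases ha with rfl | ha
      · exact hLK
      · exact hμK a ha

/-- The multiset is determined by the ranks. -/
theorem multiset_eq_of_sub_sum (μ μ' : Multiset ℕ) (h0 : ∀ a ∈ μ, 0 < a) (h0' : ∀ a ∈ μ', 0 < a)
    (h : ∀ t : ℕ, (μ.map fun a => a - t).sum = (μ'.map fun a => a - t).sum) : μ = μ' := by
  classical
  let G : Multiset ℕ → ℕ → ℕ := fun ν t => (ν.filter (fun x => t < x)).card
  have hGc1 : ∀ ν t a, t < a → G (a ::ₘ ν) t = G ν t + 1 := by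
    intro ν t a ha
    simp only [G]
    rw [Multiset.filter_cons_of_pos _ ha, Multiset.card_cons]
  have hGc2 : ∀ ν t a, ¬ t < a → G (a ::ₘ ν) t = G ν t := by
    intro ν t a ha
    simp only [G]
    rw [Multiset.filter_cons_of_neg _ ha]
  have hR : ∀ (ν : Multiset ℕ) (t : ℕ), (ν.map fun a => a - t).sum =
      (ν.map fun a => a - (t + 1)).sum + G ν t := by
    intro ν t
    induction ν using Multiset.induction_on with
    | empty => simp [G]
    | cons a ν ih =>
      simp only [Multiset.map_cons, Multiset.sum_cons, ih]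
      by_cases ha : t < a
      · rw [hGc1 _ _ _ ha]
        omega
      · rw [hGc2 _ _ _ ha]
        omega
  have hG : ∀ (ν : Multiset ℕ) (a : ℕ), G ν a = G ν (a + 1) + ν.count (a + 1) := by
    intro ν a
    induction ν using Multiset.induction_on with
    | empty => simp [G]
    | cons b ν ih =>
      by_cases h1 : a < b
      · rw [hGc1 _ _ _ h1, ih]
        by_cases h2 : a + 1 < b
        · rw [hGc1 _ _ _ h2, Multiset.count_cons_of_ne (by omega)]
          omega
        · have hb : b = a + 1 := by omega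
          rw [hGc2 _ _ _ h2, hb, Multiset.count_cons_self]
          omega
      · rw [hGc2 _ _ _ h1, hGc2 _ _ _ (by omega), Multiset.count_cons_of_ne (by omega), ih]
  have hEqG : ∀ t, G μ t = G μ' t := by
    intro t
    have h1 := h t
    rw [hR μ t, hR μ' t, h (t + 1)] at h1
    omega
  ext a
  rcases Nat.eq_zero_or_pos a with rfl | ha
  · rw [Multiset.count_eq_zero_of_notMem (fun hh => lt_irrefl _ (h0 0 hh)),
      Multiset.count_eq_zero_of_notMem (fun hh => lt_irrefl _ (h0' 0 hh))]
  · obtain ⟨b, rfl⟩ : ∃ b, a = b + 1 := ⟨a - 1, by omega⟩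
    have h1 := hG μ b
    have h2 := hG μ' b
    rw [hEqG b, hEqG (b + 1)] at h1
    omega

/-- Jordan types add up along a stable decomposition. -/
theorem HasJType.add_eq {N : V →ₗ[F] V} {U W X : Submodule F V} {μ₁ μ₂ μ : Multiset ℕ}
    (h₁ : HasJType N U μ₁) (h₂ : HasJType N W μ₂) (h : HasJType N X μ) (hinf : U ⊓ W = ⊥)
    (hsup : U ⊔ W = X) : μ = μ₁ + μ₂ := by
  apply multiset_eq_of_sub_sum _ _ h.pos
  · intro a ha
    rcases Multiset.mem_add.1 ha with ha | ha
    · exact h₁.pos a ha
    · exact h₂.pos a ha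
  · intro t
    rw [← h.finrank_map_pow t, Multiset.map_add, Multiset.sum_add, ← h₁.finrank_map_pow t,
      ← h₂.finrank_map_pow t, ← hsup, Submodule.map_sup]
    have h3 : U.map (N ^ t) ⊓ W.map (N ^ t) = ⊥ := by
      rw [eq_bot_iff, ← hinf]
      exact inf_le_inf (HasJType.map_pow_le h₁.stable t) (HasJType.map_pow_le h₂.stable t)
    have h4 := Submodule.finrank_sup_add_finrank_inf_eq (U.map (N ^ t)) (W.map (N ^ t))
    rw [h3, finrank_bot, add_zero] at h4
    exact h4

end Jordan

section Explicit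

variable {F : Type*} [Field F]

/-- A nilpotent map with a prescribed Jordan type. -/
theorem exists_nilpotent_of_type (n : ℕ) (μ : Multiset ℕ) (h0 : ∀ a ∈ μ, 0 < a) (hs : μ.sum = n) :
    ∃ N : (Fin n → F) →ₗ[F] (Fin n → F), HasJType N ⊤ μ := by
  classical
  let l := μ.toList
  let k := l.length
  let a : Fin k → ℕ := l.get
  have hμ : (Finset.univ : Finset (Fin k)).val.map a = μ := by
    rw [Fin.univ_val_map, List.ofFn_get, Multiset.coe_toList]
  have hcard : Fintype.card (Σ j : Fin k, Fin (a j)) = n := by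
    rw [Fintype.card_sigma]
    simp only [Fintype.card_fin]
    rw [← hs, ← hμ]
    rfl
  let e : (Σ j : Fin k, Fin (a j)) ≃ Fin n := Fintype.equivFinOfCardEq hcard
  let b : Basis (Σ j : Fin k, Fin (a j)) F (Fin n → F) := (Pi.basisFun F (Fin n)).reindex e.symm
  let nxt : (Σ j : Fin k, Fin (a j)) → (Fin n → F) := fun x =>
    if h : (x.2 : ℕ) + 1 < a x.1 then b ⟨x.1, ⟨(x.2 : ℕ) + 1, h⟩⟩ else 0
  let N : (Fin n → F) →ₗ[F] (Fin n → F) := b.constr F nxt
  have hN : ∀ x, N (b x) = nxt x := fun x => by simp [N]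
  have hpos : ∀ j, 0 < a j := by
    intro j
    apply h0
    rw [← hμ]
    exact Multiset.mem_map_of_mem _ (Finset.mem_univ j)
  let v : Fin k → (Fin n → F) := fun j => b ⟨j, ⟨0, hpos j⟩⟩
  have hpow : ∀ (j : Fin k) (l : ℕ) (hl : l < a j), (N ^ l) (v j) = b ⟨j, ⟨l, hl⟩⟩ := by
    intro j l
    induction l with
    | zero => intro _; simp [v]
    | succ l ih =>
      intro hl
      rw [pow_succ', Module.End.mul_apply, ih (by omega), hN]
      simp only [nxt]
      rw [dif_pos hl]
  have hkill : ∀ j, (N ^ a j) (v j) = 0 := by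
    intro j
    have h1 : a j = (a j - 1) + 1 := by have := hpos j; omega
    have h2 := hpow j (a j - 1) (by have := hpos j; omega)
    rw [h1, pow_succ', Module.End.mul_apply, h2, hN]
    simp only [nxt]
    rw [dif_neg (by simp; have := hpos j; omega)]
  -- the block of `j`
  let C : Fin k → Submodule F (Fin n → F) := fun j =>
    Submodule.span F (b '' {x | x.1 = j})
  have hCeq : ∀ j, C j = Submodule.span F (Set.range fun l : Fin (a j) => (N ^ (l : ℕ)) (v j)) := by
    intro j
    have hset : b '' {x | x.1 = j} = Set.range fun l : Fin (a j) => (N ^ (l : ℕ)) (v j) := by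
      apply Set.ext
      intro u
      constructor
      · rintro ⟨x, hx, rfl⟩
        obtain ⟨j', l'⟩ := x
        have hx' : j' = j := hx
        subst hx'
        exact ⟨l', by simp only; rw [hpow]⟩
      · rintro ⟨l', rfl⟩
        exact ⟨⟨j, l'⟩, rfl, by simp only; rw [hpow]⟩
    show Submodule.span F (b '' {x | x.1 = j}) = _
    rw [hset]
  have hCrank : ∀ j, finrank F (C j) = a j := by
    intro j
    have hli : LinearIndependent F (fun l : Fin (a j) => (N ^ (l : ℕ)) (v j)) := by
      have h1 : (fun l : Fin (a j) => (N ^ (l : ℕ)) (v j)) = b ∘ (fun l => ⟨j, l⟩) := by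
        funext l
        simp only [Function.comp]
        rw [hpow]
      rw [h1]
      apply b.linearIndependent.comp
      intro x y hxy
      simpa using hxy
    rw [hCeq, finrank_span_eq_card hli, Fintype.card_fin]
  have hblock : ∀ j, JBlock N (C j) (a j) := fun j =>
    ⟨hpos j, hCrank j, v j, hCeq j, hkill j⟩
  have hJ : ∀ J : Finset (Fin k), HasJType N (Submodule.span F (b '' {x | x.1 ∈ J})) (J.val.map a) := by
    intro J
    induction J using Finset.induction_on with
    | empty => simpa using HasJType.nil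
    | insert j J hj ih =>
      have h1 : Submodule.span F (b '' {x | x.1 ∈ insert j J}) =
          Submodule.span F (b '' {x | x.1 ∈ J}) ⊔ C j := by
        rw [← Submodule.span_union, ← Set.image_union]
        have hset : {x : (Σ j : Fin k, Fin (a j)) | x.1 ∈ insert j J} =
            {x | x.1 ∈ J} ∪ {x | x.1 = j} := by
          apply Set.ext
          intro x
          show x.1 ∈ insert j J ↔ x.1 ∈ J ∨ x.1 = j
          rw [Finset.mem_insert]
          tauto
        rw [hset]
      rw [h1, Finset.insert_val_of_notMem hj, Multiset.map_cons]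
      apply HasJType.cons ih (hblock j)
      apply disjoint_iff.1
      apply b.linearIndependent.disjoint_span_image
      rw [Set.disjoint_left]
      intro x hx hx'
      apply hj
      have hx1 : x.1 ∈ J := hx
      have hx2 : x.1 = j := hx'
      rw [← hx2]
      exact hx1
  refine ⟨N, ?_⟩
  have h1 := hJ Finset.univ
  have h2 : (b '' {x | x.1 ∈ (Finset.univ : Finset (Fin k))}) = Set.range b := by
    apply Set.ext
    intro u
    simp
  rw [h2, b.span_eq, hμ] at h1
  exact h1

end Explicit

end Cfsg.Agent.H29
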