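/-
Standard nilpotent matrices: conjugacy from Jordan data, ranks, block scalars.
-/
import Cfsg.Agent.Lib.H29.Jordan
import Mathlib.LinearAlgebra.Matrix.SpecialLinearGroup
import Mathlib.LinearAlgebra.Matrix.Rank
import Mathlib.LinearAlgebra.Matrix.Block

set_option autoImplicit false

namespace Cfsg.Agent.H29

open Module

section Family

variable {F V : Type*} [Field F] [AddCommGroup V] [Module F V] [FiniteDimensional F V]

/-- A Jordan decomposition, as explicit data. -/
theorem HasJType.exists_family {N : V →ₗ[F] V} {W : Submodule F V} {μ : Multiset ℕ}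
    (h : HasJType N W μ) :
    ∃ (κ : Type) (_ : Fintype κ) (_ : DecidableEq κ) (a : κ → ℕ) (v : κ → V),
      Finset.univ.val.map a = μ ∧ (∀ j, 0 < a j) ∧ (∀ j, (N ^ (a j)) (v j) = 0) ∧
      LinearIndependent F (fun x : (Σ j, Fin (a j)) => (N ^ (x.2 : ℕ)) (v x.1)) ∧
      Submodule.span F (Set.range (fun x : (Σ j, Fin (a j)) => (N ^ (x.2 : ℕ)) (v x.1))) = W := by
  classical
  induction h with
  | nil =>
    refine ⟨Empty, inferInstance, inferInstance, Empty.elim, Empty.elim, by simp, fun j => j.elim,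
      fun j => j.elim, ?_, ?_⟩
    · exact linearIndependent_empty_type
    · have : IsEmpty (Σ j : Empty, Fin (Empty.elim j : ℕ)) := ⟨fun x => x.1.elim⟩
      rw [Set.range_eq_empty, Submodule.span_empty]
  | cons hW hC hd ih =>
    rename_i W C μ L
    obtain ⟨κ, _, _, a, v, hμ, hpos, hkill, hli, hspan⟩ := ih
    obtain ⟨hLpos, hCr, v₀, hCv, hv₀⟩ := hC
    let a' : Option κ → ℕ := fun o => o.elim L a
    let v' : Option κ → V := fun o => o.elim v₀ v
    let E : (Fin L ⊕ Σ j, Fin (a j)) ≃ Σ o : Option κ, Fin (a' o) :=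
    { toFun := Sum.elim (fun l => ⟨none, l⟩) (fun x => ⟨some x.1, x.2⟩)
      invFun := fun x => match x with
        | ⟨none, l⟩ => Sum.inl l
        | ⟨some j, l⟩ => Sum.inr ⟨j, l⟩
      left_inv := by
        rintro (l | ⟨j, l⟩) <;> rfl
      right_inv := by
        rintro ⟨(_ | j), l⟩ <;> rfl }
    have hli₀ : LinearIndependent F (fun l : Fin L => (N ^ (l : ℕ)) v₀) := by
      rw [linearIndependent_iff_card_eq_finrank_span, Fintype.card_fin, Set.finrank, ← hCv, hCr]
    have hsum : LinearIndependent F (Sum.elim (fun l : Fin L => (N ^ (l : ℕ)) v₀)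
        (fun x : (Σ j, Fin (a j)) => (N ^ (x.2 : ℕ)) (v x.1))) := by
      apply LinearIndependent.sum_type hli₀ hli
      rw [← hCv, hspan, disjoint_comm]
      exact disjoint_iff.2 hd
    have hcomp : (fun x : (Σ o : Option κ, Fin (a' o)) => (N ^ (x.2 : ℕ)) (v' x.1)) ∘ E =
        Sum.elim (fun l : Fin L => (N ^ (l : ℕ)) v₀)
          (fun x : (Σ j, Fin (a j)) => (N ^ (x.2 : ℕ)) (v x.1)) := by
      funext y
      rcases y with l | ⟨j, l⟩ <;> rfl
    refine ⟨Option κ, inferInstance, inferInstance, a', v', ?_, ?_, ?_, ?_, ?_⟩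
    · rw [← hμ, univ_option]
      simp [Finset.insertNone, a']
      rfl
    · rintro (_ | j)
      · exact hLpos
      · exact hpos j
    · rintro (_ | j)
      · exact hv₀
      · exact hkill j
    · rw [← hcomp] at hsum
      exact (linearIndependent_equiv E).1 hsum
    · have hrange : Set.range (fun x : (Σ o : Option κ, Fin (a' o)) => (N ^ (x.2 : ℕ)) (v' x.1)) =
          Set.range (Sum.elim (fun l : Fin L => (N ^ (l : ℕ)) v₀)
            (fun x : (Σ j, Fin (a j)) => (N ^ (x.2 : ℕ)) (v x.1))) := by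
        rw [← hcomp, Set.range_comp, E.surjective.range_eq, Set.image_univ]
      rw [hrange, Set.Sum.elim_range, Submodule.span_union, ← hCv, hspan, sup_comm]

end Family

section Std

variable {n : ℕ} {κ : Type*} [Fintype κ] [DecidableEq κ] {a : κ → ℕ}

/-- The column of the standard nilpotent matrix at a position. -/
def stdCol (e : (Σ j : κ, Fin (a j)) ≃ Fin n) (R : Type*) [Zero R] [One R]
    (x : Σ j : κ, Fin (a j)) (i : Fin n) : R :=
  if h : (x.2 : ℕ) + 1 < a x.1 then (if i = e ⟨x.1, ⟨(x.2 : ℕ) + 1, h⟩⟩ then 1 else 0) else 0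

/-- The standard nilpotent matrix with given blocks. -/
def stdNil (e : (Σ j : κ, Fin (a j)) ≃ Fin n) (R : Type*) [Zero R] [One R] :
    Matrix (Fin n) (Fin n) R := fun i i' => stdCol e R (e.symm i') i

theorem stdNil_map (e : (Σ j : κ, Fin (a j)) ≃ Fin n) {R S : Type*} [Semiring R] [Semiring S]
    (f : R →+* S) : (stdNil e R).map f = stdNil e S := by
  ext i i'
  simp only [Matrix.map_apply, stdNil, stdCol]
  split_ifs <;> simp

theorem stdNil_mulVec_single (e : (Σ j : κ, Fin (a j)) ≃ Fin n) {R : Type*} [Semiring R]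
    (x : Σ j : κ, Fin (a j)) :
    (stdNil e R).mulVec (Pi.single (e x) 1) =
      if h : (x.2 : ℕ) + 1 < a x.1 then Pi.single (e ⟨x.1, ⟨(x.2 : ℕ) + 1, h⟩⟩) 1 else 0 := by
  classical
  ext i
  rw [Matrix.mulVec_single_one]
  show stdCol e R (e.symm (e x)) i = _
  rw [Equiv.symm_apply_apply]
  simp only [stdCol]
  split_ifs with h1 h2
  · simp [h2]
  · simp [Pi.single_apply, h2]
  · simp

variable {F : Type*} [Field F]

/-- Conjugating into the standard nilpotent matrix. -/
theorem exists_conj_of_family (N : (Fin n → F) →ₗ[F] (Fin n → F))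
    (e : (Σ j : κ, Fin (a j)) ≃ Fin n) (v : κ → (Fin n → F))
    (hkill : ∀ j, (N ^ (a j)) (v j) = 0)
    (hli : LinearIndependent F (fun x : (Σ j, Fin (a j)) => (N ^ (x.2 : ℕ)) (v x.1))) :
    ∃ Q : GL (Fin n) F, (∀ x : (Σ j, Fin (a j)),
        (Q : Matrix (Fin n) (Fin n) F).mulVec (Pi.single (e x) 1) = (N ^ (x.2 : ℕ)) (v x.1)) ∧
      LinearMap.toMatrix' N * (Q : Matrix (Fin n) (Fin n) F) =
        (Q : Matrix (Fin n) (Fin n) F) * stdNil e F := by
  classical
  have hcard : Fintype.card (Σ j, Fin (a j)) = finrank F (Fin n → F) := by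
    rw [Module.finrank_fin_fun, Fintype.card_congr e, Fintype.card_fin]
  let B : Basis (Σ j, Fin (a j)) F (Fin n → F) :=
    Basis.mk hli (hli.span_eq_top_of_card_eq_finrank' hcard).ge
  have hB : ∀ x, B x = (N ^ (x.2 : ℕ)) (v x.1) := fun x => by
    simp [B]
  let B₀ : Basis (Σ j, Fin (a j)) F (Fin n → F) := (Pi.basisFun F (Fin n)).reindex e.symm
  have hB₀ : ∀ x, B₀ x = Pi.single (e x) 1 := fun x => by
    simp [B₀]
  let Φ : (Fin n → F) ≃ₗ[F] (Fin n → F) := B₀.equiv B (Equiv.refl _)
  have hΦ : ∀ x, Φ (Pi.single (e x) 1) = B x := fun x => by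
    rw [← hB₀]
    simp [Φ]
  let Q₁ : Matrix (Fin n) (Fin n) F := LinearMap.toMatrix' (Φ : (Fin n → F) →ₗ[F] (Fin n → F))
  have hdet : Q₁.det ≠ 0 := by
    have h1 := LinearEquiv.isUnit_det' Φ
    rw [LinearMap.det_toMatrix']
    exact h1.ne_zero
  have hQ₁ : ∀ w, Q₁.mulVec w = Φ w := fun w => by
    simp [Q₁, LinearMap.toMatrix'_mulVec]
  refine ⟨Matrix.GeneralLinearGroup.mkOfDetNeZero Q₁ hdet, ?_, ?_⟩
  · intro x
    show Q₁.mulVec _ = _
    rw [hQ₁, hΦ, hB]
  · show LinearMap.toMatrix' N * Q₁ = Q₁ * stdNil e F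
    apply Matrix.toLin'.injective
    apply LinearMap.pi_ext'
    intro i
    apply LinearMap.ext_ring
    obtain ⟨x, rfl⟩ := e.surjective i
    simp only [LinearMap.comp_apply, LinearMap.single_apply]
    rw [Matrix.toLin'_apply, Matrix.toLin'_apply, ← Matrix.mulVec_mulVec, ← Matrix.mulVec_mulVec,
      hQ₁, hΦ, hB, LinearMap.toMatrix'_mulVec, stdNil_mulVec_single, pow_succ_apply]
    by_cases hl : (x.2 : ℕ) + 1 < a x.1
    · rw [dif_pos hl, hQ₁, hΦ, hB]
    · rw [dif_neg hl, Matrix.mulVec_zero]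
      exact pow_eq_zero_of_le N (hkill x.1) (by omega)

/-- Every nilpotent map is conjugate to a standard one. -/
theorem exists_std_conj (N : (Fin n → F) →ₗ[F] (Fin n → F)) (K : ℕ) (hK : N ^ K = 0) :
    ∃ (κ : Type) (_ : Fintype κ) (_ : DecidableEq κ) (a : κ → ℕ)
      (e : (Σ j : κ, Fin (a j)) ≃ Fin n) (Q : GL (Fin n) F),
      (∀ j, 0 < a j) ∧ (∀ j, a j ≤ K) ∧
      LinearMap.toMatrix' N * (Q : Matrix (Fin n) (Fin n) F) =
        (Q : Matrix (Fin n) (Fin n) F) * stdNil e F := by
  classical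
  obtain ⟨μ, hμ, hμK⟩ := exists_hasJType N K _ ⊤ rfl (tStable_top N) (fun v _ => by rw [hK]; rfl)
  obtain ⟨κ', _, _, a', v, hμ', hpos, hkill, hli, hspan⟩ := hμ.exists_family
  have hcard : Fintype.card (Σ j, Fin (a' j)) = n := by
    have h1 := finrank_span_eq_card hli
    rw [hspan, finrank_top, Module.finrank_fin_fun] at h1
    exact h1.symm
  let e' : (Σ j, Fin (a' j)) ≃ Fin n := Fintype.equivFinOfCardEq hcard
  obtain ⟨Q, -, hQ⟩ := exists_conj_of_family N e' v hkill hli
  refine ⟨κ', inferInstance, inferInstance, a', e', Q, hpos, ?_, hQ⟩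
  intro j
  apply hμK
  rw [← hμ']
  exact Multiset.mem_map_of_mem _ (Finset.mem_univ j)

/-- The diagonal matrix acting by `c` on one block. -/
def stdScal (e : (Σ j : κ, Fin (a j)) ≃ Fin n) (j₀ : κ) (c : F) : Matrix (Fin n) (Fin n) F :=
  Matrix.diagonal fun i => if (e.symm i).1 = j₀ then c else 1

theorem stdScal_commute (e : (Σ j : κ, Fin (a j)) ≃ Fin n) (j₀ : κ) (c : F) :
    stdScal e j₀ c * stdNil e F = stdNil e F * stdScal e j₀ c := by
  ext i i'
  rw [stdScal, Matrix.diagonal_mul, Matrix.mul_diagonal]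
  by_cases h : stdNil e F i i' = 0
  · rw [h, mul_zero, zero_mul]
  · have h1 : (e.symm i).1 = (e.symm i').1 := by
      simp only [stdNil, stdCol] at h
      split_ifs at h with h1 h2
      · rw [h2, Equiv.symm_apply_apply]
      · exact absurd rfl h
      · exact absurd rfl h
    rw [h1, mul_comm]

theorem stdScal_det (e : (Σ j : κ, Fin (a j)) ≃ Fin n) (j₀ : κ) (c : F) :
    (stdScal e j₀ c).det = c ^ a j₀ := by
  classical
  rw [stdScal, Matrix.det_diagonal]
  have h1 : (∏ i : Fin n, if (e.symm i).1 = j₀ then c else 1) =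
      ∏ x : (Σ j, Fin (a j)), if x.1 = j₀ then c else 1 :=
    Fintype.prod_equiv e.symm _ _ (fun i => rfl)
  rw [h1, Fintype.prod_sigma]
  rw [Finset.prod_eq_single j₀]
  · simp
  · intro j _ hj
    simp [hj]
  · intro h
    exact absurd (Finset.mem_univ _) h

end Std

section Rank

variable {F : Type*} [Field F] {n : ℕ}

/-- The rank does not change under conjugation. -/
theorem finrank_map_of_conj (N N' : (Fin n → F) →ₗ[F] (Fin n → F)) (Q : (Fin n → F) ≃ₗ[F] (Fin n → F))
    (h : N' ∘ₗ (Q : (Fin n → F) →ₗ[F] (Fin n → F)) = (Q : (Fin n → F) →ₗ[F] (Fin n → F)) ∘ₗ N) (t : ℕ) :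
    finrank F ((⊤ : Submodule F (Fin n → F)).map (N' ^ t)) =
      finrank F ((⊤ : Submodule F (Fin n → F)).map (N ^ t)) := by
  have h1 : ∀ t : ℕ, (N' ^ t) ∘ₗ (Q : (Fin n → F) →ₗ[F] (Fin n → F)) =
      (Q : (Fin n → F) →ₗ[F] (Fin n → F)) ∘ₗ (N ^ t) := by
    intro t
    induction t with
    | zero => rfl
    | succ t ih =>
      rw [pow_succ', pow_succ', Module.End.mul_eq_comp, Module.End.mul_eq_comp, LinearMap.comp_assoc, ih,
        ← LinearMap.comp_assoc, h, LinearMap.comp_assoc]
  have h2 : (⊤ : Submodule F (Fin n → F)).map (N' ^ t) =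
      ((⊤ : Submodule F (Fin n → F)).map (N ^ t)).map (Q : (Fin n → F) →ₗ[F] (Fin n → F)) := by
    rw [← Submodule.map_comp, ← h1, Submodule.map_comp]
    congr 1
    rw [Submodule.map_top, LinearEquiv.range]
  rw [h2, LinearEquiv.finrank_map_eq]

/-- `HasJType` from a basis with a nilpotent shift. -/
theorem hasJType_of_basis {κ : Type*} [Fintype κ] [DecidableEq κ] {a : κ → ℕ}
    (hpos : ∀ j, 0 < a j) {V : Type*} [AddCommGroup V] [Module F V] [FiniteDimensional F V]
    (b : Basis (Σ j : κ, Fin (a j)) F V) (N : V →ₗ[F] V)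
    (hN : ∀ x : (Σ j : κ, Fin (a j)), N (b x) =
      if h : (x.2 : ℕ) + 1 < a x.1 then b ⟨x.1, ⟨(x.2 : ℕ) + 1, h⟩⟩ else 0) :
    HasJType N ⊤ (Finset.univ.val.map a) := by
  classical
  let v : κ → V := fun j => b ⟨j, ⟨0, hpos j⟩⟩
  have hpow : ∀ (j : κ) (l : ℕ) (hl : l < a j), (N ^ l) (v j) = b ⟨j, ⟨l, hl⟩⟩ := by
    intro j l
    induction l with
    | zero => intro _; simp [v]
    | succ l ih =>
      intro hl
      rw [pow_succ', Module.End.mul_apply, ih (by omega), hN]
      simp only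
      rw [dif_pos hl]
  have hkill : ∀ j, (N ^ a j) (v j) = 0 := by
    intro j
    have h1 : a j = (a j - 1) + 1 := by have := hpos j; omega
    have h2 := hpow j (a j - 1) (by have := hpos j; omega)
    rw [h1, pow_succ', Module.End.mul_apply, h2, hN]
    simp only
    rw [dif_neg (by simp; have := hpos j; omega)]
  let C : κ → Submodule F V := fun j => Submodule.span F (b '' {x | x.1 = j})
  have hCeq : ∀ j, C j = Submodule.span F (Set.range fun l : Fin (a j) => (N ^ (l : ℕ)) (v j)) := by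
    intro j
    have hset : b '' {x | x.1 = j} = Set.range fun l : Fin (a j) => (N ^ (l : ℕ)) (v j) := by
      apply Set.ext
      intro u
      constructor
      · rintro ⟨x, hx, rfl⟩
        obtain ⟨j', l'⟩ := x
        have hx' : j' = j := hx
        subst hx'
        exact ⟨l', by simp only; rw [hpow]⟩
      · rintro ⟨l', rfl⟩
        exact ⟨⟨j, l'⟩, rfl, by simp only; rw [hpow]⟩
    show Submodule.span F (b '' {x | x.1 = j}) = _
    rw [hset]
  have hCrank : ∀ j, finrank F (C j) = a j := by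
    intro j
    have hli : LinearIndependent F (fun l : Fin (a j) => (N ^ (l : ℕ)) (v j)) := by
      have h1 : (fun l : Fin (a j) => (N ^ (l : ℕ)) (v j)) = b ∘ (fun l => ⟨j, l⟩) := by
        funext l
        simp only [Function.comp]
        rw [hpow]
      rw [h1]
      apply b.linearIndependent.comp
      intro x y hxy
      simpa using hxy
    rw [hCeq, finrank_span_eq_card hli, Fintype.card_fin]
  have hblock : ∀ j, JBlock N (C j) (a j) := fun j =>
    ⟨hpos j, hCrank j, v j, hCeq j, hkill j⟩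
  have hJ : ∀ J : Finset κ, HasJType N (Submodule.span F (b '' {x | x.1 ∈ J})) (J.val.map a) := by
    intro J
    induction J using Finset.induction_on with
    | empty => simpa using HasJType.nil
    | insert j J hj ih =>
      have h1 : Submodule.span F (b '' {x | x.1 ∈ insert j J}) =
          Submodule.span F (b '' {x | x.1 ∈ J}) ⊔ C j := by
        rw [← Submodule.span_union, ← Set.image_union]
        have hset : {x : (Σ j : κ, Fin (a j)) | x.1 ∈ insert j J} =
            {x | x.1 ∈ J} ∪ {x | x.1 = j} := by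
          apply Set.ext
          intro x
          show x.1 ∈ insert j J ↔ x.1 ∈ J ∨ x.1 = j
          rw [Finset.mem_insert]
          tauto
        rw [hset]
      rw [h1, Finset.insert_val_of_notMem hj, Multiset.map_cons]
      apply HasJType.cons ih (hblock j)
      apply disjoint_iff.1
      apply b.linearIndependent.disjoint_span_image
      rw [Set.disjoint_left]
      intro x hx hx'
      apply hj
      have hx1 : x.1 ∈ J := hx
      have hx2 : x.1 = j := hx'
      rw [← hx2]
      exact hx1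
  have h1 := hJ Finset.univ
  have h2 : (b '' {x | x.1 ∈ (Finset.univ : Finset κ)}) = Set.range b := by
    apply Set.ext
    intro u
    simp
  rw [h2, b.span_eq] at h1
  exact h1

/-- The Jordan type of the standard matrix. -/
theorem hasJType_stdNil {κ : Type*} [Fintype κ] [DecidableEq κ] {a : κ → ℕ} (hpos : ∀ j, 0 < a j)
    (e : (Σ j : κ, Fin (a j)) ≃ Fin n) :
    HasJType (Matrix.toLin' (stdNil e F)) ⊤ (Finset.univ.val.map a) := by
  classical
  let B₀ : Basis (Σ j, Fin (a j)) F (Fin n → F) := (Pi.basisFun F (Fin n)).reindex e.symm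
  have hB₀ : ∀ x, B₀ x = Pi.single (e x) 1 := fun x => by
    simp [B₀]
  apply hasJType_of_basis hpos B₀
  intro x
  rw [Matrix.toLin'_apply, hB₀, stdNil_mulVec_single]
  by_cases hl : (x.2 : ℕ) + 1 < a x.1
  · rw [dif_pos hl, dif_pos hl, hB₀]
  · rw [dif_neg hl, dif_neg hl]

/-- The rank does not change under field extensions. -/
theorem rank_map_eq {E : Type*} [Field E] (ι : E →+* F) (M : Matrix (Fin n) (Fin n) E) :
    (M.map ι).rank = M.rank := by
  classical
  obtain ⟨V, U, e, hV, hU, h⟩ := Matrix.exists_rank_normal_form M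
  have hmap : (V.map ι) * (M.map ι) * (U.map ι) =
      (Matrix.fromBlocks (1 : Matrix (Fin M.rank) (Fin M.rank) F) 0 0 0).submatrix e e := by
    rw [← Matrix.map_mul, ← Matrix.map_mul, h]
    ext i j
    simp only [Matrix.map_apply, Matrix.submatrix_apply]
    rcases e i with a | a <;> rcases e j with b | b <;> simp [Matrix.one_apply, apply_ite ι]
  have hVd : IsUnit (V.map ι).det := by
    have h1 := (Matrix.isUnit_iff_isUnit_det V).1 hV
    rw [← RingHom.mapMatrix_apply, ← RingHom.map_det]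
    exact h1.map ι
  have hUd : IsUnit (U.map ι).det := by
    have h1 := (Matrix.isUnit_iff_isUnit_det U).1 hU
    rw [← RingHom.mapMatrix_apply, ← RingHom.map_det]
    exact h1.map ι
  have h1 : ((V.map ι) * (M.map ι) * (U.map ι)).rank = (M.map ι).rank := by
    rw [Matrix.rank_mul_eq_left_of_isUnit_det _ _ hUd, Matrix.rank_mul_eq_right_of_isUnit_det _ _ hVd]
  rw [← h1, hmap, Matrix.rank_submatrix]
  have h2 : Matrix.fromBlocks (1 : Matrix (Fin M.rank) (Fin M.rank) F) 0 0
      (0 : Matrix (Fin (Fintype.card (Fin n) - M.rank)) (Fin (Fintype.card (Fin n) - M.rank)) F) =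
      Matrix.diagonal (Sum.elim (fun _ => 1) (fun _ => 0)) := by
    ext i j
    rcases i with a | a <;> rcases j with b | b <;> simp [Matrix.one_apply, Matrix.diagonal_apply]
  rw [h2, Matrix.rank_diagonal]
  have h3 : Fintype.card {i : Fin M.rank ⊕ Fin (Fintype.card (Fin n) - M.rank) //
      Sum.elim (fun _ => (1 : F)) (fun _ => (0 : F)) i ≠ 0} = Fintype.card (Fin M.rank) := by
    apply Fintype.card_congr
    exact
    { toFun := fun x => match x with
        | ⟨Sum.inl a, _⟩ => a
        | ⟨Sum.inr a, h⟩ => absurd rfl h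
      invFun := fun a => ⟨Sum.inl a, by simp⟩
      left_inv := by
        rintro ⟨a | a, h⟩
        · rfl
        · exact absurd rfl h
      right_inv := fun a => rfl }
  rw [h3, Fintype.card_fin]

theorem rank_eq_finrank_map (M : Matrix (Fin n) (Fin n) F) :
    M.rank = finrank F ((⊤ : Submodule F (Fin n → F)).map (Matrix.toLin' M)) := by
  rw [Submodule.map_top]
  rfl

/-- The case where all the blocks have size two. -/
theorem exists_conj_two_blocks {m : ℕ} (e₀ : (Σ _ : Fin m, Fin 2) ≃ Fin n) (M : Matrix (Fin n) (Fin n) F)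
    (hM : M ^ 2 = 0) (hr : M.rank = m) :
    ∃ Q : GL (Fin n) F, M * (Q : Matrix (Fin n) (Fin n) F) = (Q : Matrix (Fin n) (Fin n) F) * stdNil e₀ F := by
  classical
  have hnm : n = 2 * m := by
    have := Fintype.card_congr e₀
    simp at this
    omega
  set L := Matrix.toLin' M with hL
  have hL2 : L ^ 2 = 0 := by
    have h1 : ∀ k : ℕ, Matrix.toLin' (M ^ k) = L ^ k := by
      intro k
      induction k with
      | zero => rw [pow_zero, pow_zero, Matrix.toLin'_one]; rfl
      | succ k ih => rw [pow_succ, pow_succ, Matrix.toLin'_mul, ih]; rfl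
    rw [← h1, hM, map_zero]
  obtain ⟨μ, hμ, hμK⟩ := exists_hasJType L 2 _ ⊤ rfl (tStable_top L) (fun v _ => by rw [hL2]; rfl)
  obtain ⟨κ₁, _, _, a₁, v₁, hμ', hpos, hkill, hli, hspan⟩ := hμ.exists_family
  have hle : ∀ j, a₁ j ≤ 2 := by
    intro j
    apply hμK
    rw [← hμ']
    exact Multiset.mem_map_of_mem _ (Finset.mem_univ j)
  have hcard : Fintype.card (Σ j, Fin (a₁ j)) = n := by
    have h1 := finrank_span_eq_card hli
    rw [hspan, finrank_top, Module.finrank_fin_fun] at h1
    exact h1.symm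
  rw [Fintype.card_sigma] at hcard
  simp only [Fintype.card_fin] at hcard
  have hrank : ∑ j, (a₁ j - 1) = m := by
    have h1 := hμ.finrank_map_pow 1
    rw [pow_one, ← rank_eq_finrank_map, hr, ← hμ', Multiset.map_map] at h1
    rw [h1]
    rfl
  have hcκ : Fintype.card κ₁ = m := by
    have h1 : ∑ j, (a₁ j - 1) + ∑ _j : κ₁, 1 = ∑ j, a₁ j := by
      rw [← Finset.sum_add_distrib]
      apply Finset.sum_congr rfl
      intro j _
      have := hpos j
      omega
    simp only [Finset.sum_const, smul_eq_mul, mul_one, Finset.card_univ] at h1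
    omega
  have hall : ∀ j, a₁ j = 2 := by
    have h1 : ∑ j, (2 - a₁ j) + ∑ j, a₁ j = ∑ _j : κ₁, 2 := by
      rw [← Finset.sum_add_distrib]
      apply Finset.sum_congr rfl
      intro j _
      have := hle j
      omega
    simp only [Finset.sum_const, smul_eq_mul, Finset.card_univ] at h1
    have h2 : ∑ j, (2 - a₁ j) = 0 := by omega
    rw [Finset.sum_eq_zero_iff] at h2
    intro j
    have h3 := h2 j (Finset.mem_univ j)
    have := hle j
    omega
  obtain rfl : a₁ = fun _ => 2 := funext hall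
  let σ : Fin m ≃ κ₁ := (Fintype.equivFinOfCardEq hcκ).symm
  have hli' : LinearIndependent F (fun x : (Σ _ : Fin m, Fin 2) => (L ^ (x.2 : ℕ)) (v₁ (σ x.1))) := by
    have h1 : (fun x : (Σ _ : Fin m, Fin 2) => (L ^ (x.2 : ℕ)) (v₁ (σ x.1))) =
        (fun x : (Σ _ : κ₁, Fin 2) => (L ^ (x.2 : ℕ)) (v₁ x.1)) ∘ (fun x => ⟨σ x.1, x.2⟩) := rfl
    rw [h1]
    apply hli.comp
    rintro ⟨j, l⟩ ⟨j', l'⟩ h
    simp only [Sigma.mk.injEq, heq_eq_eq] at h
    obtain ⟨h2, rfl⟩ := h
    rw [σ.injective h2]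
  obtain ⟨Q, -, hQ⟩ := exists_conj_of_family L e₀ (fun j => v₁ (σ j)) (fun j => hkill (σ j)) hli'
  refine ⟨Q, ?_⟩
  rw [hL, LinearMap.toMatrix'_toLin'] at hQ
  exact hQ

end Rank

end Cfsg.Agent.H29
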