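/-
Unipotent elements of prescribed Jordan type, sub-multisets from stable complements.
-/
import Cfsg.Agent.Lib.H29.Jordan
import Mathlib.LinearAlgebra.Matrix.SpecialLinearGroup

set_option autoImplicit false

namespace Cfsg.Agent.H29

open Module

section

variable {F : Type*} [Field F]

/-- A stable complement gives a sub-multiset. -/
theorem exists_sub_of_compl {V : Type*} [AddCommGroup V] [Module F V] [FiniteDimensional F V]
    {N : V →ₗ[F] V} {μ : Multiset ℕ} (hμ : HasJType N ⊤ μ) {K : ℕ} (hK : ∀ a ∈ μ, a ≤ K)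
    {U W : Submodule F V} (hc : IsCompl U W) (hU : TStable N U) (hW : TStable N W) :
    ∃ ν : Multiset ℕ, ν ≤ μ ∧ ν.sum = finrank F U := by
  have hkill : ∀ v : V, (N ^ K) v = 0 := fun v => hμ.kill hK (Submodule.mem_top)
  obtain ⟨μ₁, h₁, -⟩ := exists_hasJType N K _ U rfl hU (fun v _ => hkill v)
  obtain ⟨μ₂, h₂, -⟩ := exists_hasJType N K _ W rfl hW (fun v _ => hkill v)
  refine ⟨μ₁, ?_, h₁.finrank_eq.symm⟩
  rw [HasJType.add_eq h₁ h₂ hμ hc.inf_eq_bot hc.sup_eq_top]
  exact Multiset.le_add_right _ _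

theorem HasJType.ne_zero_of_part {V : Type*} [AddCommGroup V] [Module F V] [FiniteDimensional F V]
    {N : V →ₗ[F] V} {μ : Multiset ℕ} (hμ : HasJType N ⊤ μ) {a : ℕ} (ha : a ∈ μ) (h2 : 2 ≤ a) :
    N ≠ 0 := by
  rintro rfl
  have h1 := hμ.finrank_map_pow 1
  rw [pow_one, Submodule.map_zero, finrank_bot] at h1
  have h3 : a - 1 ∈ μ.map fun a => a - 1 := Multiset.mem_map_of_mem _ ha
  have h4 : a - 1 ≤ (μ.map fun a => a - 1).sum := Multiset.le_sum_of_mem h3
  omega

variable {p : ℕ} [Fact p.Prime] [CharP F p]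

theorem eq_one_of_pow_char {a : F} (h : a ^ p = 1) : a = 1 := by
  have h1 : (a - 1) ^ p = 0 := by
    rw [sub_pow_char, h, one_pow, sub_self]
  exact sub_eq_zero.1 (pow_eq_zero_iff (Fact.out : p.Prime).ne_zero |>.1 h1)

/-- The unipotent element with given Jordan type. -/
theorem exists_sl_of_type (n : ℕ) (μ : Multiset ℕ) (h0 : ∀ a ∈ μ, 0 < a ∧ a ≤ p) (hs : μ.sum = n)
    (hne : ∃ a ∈ μ, 2 ≤ a) :
    ∃ (x : Matrix.SpecialLinearGroup (Fin n) F) (N : (Fin n → F) →ₗ[F] (Fin n → F)),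
      HasJType N ⊤ μ ∧ Matrix.toLin' (x : Matrix (Fin n) (Fin n) F) = 1 + N ∧ x ^ p = 1 ∧
      ∀ c : F, (x : Matrix (Fin n) (Fin n) F) ≠ c • (1 : Matrix (Fin n) (Fin n) F) := by
  classical
  obtain ⟨N, hN⟩ := exists_nilpotent_of_type (F := F) n μ (fun a ha => (h0 a ha).1) hs
  obtain ⟨a, ha, ha2⟩ := hne
  have hnpos : 0 < n := by
    have : a ≤ μ.sum := Multiset.le_sum_of_mem ha
    omega
  have hNp : N ^ p = 0 := by
    apply LinearMap.ext
    intro v
    exact hN.kill (L := p) (fun a ha => (h0 a ha).2) (Submodule.mem_top (x := v))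
  have : Nonempty (Fin n) := ⟨⟨0, hnpos⟩⟩
  have : Nontrivial (Fin n → F) := inferInstance
  have : CharP (Module.End F (Fin n → F)) p :=
    charP_of_injective_algebraMap (FaithfulSMul.algebraMap_injective F _) p
  have hT : (1 + N) ^ p = 1 := by
    rw [add_pow_char_of_commute p (Commute.one_left N), one_pow, hNp, add_zero]
  set T : (Fin n → F) →ₗ[F] (Fin n → F) := 1 + N with hTdef
  have hdet : LinearMap.det T = 1 := by
    apply eq_one_of_pow_char (p := p)
    rw [← map_pow, hT, map_one]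
  let X : Matrix (Fin n) (Fin n) F := LinearMap.toMatrix' T
  have hX : Matrix.toLin' X = T := Matrix.toLin'_toMatrix' T
  have hXdet : X.det = 1 := by
    rw [← LinearMap.det_toLin', hX, hdet]
  obtain ⟨x, hx⟩ : ∃ x : Matrix.SpecialLinearGroup (Fin n) F, (x : Matrix (Fin n) (Fin n) F) = X :=
    ⟨⟨X, hXdet⟩, rfl⟩
  refine ⟨x, N, hN, by rw [hx, hX], ?_, ?_⟩
  · apply Subtype.ext
    apply Matrix.toLin'.injective
    rw [Matrix.SpecialLinearGroup.coe_pow, hx]
    have h1 : ∀ k : ℕ, Matrix.toLin' (X ^ k) = T ^ k := by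
      intro k
      induction k with
      | zero => rw [pow_zero, pow_zero, Matrix.toLin'_one]; rfl
      | succ k ih => rw [pow_succ, pow_succ, Matrix.toLin'_mul, ih, hX]; rfl
    rw [h1, hT]
    simp only [Matrix.SpecialLinearGroup.coe_one, Matrix.toLin'_one]
    rfl
  · intro c hc
    have h1 : T = c • (1 : (Fin n → F) →ₗ[F] (Fin n → F)) := by
      rw [← hX, ← hx, hc]
      ext v i
      simp [Matrix.toLin'_apply, Matrix.smul_mulVec]
    have h2 : N = (c - 1) • (1 : (Fin n → F) →ₗ[F] (Fin n → F)) := by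
      have : N = T - 1 := by rw [hTdef]; abel
      rw [this, h1]
      apply LinearMap.ext
      intro v
      simp [sub_smul]
    have h3 : c - 1 = 0 := by
      have h4 : ((c - 1) • (1 : (Fin n → F) →ₗ[F] (Fin n → F))) ^ p = 0 := by rw [← h2, hNp]
      rw [_root_.smul_pow, one_pow] at h4
      have h5 : (c - 1) ^ p = 0 := by
        by_contra hcon
        have h6 := smul_eq_zero.1 h4
        rcases h6 with h6 | h6
        · exact hcon h6
        · exact one_ne_zero h6
      exact pow_eq_zero_iff (Fact.out : p.Prime).ne_zero |>.1 h5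
    rw [h3, zero_smul] at h2
    exact hN.ne_zero_of_part ha ha2 h2

/-- Multisets of ones have all sub-sums. -/
theorem exists_sub_of_all_one (n m : ℕ) (hmn : m ≤ n) (μ : Multiset ℕ) (h0 : ∀ a ∈ μ, 0 < a)
    (hs : μ.sum = n) (hne : ¬ ∃ a ∈ μ, 2 ≤ a) : ∃ ν : Multiset ℕ, ν ≤ μ ∧ ν.sum = m := by
  push Not at hne
  have hμ : μ = Multiset.replicate n 1 := by
    have h1 : ∀ a ∈ μ, a = 1 := fun a ha => by
      have := h0 a ha
      have := hne a ha
      omega
    rw [Multiset.eq_replicate]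
    refine ⟨?_, h1⟩
    rw [← hs]
    have h2 : μ = Multiset.replicate (Multiset.card μ) 1 := Multiset.eq_replicate.2 ⟨rfl, h1⟩
    conv_rhs => rw [h2]
    simp
  refine ⟨Multiset.replicate m 1, ?_, by simp⟩
  rw [hμ]
  exact Multiset.replicate_le_replicate _ |>.2 hmn

/-- Perfectness: `p`-th roots exist. -/
theorem exists_pow_char_eq [Fintype F] (c : F) : ∃ b : F, b ^ p = c := by
  obtain ⟨b, hb⟩ := (surjective_frobenius F p) c
  exact ⟨b, by simpa [frobenius_def] using hb⟩

end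

end Cfsg.Agent.H29
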