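/-
Transvection groups of SL_n attached to incident point-hyperplane pairs.
-/
import Mathlib
import Cfsg.Prelude.Def_RootSubgroups
import Cfsg.Agent.Lib.H11.Transv
import Cfsg.Agent.Lib.Lead.SLn

set_option autoImplicit false

namespace Cfsg.Agent.H29.RootSL

open Matrix

variable {k : Type*} [Field k] {ι : Type} [Fintype ι] [DecidableEq ι]

/-- The matrix `1 + c p fᵀ`. -/
def tm (p f : ι → k) (c : k) : Matrix ι ι k := 1 + c • vecMulVec p f

theorem vv_mul (p f q g : ι → k) :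
    vecMulVec p f * vecMulVec q g = (f ⬝ᵥ q) • vecMulVec p g := by
  rw [vecMulVec_mul_vecMulVec]
  ext i j
  simp [vecMulVec_apply, mul_comm, mul_left_comm, mul_assoc]

theorem tm_mul {p f : ι → k} (h : f ⬝ᵥ p = 0) (c d : k) : tm p f c * tm p f d = tm p f (c + d) := by
  unfold tm
  simp only [mul_add, add_mul, mul_one, one_mul, smul_mul_assoc, mul_smul_comm, vv_mul, h, zero_smul,
    smul_zero, add_zero, add_smul]
  abel

@[simp] theorem tm_zero (p f : ι → k) : tm p f 0 = 1 := by simp [tm]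

theorem det_tm {p f : ι → k} (h : f ⬝ᵥ p = 0) (c : k) : (tm p f c).det = 1 := by
  unfold tm
  have e : c • vecMulVec p f = replicateCol Unit (c • p) * replicateRow Unit f := by
    ext i j
    simp [vecMulVec_apply, Matrix.mul_apply, mul_assoc]
  rw [e, Matrix.det_one_add_replicateCol_mul_replicateRow, dotProduct_smul, h]
  simp

/-- The transvection `1 + c p fᵀ` as an element of `SL`. -/
def tv (p f : ι → k) (h : f ⬝ᵥ p = 0) (c : k) : Matrix.SpecialLinearGroup ι k := ⟨tm p f c, det_tm h c⟩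

@[simp] theorem coe_tv (p f : ι → k) (h : f ⬝ᵥ p = 0) (c : k) :
    ((tv p f h c : Matrix.SpecialLinearGroup ι k) : Matrix ι ι k) = tm p f c := rfl

theorem tv_mul {p f : ι → k} (h : f ⬝ᵥ p = 0) (c d : k) : tv p f h c * tv p f h d = tv p f h (c + d) :=
  Subtype.ext (tm_mul h c d)

@[simp] theorem tv_zero {p f : ι → k} (h : f ⬝ᵥ p = 0) : tv p f h 0 = 1 :=
  Subtype.ext (tm_zero p f)

theorem tv_inv {p f : ι → k} (h : f ⬝ᵥ p = 0) (c : k) : (tv p f h c)⁻¹ = tv p f h (-c) := by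
  apply inv_eq_of_mul_eq_one_right
  rw [tv_mul, add_neg_cancel, tv_zero]

theorem coe_tv_inv {p f : ι → k} (h : f ⬝ᵥ p = 0) (c : k) :
    (((tv p f h c)⁻¹ : Matrix.SpecialLinearGroup ι k) : Matrix ι ι k) = tm p f (-c) := by
  rw [tv_inv, coe_tv]

/-- The group of transvections `1 + c p fᵀ`. -/
def RR (p f : ι → k) : Subgroup (Matrix.SpecialLinearGroup ι k) :=
  Subgroup.closure {t | ∃ c : k, (t : Matrix ι ι k) = tm p f c}

theorem mem_RR {p f : ι → k} (h : f ⬝ᵥ p = 0) {x : Matrix.SpecialLinearGroup ι k} :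
    x ∈ RR p f ↔ ∃ c : k, x = tv p f h c := by
  constructor
  · intro hx
    induction hx using Subgroup.closure_induction with
    | mem x hx =>
      obtain ⟨c, hc⟩ := hx
      exact ⟨c, Subtype.ext hc⟩
    | one => exact ⟨0, (tv_zero h).symm⟩
    | mul x y _ _ hx hy =>
      obtain ⟨c, rfl⟩ := hx
      obtain ⟨d, rfl⟩ := hy
      exact ⟨c + d, tv_mul h c d⟩
    | inv x _ hx =>
      obtain ⟨c, rfl⟩ := hx
      exact ⟨-c, tv_inv h c⟩
  · rintro ⟨c, rfl⟩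
    exact Subgroup.subset_closure ⟨c, rfl⟩

theorem tv_mem_RR {p f : ι → k} (h : f ⬝ᵥ p = 0) (c : k) : tv p f h c ∈ RR p f :=
  (mem_RR h).2 ⟨c, rfl⟩

theorem tm_mulVec (p f : ι → k) (c : k) (x : ι → k) :
    tm p f c *ᵥ x = x + (c * (f ⬝ᵥ x)) • p := by
  unfold tm
  rw [add_mulVec, one_mulVec, smul_mulVec, vecMulVec_mulVec]
  ext i
  simp [mul_comm, mul_left_comm, mul_assoc]

theorem vecMul_tm (p f : ι → k) (c : k) (x : ι → k) :
    x ᵥ* tm p f c = x + (c * (x ⬝ᵥ p)) • f := by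
  unfold tm
  rw [vecMul_add, vecMul_one, vecMul_smul, vecMul_vecMulVec]
  ext i
  simp [mul_comm, mul_left_comm, mul_assoc]

theorem tv_inj_of_ne {p f : ι → k} (h : f ⬝ᵥ p = 0) {c : k} (hc : c ≠ 0) (hp : p ≠ 0) (hf : f ≠ 0) :
    tv p f h c ≠ 1 := by
  intro h1
  have h2 : tm p f c = 1 := congrArg Subtype.val h1
  have h3 : c • vecMulVec p f = 0 := by
    unfold tm at h2
    simpa using h2
  rw [smul_eq_zero] at h3
  rcases h3 with h3 | h3
  · exact hc h3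
  · exact (vecMulVec_ne_zero hp hf) h3

/-! ### Conjugation -/

theorem conj_dot {p f : ι → k} (h : f ⬝ᵥ p = 0) (g : Matrix.SpecialLinearGroup ι k) :
    (f ᵥ* ((g⁻¹ : Matrix.SpecialLinearGroup ι k) : Matrix ι ι k)) ⬝ᵥ ((g : Matrix ι ι k) *ᵥ p) = 0 := by
  rw [← dotProduct_mulVec, mulVec_mulVec]
  have : ((g⁻¹ : Matrix.SpecialLinearGroup ι k) : Matrix ι ι k) * (g : Matrix ι ι k) = 1 := by
    rw [← Matrix.SpecialLinearGroup.coe_mul, inv_mul_cancel, Matrix.SpecialLinearGroup.coe_one]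
  rw [this, one_mulVec, h]

theorem conj_tm (p f : ι → k) (c : k) (g : Matrix.SpecialLinearGroup ι k) :
    (g : Matrix ι ι k) * tm p f c * ((g⁻¹ : Matrix.SpecialLinearGroup ι k) : Matrix ι ι k) =
      tm ((g : Matrix ι ι k) *ᵥ p) (f ᵥ* ((g⁻¹ : Matrix.SpecialLinearGroup ι k) : Matrix ι ι k)) c := by
  unfold tm
  have : (g : Matrix ι ι k) * ((g⁻¹ : Matrix.SpecialLinearGroup ι k) : Matrix ι ι k) = 1 := by
    rw [← Matrix.SpecialLinearGroup.coe_mul, mul_inv_cancel, Matrix.SpecialLinearGroup.coe_one]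
  rw [mul_add, add_mul, mul_one, this, mul_smul_comm, smul_mul_assoc, mul_vecMulVec, vecMulVec_mul]

theorem conj_tv {p f : ι → k} (h : f ⬝ᵥ p = 0) (c : k) (g : Matrix.SpecialLinearGroup ι k) :
    g * tv p f h c * g⁻¹ = tv _ _ (conj_dot h g) c :=
  Subtype.ext (conj_tm p f c g)

theorem conjBy_RR {p f : ι → k} (h : f ⬝ᵥ p = 0) (g : Matrix.SpecialLinearGroup ι k) :
    Cfsg.conjBy (RR p f) g =
      RR ((g : Matrix ι ι k) *ᵥ p) (f ᵥ* ((g⁻¹ : Matrix.SpecialLinearGroup ι k) : Matrix ι ι k)) := by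
  ext x
  rw [mem_RR (conj_dot h g)]
  constructor
  · rintro ⟨y, hy, rfl⟩
    obtain ⟨c, rfl⟩ := (mem_RR h).1 hy
    exact ⟨c, conj_tv h c g⟩
  · rintro ⟨c, rfl⟩
    exact ⟨tv p f h c, tv_mem_RR h c, conj_tv h c g⟩

theorem RR_eq_of_vv {p f p' f' : ι → k} (h : f ⬝ᵥ p = 0) (h' : f' ⬝ᵥ p' = 0) {l : k} (hl : l ≠ 0)
    (hv : vecMulVec p' f' = l • vecMulVec p f) : RR p' f' = RR p f := by
  have key : ∀ c : k, tm p' f' c = tm p f (c * l) := by
    intro c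
    unfold tm
    rw [hv, smul_smul]
  ext x
  rw [mem_RR h, mem_RR h']
  constructor
  · rintro ⟨c, rfl⟩
    exact ⟨c * l, Subtype.ext (key c)⟩
  · rintro ⟨c, rfl⟩
    refine ⟨c * l⁻¹, Subtype.ext ?_⟩
    rw [coe_tv, coe_tv, key, inv_mul_cancel_right₀ hl]

theorem RR_smul {p f : ι → k} (h : f ⬝ᵥ p = 0) {a b : k} (ha : a ≠ 0) (hb : b ≠ 0) :
    RR (a • p) (b • f) = RR p f := by
  refine RR_eq_of_vv h ?_ (mul_ne_zero ha hb) ?_
  · rw [dotProduct_smul, smul_dotProduct, h]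
    simp
  · rw [smul_vecMulVec, vecMulVec_smul, smul_smul]

/-! ### Products of two transvection groups -/

section Pair

variable {p f q g : ι → k} (hf : f ⬝ᵥ p = 0) (hg : g ⬝ᵥ q = 0)

include hf hg

theorem commute_of_zero (h1 : f ⬝ᵥ q = 0) (h2 : g ⬝ᵥ p = 0) (x y : k) :
    tv p f hf x * tv q g hg y = tv q g hg y * tv p f hf x := by
  apply Subtype.ext
  show tm p f x * tm q g y = tm q g y * tm p f x
  unfold tm
  simp only [mul_add, add_mul, mul_one, one_mul, smul_mul_assoc, mul_smul_comm, vv_mul, h1, h2,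
    zero_smul, smul_zero, add_zero]
  abel

theorem comm_eq_of_right_zero (h2 : g ⬝ᵥ p = 0) (x y : k) :
    tv p f hf x * tv q g hg y * (tv p f hf x)⁻¹ * (tv q g hg y)⁻¹ = tv p g h2 (x * y * (f ⬝ᵥ q)) := by
  have key : tv p f hf x * tv q g hg y = tv p g h2 (x * y * (f ⬝ᵥ q)) * (tv q g hg y * tv p f hf x) := by
    apply Subtype.ext
    show tm p f x * tm q g y = tm p g _ * (tm q g y * tm p f x)
    unfold tm
    simp only [mul_add, add_mul, mul_one, one_mul, smul_mul_assoc, mul_smul_comm, vv_mul, hf, hg, h2,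
      zero_smul, smul_zero, add_zero]
    module
  rw [key]
  group

theorem comm_eq_of_left_zero (h1 : f ⬝ᵥ q = 0) (x y : k) :
    tv p f hf x * tv q g hg y * (tv p f hf x)⁻¹ * (tv q g hg y)⁻¹ = tv q f h1 (-(x * y * (g ⬝ᵥ p))) := by
  have key : tv p f hf x * tv q g hg y =
      tv q f h1 (-(x * y * (g ⬝ᵥ p))) * (tv q g hg y * tv p f hf x) := by
    apply Subtype.ext
    show tm p f x * tm q g y = tm q f _ * (tm q g y * tm p f x)
    unfold tm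
    simp only [mul_add, add_mul, mul_one, one_mul, smul_mul_assoc, mul_smul_comm, vv_mul, hf, hg, h1,
      zero_smul, smul_zero, add_zero]
    module
  rw [key]
  group

end Pair

/-! ### Conjugacy of incident pairs in `SL` -/

theorem exists_flag_conj {i₀ i₁ i₂ : ι} (h01 : i₀ ≠ i₁) (h02 : i₀ ≠ i₂) (h12 : i₁ ≠ i₂)
    {p f : ι → k} (hp : p ≠ 0) (hf : f ≠ 0) (h : f ⬝ᵥ p = 0) :
    ∃ g : Matrix.SpecialLinearGroup ι k,
      (g : Matrix ι ι k) * vecMulVec (Pi.single i₀ 1) (Pi.single i₁ 1) *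
        ((g⁻¹ : Matrix.SpecialLinearGroup ι k) : Matrix ι ι k) = vecMulVec p f := by
  classical
  have he0 : (Pi.single i₀ 1 : ι → k) ≠ 0 := Pi.single_ne_zero_iff.2 one_ne_zero
  have he1 : (Pi.single i₁ 1 : ι → k) ≠ 0 := Pi.single_ne_zero_iff.2 one_ne_zero
  have hd : (Pi.single i₁ 1 : ι → k) ⬝ᵥ (Pi.single i₀ 1 : ι → k) = 0 := by
    simp [h01, Ne.symm h01]
  obtain ⟨P, hPdet, hP⟩ := Cfsg.Agent.H11.Transv.exists_conj (F := k) he0 he1 hd hp hf h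
  have hPd : P.det ≠ 0 := hPdet.ne_zero
  let D : Matrix ι ι k := diagonal (Function.update (fun _ => (1 : k)) i₂ (P.det)⁻¹)
  have hDdet : D.det = (P.det)⁻¹ := by
    rw [det_diagonal, Finset.prod_update_of_mem (Finset.mem_univ _)]
    simp
  have hPD : (P * D).det = 1 := by
    rw [det_mul, hDdet, mul_inv_cancel₀ hPd]
  have hD1 : D * vecMulVec (Pi.single i₀ 1) (Pi.single i₁ 1) = vecMulVec (Pi.single i₀ 1) (Pi.single i₁ 1) := by
    rw [mul_vecMulVec]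
    congr 1
    ext i
    by_cases hi : i = i₀
    · subst hi
      simp [D, mulVec_diagonal, Function.update_of_ne h02]
    · simp [D, mulVec_diagonal, hi]
  have hD2 : vecMulVec (Pi.single i₀ 1) (Pi.single i₁ 1) * D = vecMulVec (Pi.single i₀ 1) (Pi.single i₁ 1) := by
    rw [vecMulVec_mul]
    congr 1
    ext i
    by_cases hi : i = i₁
    · subst hi
      simp [D, vecMul_diagonal, Function.update_of_ne h12]
    · simp [D, vecMul_diagonal, hi]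
  let g : Matrix.SpecialLinearGroup ι k := ⟨P * D, hPD⟩
  refine ⟨g, ?_⟩
  have hginv : (g : Matrix ι ι k) * ((g⁻¹ : Matrix.SpecialLinearGroup ι k) : Matrix ι ι k) = 1 := by
    rw [← Matrix.SpecialLinearGroup.coe_mul, mul_inv_cancel, Matrix.SpecialLinearGroup.coe_one]
  have h1 : (g : Matrix ι ι k) * vecMulVec (Pi.single i₀ 1) (Pi.single i₁ 1) = vecMulVec p f * (g : Matrix ι ι k) := by
    show P * D * _ = _ * (P * D)
    have h2 : P * vecMulVec (Pi.single i₀ 1) (Pi.single i₁ 1) = vecMulVec p f * P := by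
      rw [mul_add, add_mul, mul_one, one_mul] at hP
      exact add_left_cancel hP
    rw [mul_assoc, hD1, h2, ← mul_assoc, ← h2, mul_assoc, hD2]
  rw [h1, mul_assoc, hginv, mul_one]

/-! ### The embedding of `SL₂` -/

section Phi

variable {p f q g : ι → k}

/-- The `ι × 2` matrix with columns `p`, `q`. -/
def PM (p q : ι → k) : Matrix ι (Fin 2) k := of fun i j => ![p i, q i] j

/-- The `2 × ι` matrix with rows `g`, `f`. -/
def QM (g f : ι → k) : Matrix (Fin 2) ι k := of fun j i => ![g i, f i] j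

theorem QM_mul_PM (hgp : g ⬝ᵥ p = 1) (hgq : g ⬝ᵥ q = 0) (hfp : f ⬝ᵥ p = 0) (hfq : f ⬝ᵥ q = 1) :
    QM g f * PM p q = 1 := by
  ext a b
  rw [Matrix.mul_apply]
  fin_cases a <;> fin_cases b
  · simpa [QM, PM, dotProduct] using hgp
  · simpa [QM, PM, dotProduct] using hgq
  · simpa [QM, PM, dotProduct] using hfp
  · simpa [QM, PM, dotProduct] using hfq

/-- The matrix image of `M`. -/
def phiM (p f q g : ι → k) (M : Matrix (Fin 2) (Fin 2) k) : Matrix ι ι k :=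
  1 + PM p q * (M - 1) * QM g f

theorem phiM_mul (hgp : g ⬝ᵥ p = 1) (hgq : g ⬝ᵥ q = 0) (hfp : f ⬝ᵥ p = 0) (hfq : f ⬝ᵥ q = 1)
    (M N : Matrix (Fin 2) (Fin 2) k) : phiM p f q g (M * N) = phiM p f q g M * phiM p f q g N := by
  unfold phiM
  have h := QM_mul_PM hgp hgq hfp hfq
  have h2 : PM p q * (M - 1) * QM g f * (PM p q * (N - 1) * QM g f) =
      PM p q * ((M - 1) * (N - 1)) * QM g f := by
    calc PM p q * (M - 1) * QM g f * (PM p q * (N - 1) * QM g f)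
        = PM p q * (M - 1) * (QM g f * PM p q) * (N - 1) * QM g f := by
          simp only [Matrix.mul_assoc]
      _ = _ := by rw [h, Matrix.mul_one]; simp only [Matrix.mul_assoc]
  rw [mul_add, add_mul, add_mul, mul_one, one_mul, h2]
  have h3 : M * N - 1 = (M - 1) + (N - 1) + (M - 1) * (N - 1) := by noncomm_ring
  rw [h3, Matrix.mul_add, Matrix.mul_add, Matrix.add_mul, Matrix.add_mul, Matrix.mul_one]
  abel

theorem det_phiM (hgp : g ⬝ᵥ p = 1) (hgq : g ⬝ᵥ q = 0) (hfp : f ⬝ᵥ p = 0) (hfq : f ⬝ᵥ q = 1)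
    (M : Matrix (Fin 2) (Fin 2) k) : (phiM p f q g M).det = M.det := by
  unfold phiM
  rw [Matrix.det_one_add_mul_comm, ← Matrix.mul_assoc (QM g f), QM_mul_PM hgp hgq hfp hfq, Matrix.one_mul]
  congr 1
  abel

/-- The homomorphism `SL₂ → SL`. -/
def phi (hgp : g ⬝ᵥ p = 1) (hgq : g ⬝ᵥ q = 0) (hfp : f ⬝ᵥ p = 0) (hfq : f ⬝ᵥ q = 1) :
    Matrix.SpecialLinearGroup (Fin 2) k →* Matrix.SpecialLinearGroup ι k :=
  MonoidHom.mk' (fun M => ⟨phiM p f q g (M : Matrix (Fin 2) (Fin 2) k), by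
      rw [det_phiM hgp hgq hfp hfq]; exact M.2⟩)
    (fun M N => Subtype.ext (phiM_mul hgp hgq hfp hfq _ _))

theorem coe_phi (hgp : g ⬝ᵥ p = 1) (hgq : g ⬝ᵥ q = 0) (hfp : f ⬝ᵥ p = 0) (hfq : f ⬝ᵥ q = 1)
    (M : Matrix.SpecialLinearGroup (Fin 2) k) :
    ((phi hgp hgq hfp hfq M : Matrix.SpecialLinearGroup ι k) : Matrix ι ι k) =
      phiM p f q g (M : Matrix (Fin 2) (Fin 2) k) := rfl

theorem phi_injective (hgp : g ⬝ᵥ p = 1) (hgq : g ⬝ᵥ q = 0) (hfp : f ⬝ᵥ p = 0) (hfq : f ⬝ᵥ q = 1) :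
    Function.Injective (phi (k := k) (ι := ι) hgp hgq hfp hfq) := by
  rw [injective_iff_map_eq_one]
  intro M hM
  have h1 : phiM p f q g (M : Matrix (Fin 2) (Fin 2) k) = 1 := congrArg Subtype.val hM
  have h2 : PM p q * ((M : Matrix (Fin 2) (Fin 2) k) - 1) * QM g f = 0 := by
    unfold phiM at h1
    simpa using h1
  have h3 : QM g f * (PM p q * ((M : Matrix (Fin 2) (Fin 2) k) - 1) * QM g f) * PM p q
      = (M : Matrix (Fin 2) (Fin 2) k) - 1 := by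
    have h := QM_mul_PM hgp hgq hfp hfq
    calc QM g f * (PM p q * ((M : Matrix (Fin 2) (Fin 2) k) - 1) * QM g f) * PM p q
        = (QM g f * PM p q) * ((M : Matrix (Fin 2) (Fin 2) k) - 1) * (QM g f * PM p q) := by
          simp only [Matrix.mul_assoc]
      _ = _ := by rw [h, Matrix.one_mul, Matrix.mul_one]
  rw [h2] at h3
  simp only [Matrix.mul_zero, Matrix.zero_mul] at h3
  apply Subtype.ext
  rw [Matrix.SpecialLinearGroup.coe_one]
  exact (sub_eq_zero.1 h3.symm)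

theorem PM_mul_QM_apply (M : Matrix (Fin 2) (Fin 2) k) :
    PM p q * M * QM g f =
      M 0 0 • vecMulVec p g + M 0 1 • vecMulVec p f + M 1 0 • vecMulVec q g + M 1 1 • vecMulVec q f := by
  ext i j
  simp only [Matrix.mul_apply, Fin.sum_univ_two, PM, QM, Matrix.of_apply, Matrix.cons_val_zero,
    Matrix.cons_val_one, Matrix.add_apply, Matrix.smul_apply, vecMulVec_apply, smul_eq_mul,
    Matrix.cons_val_fin_one]
  ring

theorem phiM_upper {M : Matrix (Fin 2) (Fin 2) k} (h1 : M 1 0 = 0) (h2 : M 0 0 = 1) (h3 : M 1 1 = 1) :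
    phiM p f q g M = tm p f (M 0 1) := by
  unfold phiM tm
  rw [PM_mul_QM_apply]
  simp [h1, h2, h3]

theorem phiM_lower {M : Matrix (Fin 2) (Fin 2) k} (h1 : M 0 1 = 0) (h2 : M 0 0 = 1) (h3 : M 1 1 = 1) :
    phiM p f q g M = tm q g (M 1 0) := by
  unfold phiM tm
  rw [PM_mul_QM_apply]
  simp [h1, h2, h3]

theorem map_upper (hgp : g ⬝ᵥ p = 1) (hgq : g ⬝ᵥ q = 0) (hfp : f ⬝ᵥ p = 0) (hfq : f ⬝ᵥ q = 1) :
    (Cfsg.upperUnipotentSL2 k).map (phi (ι := ι) hgp hgq hfp hfq) = RR p f := by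
  unfold Cfsg.upperUnipotentSL2 RR
  rw [MonoidHom.map_closure]
  congr 1
  ext t
  constructor
  · rintro ⟨M, ⟨h1, h2, h3⟩, rfl⟩
    exact ⟨M.1 0 1, phiM_upper h1 h2 h3⟩
  · rintro ⟨c, hc⟩
    let M : Matrix.SpecialLinearGroup (Fin 2) k := ⟨!![1, c; 0, 1], by simp [Matrix.det_fin_two]⟩
    refine ⟨M, ⟨by simp [M], by simp [M], by simp [M]⟩, Subtype.ext ?_⟩
    rw [coe_phi, hc]
    have := phiM_upper (p := p) (f := f) (q := q) (g := g) (M := (M : Matrix (Fin 2) (Fin 2) k))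
      (by simp [M]) (by simp [M]) (by simp [M])
    rw [this]
    simp [M]

theorem map_lower (hgp : g ⬝ᵥ p = 1) (hgq : g ⬝ᵥ q = 0) (hfp : f ⬝ᵥ p = 0) (hfq : f ⬝ᵥ q = 1) :
    (Cfsg.lowerUnipotentSL2 k).map (phi (ι := ι) hgp hgq hfp hfq) = RR q g := by
  unfold Cfsg.lowerUnipotentSL2 RR
  rw [MonoidHom.map_closure]
  congr 1
  ext t
  constructor
  · rintro ⟨M, ⟨h1, h2, h3⟩, rfl⟩
    exact ⟨M.1 1 0, phiM_lower h1 h2 h3⟩
  · rintro ⟨c, hc⟩
    let M : Matrix.SpecialLinearGroup (Fin 2) k := ⟨!![1, 0; c, 1], by simp [Matrix.det_fin_two]⟩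
    refine ⟨M, ⟨by simp [M], by simp [M], by simp [M]⟩, Subtype.ext ?_⟩
    rw [coe_phi, hc]
    have := phiM_lower (p := p) (f := f) (q := q) (g := g) (M := (M : Matrix (Fin 2) (Fin 2) k))
      (by simp [M]) (by simp [M]) (by simp [M])
    rw [this]
    simp [M]

theorem upper_sup_lower : Cfsg.upperUnipotentSL2 k ⊔ Cfsg.lowerUnipotentSL2 k = ⊤ := by
  refine eq_top_iff.2 fun A _ => ?_
  refine Cfsg.Agent.Lead.transvection_induction' (ι := Fin 2) (F := k) (· ∈ Cfsg.upperUnipotentSL2 k ⊔ Cfsg.lowerUnipotentSL2 k) ?_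
    (fun _ _ => mul_mem) A
  intro i j hij c
  have hcoe : ∀ a b : Fin 2, ((Matrix.SpecialLinearGroup.transvection hij c : Matrix.SpecialLinearGroup (Fin 2) k) : Matrix (Fin 2) (Fin 2) k) a b
      = (1 + Matrix.single i j c : Matrix (Fin 2) (Fin 2) k) a b := fun _ _ => rfl
  fin_cases i <;> fin_cases j
  · exact absurd rfl hij
  · apply Subgroup.mem_sup_left
    apply Subgroup.subset_closure
    refine ⟨?_, ?_, ?_⟩
    · rw [hcoe]; simp [Matrix.single_apply]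
    · rw [hcoe]; simp [Matrix.single_apply]
    · rw [hcoe]; simp [Matrix.single_apply]
  · apply Subgroup.mem_sup_right
    apply Subgroup.subset_closure
    refine ⟨?_, ?_, ?_⟩
    · rw [hcoe]; simp [Matrix.single_apply]
    · rw [hcoe]; simp [Matrix.single_apply]
    · rw [hcoe]; simp [Matrix.single_apply]
  · exact absurd rfl hij

theorem isPSL2_norm (hgp : g ⬝ᵥ p = 1) (hgq : g ⬝ᵥ q = 0) (hfp : f ⬝ᵥ p = 0) (hfq : f ⬝ᵥ q = 1) :
    Cfsg.IsPSL2PairOver k (RR p f) (RR q g) := by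
  refine ⟨phi hgp hgq hfp hfq, ?_, ?_, map_upper hgp hgq hfp hfq, map_lower hgp hgq hfp hfq⟩
  · rw [← map_upper hgp hgq hfp hfq, ← map_lower hgp hgq hfp hfq, ← Subgroup.map_sup, upper_sup_lower,
      MonoidHom.range_eq_map]
  · rw [(MonoidHom.ker_eq_bot_iff _).2 (phi_injective hgp hgq hfp hfq)]
    exact bot_le

end Phi

/-! ### Rank one pairs -/

section RankOne

variable {p f q g : ι → k}

theorem ne_zero_of_dot_left {a b : ι → k} (h : a ⬝ᵥ b ≠ 0) : a ≠ 0 := by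
  rintro rfl
  simp at h

theorem ne_zero_of_dot_right {a b : ι → k} (h : a ⬝ᵥ b ≠ 0) : b ≠ 0 := by
  rintro rfl
  simp at h

theorem rankOne_cond (hfp : f ⬝ᵥ p = 0) (hgq : g ⬝ᵥ q = 0) (hfq : f ⬝ᵥ q = 1) (hgp : g ⬝ᵥ p = 1)
    (hp : p ≠ 0) (hf : f ≠ 0) :
    Cfsg.RankOneCondition (RR p f) (RR q g) := by
  intro a ha ha1
  obtain ⟨c, rfl⟩ := (mem_RR hfp).1 ha
  have hc : c ≠ 0 := by
    rintro rfl
    exact ha1 (tv_zero _)
  have hq : q ≠ 0 := ne_zero_of_dot_right (a := f) (by rw [hfq]; exact one_ne_zero)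
  have hg : g ≠ 0 := ne_zero_of_dot_left (b := p) (by rw [hgp]; exact one_ne_zero)
  refine ⟨tv q g hgq c⁻¹, tv_mem_RR _ _, tv_inj_of_ne _ (inv_ne_zero hc) hq hg, ?_⟩
  rw [conjBy_RR hfp, conjBy_RR hgq, inv_inv, inv_inv, coe_tv_inv, coe_tv_inv, coe_tv, coe_tv, tm_mulVec,
    tm_mulVec, vecMul_tm, vecMul_tm, hgp, hfq]
  have e1 : p + (-c⁻¹ * 1) • q = (-c⁻¹) • (q + (-c * 1) • p) := by
    simp only [mul_one, smul_add, smul_smul, neg_mul, mul_neg, neg_neg, inv_mul_cancel₀ hc, one_smul]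
    rw [add_comm]
  have e2 : f + (c⁻¹ * 1) • g = c⁻¹ • (g + (c * 1) • f) := by
    simp only [mul_one, smul_add, smul_smul, inv_mul_cancel₀ hc, one_smul]
    rw [add_comm]
  rw [e1, e2]
  apply RR_smul _ (neg_ne_zero.2 (inv_ne_zero hc)) (inv_ne_zero hc)
  simp only [mul_one, dotProduct_add, add_dotProduct, dotProduct_smul, smul_dotProduct, hfp, hgq, hfq, hgp,
    smul_eq_mul]
  ring

theorem RR_comm {p f : ι → k} (h : f ⬝ᵥ p = 0) {a b : Matrix.SpecialLinearGroup ι k}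
    (ha : a ∈ RR p f) (hb : b ∈ RR p f) : a * b = b * a := by
  obtain ⟨x, rfl⟩ := (mem_RR h).1 ha
  obtain ⟨y, rfl⟩ := (mem_RR h).1 hb
  rw [tv_mul, tv_mul, add_comm]

theorem nilpotent_of_comm {G : Type*} [Group G] (h : ∀ a b : G, a * b = b * a) : Group.IsNilpotent G := by
  letI : CommGroup G := { (inferInstance : Group G) with mul_comm := h }
  infer_instance

theorem RR_nilpotent {p f : ι → k} (h : f ⬝ᵥ p = 0) : Group.IsNilpotent (RR p f) :=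
  nilpotent_of_comm fun a b => Subtype.ext (RR_comm h a.2 b.2)

theorem rankOne_ne (hfp : f ⬝ᵥ p = 0) (hgq : g ⬝ᵥ q = 0) (hfq : f ⬝ᵥ q ≠ 0) (hp : p ≠ 0) :
    RR p f ≠ RR q g := by
  intro h
  have h1 : tv p f hfp 1 ∈ RR q g := h ▸ tv_mem_RR hfp 1
  obtain ⟨c, hc⟩ := (mem_RR hgq).1 h1
  have h2 : tm p f 1 *ᵥ q = tm q g c *ᵥ q := by
    have := congrArg (fun t : Matrix.SpecialLinearGroup ι k => (t : Matrix ι ι k) *ᵥ q) hc
    exact this
  rw [tm_mulVec, tm_mulVec, hgq, mul_zero, zero_smul, add_zero, one_mul] at h2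
  have h3 : (f ⬝ᵥ q) • p = 0 := by simpa using h2
  rw [smul_eq_zero] at h3
  rcases h3 with h3 | h3
  · exact hfq h3
  · exact hp h3

theorem rankOne_norm (hfp : f ⬝ᵥ p = 0) (hgq : g ⬝ᵥ q = 0) (hfq : f ⬝ᵥ q = 1) (hgp : g ⬝ᵥ p = 1) :
    Cfsg.IsRankOnePair (RR p f) (RR q g) := by
  have hp : p ≠ 0 := ne_zero_of_dot_right (a := g) (by rw [hgp]; exact one_ne_zero)
  have hq : q ≠ 0 := ne_zero_of_dot_right (a := f) (by rw [hfq]; exact one_ne_zero)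
  have hf : f ≠ 0 := ne_zero_of_dot_left (b := q) (by rw [hfq]; exact one_ne_zero)
  have hg : g ≠ 0 := ne_zero_of_dot_left (b := p) (by rw [hgp]; exact one_ne_zero)
  exact ⟨rankOne_ne hfp hgq (by rw [hfq]; exact one_ne_zero) hp, RR_nilpotent hfp, RR_nilpotent hgq,
    rankOne_cond hfp hgq hfq hgp hp hf, rankOne_cond hgq hfp hgp hfq hq hg⟩

/-- Normalisation of a pair with nonzero values. -/
theorem RR_normalize (hfp : f ⬝ᵥ p = 0) (hgq : g ⬝ᵥ q = 0) (hfq : f ⬝ᵥ q ≠ 0) (hgp : g ⬝ᵥ p ≠ 0) :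
    RR ((f ⬝ᵥ q)⁻¹ • q) ((g ⬝ᵥ p)⁻¹ • g) = RR q g ∧
      ((g ⬝ᵥ p)⁻¹ • g) ⬝ᵥ p = 1 ∧ ((g ⬝ᵥ p)⁻¹ • g) ⬝ᵥ ((f ⬝ᵥ q)⁻¹ • q) = 0 ∧
      f ⬝ᵥ ((f ⬝ᵥ q)⁻¹ • q) = 1 := by
  refine ⟨RR_smul hgq (inv_ne_zero hfq) (inv_ne_zero hgp), ?_, ?_, ?_⟩
  · rw [smul_dotProduct, smul_eq_mul, inv_mul_cancel₀ hgp]
  · rw [smul_dotProduct, dotProduct_smul, hgq]; simp
  · rw [dotProduct_smul, smul_eq_mul, inv_mul_cancel₀ hfq]

theorem rankOne_general (hfp : f ⬝ᵥ p = 0) (hgq : g ⬝ᵥ q = 0) (hfq : f ⬝ᵥ q ≠ 0) (hgp : g ⬝ᵥ p ≠ 0) :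
    Cfsg.IsRankOnePair (RR p f) (RR q g) := by
  obtain ⟨h1, h2, h3, h4⟩ := RR_normalize hfp hgq hfq hgp
  rw [← h1]
  exact rankOne_norm hfp h3 h4 h2

theorem psl2_general (hfp : f ⬝ᵥ p = 0) (hgq : g ⬝ᵥ q = 0) (hfq : f ⬝ᵥ q ≠ 0) (hgp : g ⬝ᵥ p ≠ 0) :
    Cfsg.IsPSL2PairOver k (RR p f) (RR q g) := by
  obtain ⟨h1, h2, h3, h4⟩ := RR_normalize hfp hgq hfq hgp
  rw [← h1]
  exact isPSL2_norm h2 h3 hfp h4

theorem not_rankOne_of_zero_zero (hfp : f ⬝ᵥ p = 0) (hgq : g ⬝ᵥ q = 0) (hfq : f ⬝ᵥ q = 0) (hgp : g ⬝ᵥ p = 0)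
    (hp : p ≠ 0) (hf : f ≠ 0) : ¬ Cfsg.IsRankOnePair (RR p f) (RR q g) := by
  intro h
  obtain ⟨b, hb, -, hb2⟩ := h.cond_left (tv p f hfp 1) (tv_mem_RR _ _) (tv_inj_of_ne _ one_ne_zero hp hf)
  obtain ⟨y, rfl⟩ := (mem_RR hgq).1 hb
  rw [conjBy_RR hfp, conjBy_RR hgq, inv_inv, inv_inv, coe_tv_inv, coe_tv_inv, coe_tv, coe_tv, tm_mulVec,
    tm_mulVec, vecMul_tm, vecMul_tm, hgp, hfq] at hb2
  simp only [mul_zero, zero_smul, add_zero] at hb2
  exact h.ne hb2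

theorem not_rankOne_of_right_zero (hfp : f ⬝ᵥ p = 0) (hgq : g ⬝ᵥ q = 0) (hfq : f ⬝ᵥ q ≠ 0) (hgp : g ⬝ᵥ p = 0)
    (hp : p ≠ 0) (hf : f ≠ 0) : ¬ Cfsg.IsRankOnePair (RR p f) (RR q g) := by
  intro h
  obtain ⟨b, hb, -, hb2⟩ := h.cond_left (tv p f hfp 1) (tv_mem_RR _ _) (tv_inj_of_ne _ one_ne_zero hp hf)
  obtain ⟨y, rfl⟩ := (mem_RR hgq).1 hb
  have hd1 := conj_dot hfp (tv q g hgq y)⁻¹
  have hd2 := conj_dot hgq (tv p f hfp 1)⁻¹
  rw [conjBy_RR hfp, conjBy_RR hgq] at hb2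
  have h1 := (tv_mem_RR hd1 1)
  rw [hb2, mem_RR hd2] at h1
  obtain ⟨c, hc⟩ := h1
  have h2 := congrArg (fun t : Matrix.SpecialLinearGroup ι k => (t : Matrix ι ι k) *ᵥ q) hc
  simp only [coe_tv, tm_mulVec, inv_inv, coe_tv_inv, vecMul_tm, hgp, hfq, mul_zero, zero_smul, add_zero,
    add_dotProduct, smul_dotProduct, hgq, smul_eq_mul, one_mul, mul_one] at h2
  have h3 : (f ⬝ᵥ q) • p = 0 := by simpa using h2
  rw [smul_eq_zero] at h3
  rcases h3 with h3 | h3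
  · exact hfq h3
  · exact hp h3

end RankOne

/-! ### Commutator case -/

section CommCase

variable {p f q g : ι → k}

theorem comm_subgroup (hfp : f ⬝ᵥ p = 0) (hgq : g ⬝ᵥ q = 0) (hgp : g ⬝ᵥ p = 0) (hfq : f ⬝ᵥ q ≠ 0) :
    ⁅RR p f, RR q g⁆ = RR p g := by
  apply le_antisymm
  · rw [Subgroup.commutator_le]
    intro a ha b hb
    obtain ⟨x, rfl⟩ := (mem_RR hfp).1 ha
    obtain ⟨y, rfl⟩ := (mem_RR hgq).1 hb
    rw [commutatorElement_def, comm_eq_of_right_zero hfp hgq hgp]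
    exact tv_mem_RR _ _
  · intro z hz
    obtain ⟨c, rfl⟩ := (mem_RR hgp).1 hz
    have h1 := Subgroup.commutator_mem_commutator (tv_mem_RR hfp (c * (f ⬝ᵥ q)⁻¹)) (tv_mem_RR hgq 1)
    rw [commutatorElement_def, comm_eq_of_right_zero hfp hgq hgp] at h1
    have h2 : c * (f ⬝ᵥ q)⁻¹ * 1 * (f ⬝ᵥ q) = c := by
      field_simp
    rwa [h2] at h1

theorem comm_case {S : Set (Subgroup (Matrix.SpecialLinearGroup ι k))} (hS : RR p g ∈ S)
    (hfp : f ⬝ᵥ p = 0) (hgq : g ⬝ᵥ q = 0) (hgp : g ⬝ᵥ p = 0) (hfq : f ⬝ᵥ q ≠ 0) :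
    Cfsg.RootCommutatorCase S (RR p f) (RR q g) := by
  have hcomm := comm_subgroup hfp hgq hgp hfq
  refine ⟨by rw [hcomm]; exact hS, ?_, ?_, ?_⟩
  · intro c hc x hx
    rw [hcomm] at hc
    obtain ⟨z, rfl⟩ := (mem_RR hgp).1 hc
    have hle : RR p f ⊔ RR q g ≤ Subgroup.centralizer {tv p g hgp z} := by
      refine sup_le ?_ ?_
      · intro a ha
        obtain ⟨u, rfl⟩ := (mem_RR hfp).1 ha
        rw [Subgroup.mem_centralizer_singleton_iff]
        exact (commute_of_zero hfp hgp hfp hgp u z)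
      · intro a ha
        obtain ⟨u, rfl⟩ := (mem_RR hgq).1 ha
        rw [Subgroup.mem_centralizer_singleton_iff]
        exact (commute_of_zero hgq hgp hgp hgq u z)
    have := hle hx
    rw [Subgroup.mem_centralizer_singleton_iff] at this
    exact this.symm
  · intro a ha ha1
    obtain ⟨x, rfl⟩ := (mem_RR hfp).1 ha
    have hx : x ≠ 0 := by
      rintro rfl
      exact ha1 (tv_zero _)
    rw [hcomm]
    apply le_antisymm
    · rw [Subgroup.closure_le]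
      rintro _ ⟨b, hb, rfl⟩
      obtain ⟨y, rfl⟩ := (mem_RR hgq).1 hb
      show tv p f hfp x * tv q g hgq y * (tv p f hfp x)⁻¹ * (tv q g hgq y)⁻¹ ∈ RR p g
      rw [comm_eq_of_right_zero hfp hgq hgp]
      exact tv_mem_RR _ _
    · intro z hz
      obtain ⟨c, rfl⟩ := (mem_RR hgp).1 hz
      apply Subgroup.subset_closure
      refine ⟨tv q g hgq (c * (x * (f ⬝ᵥ q))⁻¹), tv_mem_RR _ _, ?_⟩
      show _ * _ * _ * _ = _
      rw [comm_eq_of_right_zero hfp hgq hgp]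
      congr 1
      field_simp
  · intro b hb hb1
    obtain ⟨y, rfl⟩ := (mem_RR hgq).1 hb
    have hy : y ≠ 0 := by
      rintro rfl
      exact hb1 (tv_zero _)
    rw [hcomm]
    apply le_antisymm
    · rw [Subgroup.closure_le]
      rintro _ ⟨a, ha, rfl⟩
      obtain ⟨x, rfl⟩ := (mem_RR hfp).1 ha
      show tv p f hfp x * tv q g hgq y * (tv p f hfp x)⁻¹ * (tv q g hgq y)⁻¹ ∈ RR p g
      rw [comm_eq_of_right_zero hfp hgq hgp]
      exact tv_mem_RR _ _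
    · intro z hz
      obtain ⟨c, rfl⟩ := (mem_RR hgp).1 hz
      apply Subgroup.subset_closure
      refine ⟨tv p f hfp (c * (y * (f ⬝ᵥ q))⁻¹), tv_mem_RR _ _, ?_⟩
      show _ * _ * _ * _ = _
      rw [comm_eq_of_right_zero hfp hgq hgp]
      congr 1
      field_simp

theorem comm_case_symm {G : Type*} [Group G] {S : Set (Subgroup G)} {A B : Subgroup G}
    (h : Cfsg.RootCommutatorCase S A B) : Cfsg.RootCommutatorCase S B A := by
  obtain ⟨h1, h2, h3, h4⟩ := h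
  have hc : ⁅B, A⁆ = ⁅A, B⁆ := Subgroup.commutator_comm B A
  refine ⟨by rw [hc]; exact h1, ?_, ?_, ?_⟩
  · intro c hc' x hx
    rw [hc] at hc'
    exact h2 c hc' x (by rw [sup_comm]; exact hx)
  · intro b hb hb1
    have hset : (fun a => b * a * b⁻¹ * a⁻¹) '' (A : Set G) = ((fun a => a * b * a⁻¹ * b⁻¹) '' (A : Set G))⁻¹ := by
      ext y
      constructor
      · rintro ⟨a, ha, rfl⟩
        refine Set.mem_inv.2 ⟨a, ha, ?_⟩
        simp [mul_assoc]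
      · intro hy
        obtain ⟨a, ha, h5⟩ := Set.mem_inv.1 hy
        refine ⟨a, ha, ?_⟩
        have h5' : a * b * a⁻¹ * b⁻¹ = y⁻¹ := h5
        have h6 : y = (a * b * a⁻¹ * b⁻¹)⁻¹ := by rw [h5', inv_inv]
        show b * a * b⁻¹ * a⁻¹ = y
        rw [h6]
        simp [mul_assoc]
    rw [hset, Subgroup.closure_inv, hc, h4 b hb hb1]
  · intro a ha ha1
    have hset : (fun b => b * a * b⁻¹ * a⁻¹) '' (B : Set G) = ((fun b => a * b * a⁻¹ * b⁻¹) '' (B : Set G))⁻¹ := by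
      ext y
      constructor
      · rintro ⟨b, hb, rfl⟩
        refine Set.mem_inv.2 ⟨b, hb, ?_⟩
        simp [mul_assoc]
      · intro hy
        obtain ⟨b, hb, h5⟩ := Set.mem_inv.1 hy
        refine ⟨b, hb, ?_⟩
        have h5' : a * b * a⁻¹ * b⁻¹ = y⁻¹ := h5
        have h6 : y = (a * b * a⁻¹ * b⁻¹)⁻¹ := by rw [h5', inv_inv]
        show b * a * b⁻¹ * a⁻¹ = y
        rw [h6]
        simp [mul_assoc]
    rw [hset, Subgroup.closure_inv, hc, h3 a ha ha1]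

end CommCase

/-! ### The family of all transvection groups -/

section Family

/-- All groups of transvections of incident pairs. -/
def FF (ι : Type) [Fintype ι] [DecidableEq ι] (k : Type*) [Field k] :
    Set (Subgroup (Matrix.SpecialLinearGroup ι k)) :=
  {A | ∃ p f : ι → k, p ≠ 0 ∧ f ≠ 0 ∧ f ⬝ᵥ p = 0 ∧ A = RR p f}

theorem single_eq_vv (i j : ι) (c : k) :
    Matrix.single i j c = c • vecMulVec (Pi.single i 1) (Pi.single j 1) := by
  ext a b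
  rw [Matrix.smul_apply, vecMulVec_apply, Matrix.single_apply]
  by_cases ha : a = i
  · subst ha
    by_cases hb : b = j
    · subst hb
      simp
    · simp [hb, Ne.symm hb]
  · simp [ha, Ne.symm ha]

theorem closure_eq_RR {i₀ i₁ : ι} (h01 : i₀ ≠ i₁) :
    Subgroup.closure {t : Matrix.SpecialLinearGroup ι k |
      ∃ c : k, (t : Matrix ι ι k) = Matrix.transvection i₀ i₁ c} =
    RR (Pi.single i₀ 1) (Pi.single i₁ 1) := by
  unfold RR
  congr 1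
  ext t
  constructor
  · rintro ⟨c, hc⟩
    refine ⟨c, ?_⟩
    rw [hc]
    unfold tm Matrix.transvection
    rw [single_eq_vv]
  · rintro ⟨c, hc⟩
    refine ⟨c, ?_⟩
    rw [hc]
    unfold tm Matrix.transvection
    rw [single_eq_vv]

theorem single_dot {i₀ i₁ : ι} (h01 : i₀ ≠ i₁) :
    (Pi.single i₁ 1 : ι → k) ⬝ᵥ (Pi.single i₀ 1 : ι → k) = 0 := by
  simp [h01, Ne.symm h01]

theorem mem_FF_conj {i₀ i₁ i₂ : ι} (h01 : i₀ ≠ i₁) (h02 : i₀ ≠ i₂) (h12 : i₁ ≠ i₂)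
    {A : Subgroup (Matrix.SpecialLinearGroup ι k)} :
    A ∈ FF ι k ↔ ∃ g : Matrix.SpecialLinearGroup ι k,
      A = Cfsg.conjBy (Subgroup.closure {t : Matrix.SpecialLinearGroup ι k |
        ∃ c : k, (t : Matrix ι ι k) = Matrix.transvection i₀ i₁ c}) g := by
  rw [closure_eq_RR h01]
  have he0 : (Pi.single i₀ 1 : ι → k) ≠ 0 := Pi.single_ne_zero_iff.2 one_ne_zero
  have he1 : (Pi.single i₁ 1 : ι → k) ≠ 0 := Pi.single_ne_zero_iff.2 one_ne_zero
  have hd := single_dot (k := k) h01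
  constructor
  · rintro ⟨p, f, hp, hf, h, rfl⟩
    obtain ⟨g, hg⟩ := exists_flag_conj h01 h02 h12 hp hf h
    refine ⟨g, ?_⟩
    rw [conjBy_RR hd]
    have hl : (1 : k) ≠ 0 := one_ne_zero
    refine (RR_eq_of_vv (conj_dot hd g) h hl ?_)
    rw [one_smul, ← hg, mul_vecMulVec, vecMulVec_mul]
  · rintro ⟨g, rfl⟩
    rw [conjBy_RR hd]
    refine ⟨_, _, ?_, ?_, conj_dot hd g, rfl⟩
    · intro h0
      apply he0
      have h1 := congrArg (fun v => ((g⁻¹ : Matrix.SpecialLinearGroup ι k) : Matrix ι ι k) *ᵥ v) h0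
      simp only [mulVec_mulVec, mulVec_zero] at h1
      have h2 : ((g⁻¹ : Matrix.SpecialLinearGroup ι k) : Matrix ι ι k) * (g : Matrix ι ι k) = 1 := by
        rw [← Matrix.SpecialLinearGroup.coe_mul, inv_mul_cancel, Matrix.SpecialLinearGroup.coe_one]
      rwa [h2, one_mulVec] at h1
    · intro h0
      apply he1
      have h1 := congrArg (fun v => v ᵥ* (g : Matrix ι ι k)) h0
      simp only [vecMul_vecMul, zero_vecMul] at h1
      have h2 : ((g⁻¹ : Matrix.SpecialLinearGroup ι k) : Matrix ι ι k) * (g : Matrix ι ι k) = 1 := by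
        rw [← Matrix.SpecialLinearGroup.coe_mul, inv_mul_cancel, Matrix.SpecialLinearGroup.coe_one]
      rwa [h2, vecMul_one] at h1

theorem conjBy_mem_FF {A : Subgroup (Matrix.SpecialLinearGroup ι k)} (hA : A ∈ FF ι k)
    (g : Matrix.SpecialLinearGroup ι k) : Cfsg.conjBy A g ∈ FF ι k := by
  obtain ⟨p, f, hp, hf, h, rfl⟩ := hA
  rw [conjBy_RR h]
  refine ⟨_, _, ?_, ?_, conj_dot h g, rfl⟩
  · intro h0
    apply hp
    have h1 := congrArg (fun v => ((g⁻¹ : Matrix.SpecialLinearGroup ι k) : Matrix ι ι k) *ᵥ v) h0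
    simp only [mulVec_mulVec, mulVec_zero] at h1
    have h2 : ((g⁻¹ : Matrix.SpecialLinearGroup ι k) : Matrix ι ι k) * (g : Matrix ι ι k) = 1 := by
      rw [← Matrix.SpecialLinearGroup.coe_mul, inv_mul_cancel, Matrix.SpecialLinearGroup.coe_one]
    rwa [h2, one_mulVec] at h1
  · intro h0
    apply hf
    have h1 := congrArg (fun v => v ᵥ* (g : Matrix ι ι k)) h0
    simp only [vecMul_vecMul, zero_vecMul] at h1
    have h2 : ((g⁻¹ : Matrix.SpecialLinearGroup ι k) : Matrix ι ι k) * (g : Matrix ι ι k) = 1 := by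
      rw [← Matrix.SpecialLinearGroup.coe_mul, inv_mul_cancel, Matrix.SpecialLinearGroup.coe_one]
    rwa [h2, vecMul_one] at h1

theorem generates_FF [Nontrivial ι] : (⨆ A ∈ FF ι k, A) = ⊤ := by
  refine eq_top_iff.2 fun A _ => ?_
  refine Cfsg.Agent.Lead.transvection_induction' (ι := ι) (F := k) (· ∈ ⨆ A ∈ FF ι k, A) ?_
    (fun _ _ => mul_mem) A
  intro i j hij c
  have hmem : Matrix.SpecialLinearGroup.transvection hij c ∈ RR (k := k) (Pi.single i 1) (Pi.single j 1) := by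
    rw [← closure_eq_RR hij]
    exact Subgroup.subset_closure ⟨c, rfl⟩
  have hF : RR (k := k) (Pi.single i 1) (Pi.single j 1) ∈ FF ι k :=
    ⟨_, _, Pi.single_ne_zero_iff.2 one_ne_zero, Pi.single_ne_zero_iff.2 one_ne_zero, single_dot hij, rfl⟩
  exact (le_iSup₂_of_le (f := fun (A : Subgroup (Matrix.SpecialLinearGroup ι k)) (_ : A ∈ FF ι k) => A) _ hF le_rfl) hmem

theorem isRootSubgroupSet_FF [Nontrivial ι] : Cfsg.IsRootSubgroupSet (FF ι k) where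
  commutative := by
    rintro A ⟨p, f, hp, hf, h, rfl⟩
    exact ⟨⟨fun a b => Subtype.ext (RR_comm h a.2 b.2)⟩⟩
  ne_bot := by
    rintro A ⟨p, f, hp, hf, h, rfl⟩ hbot
    have h1 : tv p f h 1 ∈ RR p f := tv_mem_RR h 1
    rw [hbot, Subgroup.mem_bot] at h1
    exact tv_inj_of_ne h one_ne_zero hp hf h1
  generates := generates_FF
  conj_mem := fun A hA g => conjBy_mem_FF hA g
  pair := by
    rintro A ⟨p, f, hp, hf, hfp, rfl⟩ B ⟨q, g, hq, hg, hgq, rfl⟩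
    by_cases h1 : f ⬝ᵥ q = 0 <;> by_cases h2 : g ⬝ᵥ p = 0
    · left
      rw [Subgroup.commutator_eq_bot_iff_le_centralizer]
      intro a ha
      obtain ⟨x, rfl⟩ := (mem_RR hfp).1 ha
      rw [Subgroup.mem_centralizer_iff]
      intro b hb
      obtain ⟨y, rfl⟩ := (mem_RR hgq).1 hb
      exact (commute_of_zero hfp hgq h1 h2 x y).symm
    · right; right
      exact comm_case_symm (comm_case ⟨q, f, hq, hf, h1, rfl⟩ hgq hfp h1 h2)
    · right; right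
      exact comm_case ⟨p, g, hp, hg, h2, rfl⟩ hfp hgq h2 h1
    · right; left
      exact rankOne_general hfp hgq h1 h2

theorem isKRoot_FF [Nontrivial ι] : Cfsg.IsKRootSubgroupSet k (FF ι k) := by
  refine ⟨isRootSubgroupSet_FF, ?_⟩
  rintro A ⟨p, f, hp, hf, hfp, rfl⟩ B ⟨q, g, hq, hg, hgq, rfl⟩ h
  by_cases h1 : f ⬝ᵥ q = 0 <;> by_cases h2 : g ⬝ᵥ p = 0
  · exact absurd h (not_rankOne_of_zero_zero hfp hgq h1 h2 hp hf)
  · exact absurd (Cfsg.RankOnePair_symm h) (not_rankOne_of_right_zero hgq hfp h2 h1 hq hg)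
  · exact absurd h (not_rankOne_of_right_zero hfp hgq h1 h2 hp hf)
  · exact psl2_general hfp hgq h1 h2

theorem exists_ne_ne {f g : ι → k} (hf : f ≠ 0) (hg : g ≠ 0) :
    ∃ r : ι → k, f ⬝ᵥ r ≠ 0 ∧ g ⬝ᵥ r ≠ 0 := by
  obtain ⟨i, hi⟩ := Function.ne_iff.1 hf
  obtain ⟨j, hj⟩ := Function.ne_iff.1 hg
  have h1 : f ⬝ᵥ (Pi.single i 1 : ι → k) ≠ 0 := by simpa using hi
  have h2 : g ⬝ᵥ (Pi.single j 1 : ι → k) ≠ 0 := by simpa using hj
  by_cases h3 : g ⬝ᵥ (Pi.single i 1 : ι → k) = 0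
  · by_cases h4 : f ⬝ᵥ (Pi.single j 1 : ι → k) = 0
    · refine ⟨Pi.single i 1 + Pi.single j 1, ?_, ?_⟩
      · rw [dotProduct_add, h4, add_zero]; exact h1
      · rw [dotProduct_add, h3, zero_add]; exact h2
    · exact ⟨_, h4, h2⟩
  · exact ⟨_, h1, h3⟩

/-- The connectivity step: a common neighbour. -/
theorem exists_common {p f q g : ι → k} (hp : p ≠ 0) (hf : f ≠ 0) (hfp : f ⬝ᵥ p = 0)
    (hq : q ≠ 0) (hg : g ≠ 0) (hgq : g ⬝ᵥ q = 0) :
    ∃ r h : ι → k, r ≠ 0 ∧ h ≠ 0 ∧ h ⬝ᵥ r = 0 ∧ f ⬝ᵥ r ≠ 0 ∧ h ⬝ᵥ p ≠ 0 ∧ g ⬝ᵥ r ≠ 0 ∧ h ⬝ᵥ q ≠ 0 := by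
  obtain ⟨r, hr1, hr2⟩ := exists_ne_ne hf hg
  have hr0 : r ≠ 0 := ne_zero_of_dot_right hr1
  -- forms vanishing on r, nonzero on p and on q
  obtain ⟨i, hi⟩ := Function.ne_iff.1 hp
  obtain ⟨j, hj⟩ := Function.ne_iff.1 hq
  let e₁ : ι → k := Pi.single i 1
  let e₂ : ι → k := Pi.single j 1
  have he1 : e₁ ⬝ᵥ p ≠ 0 := by simpa [e₁] using hi
  have he2 : e₂ ⬝ᵥ q ≠ 0 := by simpa [e₂] using hj
  let h₁ : ι → k := e₁ - ((e₁ ⬝ᵥ r) * (f ⬝ᵥ r)⁻¹) • f
  let h₂ : ι → k := e₂ - ((e₂ ⬝ᵥ r) * (g ⬝ᵥ r)⁻¹) • g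
  have h1r : h₁ ⬝ᵥ r = 0 := by
    simp only [h₁, sub_dotProduct, smul_dotProduct, smul_eq_mul]
    field_simp
    ring
  have h2r : h₂ ⬝ᵥ r = 0 := by
    simp only [h₂, sub_dotProduct, smul_dotProduct, smul_eq_mul]
    field_simp
    ring
  have h1p : h₁ ⬝ᵥ p ≠ 0 := by
    simp only [h₁, sub_dotProduct, smul_dotProduct, smul_eq_mul, hfp, mul_zero, sub_zero]
    exact he1
  have h2q : h₂ ⬝ᵥ q ≠ 0 := by
    simp only [h₂, sub_dotProduct, smul_dotProduct, smul_eq_mul, hgq, mul_zero, sub_zero]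
    exact he2
  by_cases h3 : h₁ ⬝ᵥ q = 0
  · by_cases h4 : h₂ ⬝ᵥ p = 0
    · refine ⟨r, h₁ + h₂, hr0, ?_, ?_, hr1, ?_, hr2, ?_⟩
      · apply ne_zero_of_dot_left (b := p)
        rw [add_dotProduct, h4, add_zero]; exact h1p
      · rw [add_dotProduct, h1r, h2r, add_zero]
      · rw [add_dotProduct, h4, add_zero]; exact h1p
      · rw [add_dotProduct, h3, zero_add]; exact h2q
    · exact ⟨r, h₂, hr0, ne_zero_of_dot_left h4, h2r, hr1, h4, hr2, h2q⟩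
  · exact ⟨r, h₁, hr0, ne_zero_of_dot_left h1p, h1r, hr1, h1p, hr2, h3⟩

theorem connected_FF : Cfsg.IsConnectedFamily (Cfsg.FAdj (FF ι k)) (FF ι k) := by
  rintro A ⟨p, f, hp, hf, hfp, rfl⟩ B ⟨q, g, hq, hg, hgq, rfl⟩
  obtain ⟨r, h, hr, hh, hhr, h1, h2, h3, h4⟩ := exists_common hp hf hfp hq hg hgq
  have hA : RR p f ∈ FF ι k := ⟨p, f, hp, hf, hfp, rfl⟩
  have hB : RR q g ∈ FF ι k := ⟨q, g, hq, hg, hgq, rfl⟩
  have hC : RR r h ∈ FF ι k := ⟨r, h, hr, hh, hhr, rfl⟩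
  exact Relation.ReflTransGen.tail (Relation.ReflTransGen.single (b := RR r h)
    ⟨hA, hC, rankOne_general hfp hhr h1 h2⟩) ⟨hC, hB, rankOne_general hhr hgq h4 h3⟩

theorem conjBy_conjBy {G : Type*} [Group G] (A : Subgroup G) (g h : G) :
    Cfsg.conjBy (Cfsg.conjBy A g) h = Cfsg.conjBy A (h * g) := by
  ext x
  simp only [Cfsg.conjBy, Subgroup.mem_map]
  constructor
  · rintro ⟨_, ⟨y, hy, rfl⟩, rfl⟩
    exact ⟨y, hy, by simp [MulAut.conj_apply, mul_assoc]⟩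
  · rintro ⟨y, hy, rfl⟩
    exact ⟨_, ⟨y, hy, rfl⟩, by simp [MulAut.conj_apply, mul_assoc]⟩

theorem conjClass_FF {i₀ i₁ i₂ : ι} (h01 : i₀ ≠ i₁) (h02 : i₀ ≠ i₂) (h12 : i₁ ≠ i₂) :
    Cfsg.IsConjClassOfSubgroups (FF ι k) := by
  refine ⟨⟨_, _, _, Pi.single_ne_zero_iff.2 one_ne_zero, Pi.single_ne_zero_iff.2 one_ne_zero,
    single_dot h01, rfl⟩, ?_⟩
  intro A hA B hB
  obtain ⟨g₁, rfl⟩ := (mem_FF_conj h01 h02 h12).1 hA
  obtain ⟨g₂, rfl⟩ := (mem_FF_conj h01 h02 h12).1 hB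
  refine ⟨g₂ * g₁⁻¹, ?_⟩
  rw [conjBy_conjBy, inv_mul_cancel_right]

theorem nondeg_FF {i₀ i₁ i₂ : ι} (h01 : i₀ ≠ i₁) (h02 : i₀ ≠ i₂) (h12 : i₁ ≠ i₂) :
    Cfsg.IsNondegenerateRootSet (FF ι k) := by
  have he0 : (Pi.single i₀ 1 : ι → k) ≠ 0 := Pi.single_ne_zero_iff.2 one_ne_zero
  have he1 : (Pi.single i₁ 1 : ι → k) ≠ 0 := Pi.single_ne_zero_iff.2 one_ne_zero
  have he2 : (Pi.single i₂ 1 : ι → k) ≠ 0 := Pi.single_ne_zero_iff.2 one_ne_zero
  have d10 := single_dot (k := k) h01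
  have d20 := single_dot (k := k) h02
  have d21 := single_dot (k := k) h12
  have d01 := single_dot (k := k) h01.symm
  have d11 : (Pi.single i₁ 1 : ι → k) ⬝ᵥ (Pi.single i₁ 1 : ι → k) = 1 := by simp
  have d00 : (Pi.single i₀ 1 : ι → k) ⬝ᵥ (Pi.single i₀ 1 : ι → k) = 1 := by simp
  have mem : ∀ {i j : ι} (hij : i ≠ j), RR (k := k) (Pi.single i 1) (Pi.single j 1) ∈ FF ι k := fun hij =>
    ⟨_, _, Pi.single_ne_zero_iff.2 one_ne_zero, Pi.single_ne_zero_iff.2 one_ne_zero, single_dot hij, rfl⟩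
  refine ⟨⟨_, mem h01, _, mem h02, ?_, ?_⟩, ⟨_, mem h01, _, mem h01.symm, ?_⟩, ⟨_, mem h01, _, mem h12, ?_⟩⟩
  · intro h
    have h1 : tv (Pi.single i₀ 1) (Pi.single i₁ 1) d10 1 ∈ RR (k := k) (Pi.single i₀ 1) (Pi.single i₂ 1) :=
      h ▸ tv_mem_RR d10 1
    obtain ⟨c, hc⟩ := (mem_RR d20).1 h1
    have h2 := congrArg (fun t : Matrix.SpecialLinearGroup ι k =>
      (t : Matrix ι ι k) *ᵥ (Pi.single i₁ 1 : ι → k)) hc
    simp only [coe_tv, tm_mulVec, d11, d21, mul_zero, zero_smul, add_zero, one_mul, mul_one] at h2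
    have h3 : (Pi.single i₀ 1 : ι → k) = 0 := by simpa using h2
    exact he0 h3
  · rw [Subgroup.commutator_eq_bot_iff_le_centralizer]
    intro a ha
    obtain ⟨x, rfl⟩ := (mem_RR d10).1 ha
    rw [Subgroup.mem_centralizer_iff]
    intro b hb
    obtain ⟨y, rfl⟩ := (mem_RR d20).1 hb
    exact (commute_of_zero d10 d20 d10 d20 x y).symm
  · exact rankOne_general d10 d01 (by rw [d11]; exact one_ne_zero) (by rw [d00]; exact one_ne_zero)
  · exact comm_case (mem h02) d10 d21 d20 (by rw [d11]; exact one_ne_zero)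

end Family

end Cfsg.Agent.H29.RootSL
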