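/-
Counting nilpotent endomorphisms of a finite vector space (Fine--Herstein), through the Fitting decomposition.
-/
import Mathlib

set_option autoImplicit false

namespace Cfsg.Agent.H29.Fit

open Module

variable {F : Type*} [Field F]

section Block

variable {X Y V : Type*} [AddCommGroup X] [Module F X] [AddCommGroup Y] [Module F Y]
  [AddCommGroup V] [Module F V]

theorem block_of_conj [FiniteDimensional F X] [FiniteDimensional F Y] (g : (X × Y) ≃ₗ[F] (X × Y)) (A A₀ : Module.End F X) (B B₀ : Y ≃ₗ[F] Y)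
    (hA : IsNilpotent A) (hA₀ : IsNilpotent A₀)
    (h : ∀ v, g (A₀ v.1, B₀ v.2) = (A (g v).1, B (g v).2)) :
    ∃ (a : X ≃ₗ[F] X) (b : Y ≃ₗ[F] Y), ∀ x y, g (x, y) = (a x, b y) := by
  obtain ⟨N₁, hN₁⟩ := hA
  obtain ⟨N₂, hN₂⟩ := hA₀
  set N := N₁ + N₂ with hN
  have hAN : ∀ x, A^[N] x = 0 := by
    intro x
    rw [← Module.End.pow_apply, hN, pow_add, hN₁, zero_mul]
    rfl
  have hA₀N : ∀ x, A₀^[N] x = 0 := by
    intro x
    rw [← Module.End.pow_apply, hN, add_comm, pow_add, hN₂, zero_mul]
    rfl
  have hiter : ∀ (m : ℕ) (v : X × Y), g (A₀^[m] v.1, B₀^[m] v.2) = (A^[m] (g v).1, B^[m] (g v).2) := by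
    intro m
    induction m with
    | zero => intro v; rfl
    | succ m ih =>
      intro v
      rw [Function.iterate_succ_apply', Function.iterate_succ_apply', Function.iterate_succ_apply',
        Function.iterate_succ_apply']
      have h1 := h (A₀^[m] v.1, B₀^[m] v.2)
      simp only at h1
      rw [h1, ih v]
  have hB0 : ∀ m, B₀^[m] (0 : Y) = 0 := by
    intro m
    induction m with
    | zero => rfl
    | succ m ih => rw [Function.iterate_succ_apply', ih, map_zero]
  have hA00 : ∀ m, A₀^[m] (0 : X) = 0 := by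
    intro m
    induction m with
    | zero => rfl
    | succ m ih => rw [Function.iterate_succ_apply', ih, map_zero]
  have hB1 : ∀ m, B^[m] (0 : Y) = 0 := by
    intro m
    induction m with
    | zero => rfl
    | succ m ih => rw [Function.iterate_succ_apply', ih, map_zero]
  have hBinj : Function.Injective (B^[N]) := B.injective.iterate N
  have hB₀surj : Function.Surjective (B₀^[N]) := B₀.surjective.iterate N
  have hl : ∀ x : X, (g (x, 0)).2 = 0 := by
    intro x
    have h1 := hiter N (x, 0)
    simp only [hA₀N, hB0] at h1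
    have h2 : g (0, 0) = 0 := map_zero g
    rw [h2] at h1
    have h3 : B^[N] (g (x, 0)).2 = 0 := (congrArg Prod.snd h1).symm
    apply hBinj
    rw [h3, hB1]
  have hr : ∀ y : Y, (g (0, y)).1 = 0 := by
    intro y'
    obtain ⟨y, rfl⟩ := hB₀surj y'
    have h1 := hiter N (0, y)
    simp only [hA00] at h1
    rw [h1]
    exact hAN _
  let a₀ : X →ₗ[F] X := LinearMap.fst F X Y ∘ₗ g.toLinearMap ∘ₗ LinearMap.inl F X Y
  let b₀ : Y →ₗ[F] Y := LinearMap.snd F X Y ∘ₗ g.toLinearMap ∘ₗ LinearMap.inr F X Y
  have ha₀ : ∀ x, g (x, 0) = (a₀ x, 0) := by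
    intro x
    exact Prod.ext rfl (hl x)
  have hb₀ : ∀ y, g (0, y) = (0, b₀ y) := by
    intro y
    exact Prod.ext (hr y) rfl
  have ha₀inj : Function.Injective a₀ := by
    rw [← LinearMap.ker_eq_bot, LinearMap.ker_eq_bot']
    intro x hx
    have h1 := ha₀ x
    rw [hx] at h1
    have h2 : ((x, 0) : X × Y) = 0 := g.injective (by rw [h1, map_zero]; rfl)
    exact congrArg Prod.fst h2
  have hb₀inj : Function.Injective b₀ := by
    rw [← LinearMap.ker_eq_bot, LinearMap.ker_eq_bot']
    intro x hx
    have h1 := hb₀ x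
    rw [hx] at h1
    have h2 : ((0, x) : X × Y) = 0 := g.injective (by rw [h1, map_zero]; rfl)
    exact congrArg Prod.snd h2
  refine ⟨LinearEquiv.ofInjectiveEndo a₀ ha₀inj, LinearEquiv.ofInjectiveEndo b₀ hb₀inj, ?_⟩
  intro x y
  have e : ((x, y) : X × Y) = (x, 0) + (0, y) := by simp
  rw [e, map_add, ha₀, hb₀]
  simp

/-- The map attached to a decomposition. -/
def Phi (e : (X × Y) ≃ₗ[F] V) (A : Module.End F X) (B : Y ≃ₗ[F] Y) : Module.End F V :=
  e.toLinearMap ∘ₗ (A.prodMap B.toLinearMap) ∘ₗ e.symm.toLinearMap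

theorem Phi_apply (e : (X × Y) ≃ₗ[F] V) (A : Module.End F X) (B : Y ≃ₗ[F] Y) (v : V) :
    Phi e A B v = e (A (e.symm v).1, B (e.symm v).2) := rfl

theorem Phi_pow (e : (X × Y) ≃ₗ[F] V) (A : Module.End F X) (B : Y ≃ₗ[F] Y) (m : ℕ) (v : V) :
    ((Phi e A B) ^ m) v = e ((A ^ m) (e.symm v).1, B^[m] (e.symm v).2) := by
  induction m with
  | zero => simp
  | succ m ih =>
    rw [pow_succ', Module.End.mul_apply, ih, Phi_apply, pow_succ', Module.End.mul_apply, Function.iterate_succ_apply']
    simp

theorem finrank_ker_Phi [FiniteDimensional F X] [FiniteDimensional F Y] (e : (X × Y) ≃ₗ[F] V) (A : Module.End F X) (B : Y ≃ₗ[F] Y) (n : ℕ)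
    (hA : A ^ n = 0) : finrank F (LinearMap.ker ((Phi e A B) ^ n)) = finrank F X := by
  have hinj : Function.Injective (B^[n]) := B.injective.iterate n
  have hB1 : ∀ m, B^[m] (0 : Y) = 0 := by
    intro m
    induction m with
    | zero => rfl
    | succ m ih => rw [Function.iterate_succ_apply', ih, map_zero]
  let f : X →ₗ[F] V := e.toLinearMap ∘ₗ LinearMap.inl F X Y
  have hf : Function.Injective f := by
    intro x y h
    have h1 : ((x, 0) : X × Y) = (y, 0) := e.injective h
    exact congrArg Prod.fst h1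
  have hk : LinearMap.ker ((Phi e A B) ^ n) = LinearMap.range f := by
    ext v
    rw [LinearMap.mem_ker, Phi_pow, hA, LinearMap.mem_range]
    constructor
    · intro h
      have h1 : (((0 : Module.End F X)) (e.symm v).1, B^[n] (e.symm v).2) = 0 := by
        apply e.injective
        rw [h, map_zero]
      have h2 : B^[n] (e.symm v).2 = 0 := congrArg Prod.snd h1
      have h3 : (e.symm v).2 = 0 := hinj (by rw [h2, hB1])
      refine ⟨(e.symm v).1, ?_⟩
      apply e.symm.injective
      simp only [f, LinearMap.comp_apply, LinearEquiv.coe_coe, LinearEquiv.symm_apply_apply, LinearMap.inl_apply]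
      exact Prod.ext rfl h3.symm
    · rintro ⟨x, rfl⟩
      simp only [f, LinearMap.comp_apply, LinearEquiv.coe_coe, LinearEquiv.symm_apply_apply, LinearMap.inl_apply]
      rw [hB1]
      simp
  rw [hk]
  exact LinearMap.finrank_range_of_inj hf

end Block

section Surj

variable {X Y V : Type*} [AddCommGroup X] [Module F X] [FiniteDimensional F X] [AddCommGroup Y] [Module F Y] [FiniteDimensional F Y]
  [AddCommGroup V] [Module F V] [FiniteDimensional F V]

theorem exists_Phi (T : Module.End F V) (hX : finrank F (LinearMap.ker (T ^ finrank F V)) = finrank F X)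
    (hd : finrank F V = finrank F X + finrank F Y) :
    ∃ (e : (X × Y) ≃ₗ[F] V) (A : Module.End F X) (B : Y ≃ₗ[F] Y), IsNilpotent A ∧ T = Phi e A B := by
  classical
  obtain ⟨m, hm⟩ := Filter.eventually_atTop.1 T.eventually_isCompl_ker_pow_range_pow
  set M := m + finrank F V + 1 with hM
  have hc := hm M (by omega)
  have hker : LinearMap.ker (T ^ M) = LinearMap.ker (T ^ finrank F V) :=
    Module.End.ker_pow_eq_ker_pow_finrank_of_le (by omega)
  have hXd : finrank F X = finrank F (LinearMap.ker (T ^ M)) := by rw [hker, hX]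
  have hYd : finrank F Y = finrank F (LinearMap.range (T ^ M)) := by
    have h1 := LinearMap.finrank_range_add_finrank_ker (T ^ M)
    omega
  let φ : X ≃ₗ[F] LinearMap.ker (T ^ M) := LinearEquiv.ofFinrankEq _ _ hXd
  let ψ : Y ≃ₗ[F] LinearMap.range (T ^ M) := LinearEquiv.ofFinrankEq _ _ hYd
  have hTX : ∀ x ∈ LinearMap.ker (T ^ M), T x ∈ LinearMap.ker (T ^ M) := by
    intro x hx
    rw [LinearMap.mem_ker] at hx ⊢
    rw [← Module.End.mul_apply, ← pow_succ, pow_succ', Module.End.mul_apply, hx, map_zero]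
  have hTR : ∀ x ∈ LinearMap.range (T ^ M), T x ∈ LinearMap.range (T ^ M) := by
    rintro _ ⟨z, rfl⟩
    refine ⟨T z, ?_⟩
    rw [← Module.End.mul_apply, ← Module.End.mul_apply, ← pow_succ, pow_succ']
  let A : Module.End F X := φ.symm.toLinearMap ∘ₗ (T.restrict hTX) ∘ₗ φ.toLinearMap
  let B₀ : Module.End F Y := ψ.symm.toLinearMap ∘ₗ (T.restrict hTR) ∘ₗ ψ.toLinearMap
  have hA : ∀ x, (φ (A x) : V) = T (φ x) := by
    intro x
    simp [A, LinearMap.restrict_apply]
  have hB₀ : ∀ y, (ψ (B₀ y) : V) = T (ψ y) := by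
    intro y
    simp [B₀, LinearMap.restrict_apply]
  have hB₀inj : Function.Injective B₀ := by
    rw [← LinearMap.ker_eq_bot, LinearMap.ker_eq_bot']
    intro y hy
    have h1 := hB₀ y
    rw [hy, map_zero] at h1
    have h2 : (ψ y : V) ∈ LinearMap.ker (T ^ M) := by
      rw [LinearMap.mem_ker]
      have h5 : (T ^ M) (ψ y : V) = (T ^ (m + finrank F V)) (T (ψ y)) := by
        rw [← Module.End.mul_apply, ← pow_succ]
      rw [h5, ← h1]
      simp
    have h3 : (ψ y : V) ∈ LinearMap.ker (T ^ M) ⊓ LinearMap.range (T ^ M) := ⟨h2, (ψ y).2⟩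
    rw [hc.inf_eq_bot] at h3
    have h4 : ψ y = 0 := Subtype.ext h3
    simpa using h4
  let B : Y ≃ₗ[F] Y := LinearEquiv.ofInjectiveEndo B₀ hB₀inj
  have hBv : ∀ y, B y = B₀ y := fun y => rfl
  let e : (X × Y) ≃ₗ[F] V := (φ.prodCongr ψ).trans (Submodule.prodEquivOfIsCompl _ _ hc)
  have he : ∀ x y, e (x, y) = (φ x : V) + (ψ y : V) := by
    intro x y
    simp [e]
  refine ⟨e, A, B, ?_, ?_⟩
  · refine ⟨M, ?_⟩
    apply LinearMap.ext
    intro x
    have hpow : ∀ (k : ℕ) (x : X), (φ ((A ^ k) x) : V) = (T ^ k) (φ x) := by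
      intro k
      induction k with
      | zero => intro x; rfl
      | succ k ih =>
        intro x
        rw [pow_succ A k, Module.End.mul_apply, ih, hA, ← Module.End.mul_apply, ← pow_succ T k]
    have h1 := hpow M x
    have h2 : (T ^ M) (φ x : V) = 0 := LinearMap.mem_ker.1 (φ x).2
    rw [h2] at h1
    have h3 : φ ((A ^ M) x) = 0 := Subtype.ext h1
    simpa using h3
  · apply LinearMap.ext
    intro v
    obtain ⟨⟨x, y⟩, rfl⟩ := e.surjective v
    rw [Phi_apply, LinearEquiv.symm_apply_apply, he, he, map_add, hBv, hA, hB₀]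

end Surj

section Count

theorem card_of_fibres {α β γ : Type*} [Finite α] [Finite β] [Finite γ] (f : α → β)
    (h : ∀ b, Nonempty ({a // f a = b} ≃ γ)) : Nat.card α = Nat.card β * Nat.card γ := by
  classical
  haveI := Fintype.ofFinite β
  rw [Nat.card_congr (Equiv.sigmaFiberEquiv f).symm, Nat.card_sigma]
  have h1 : ∀ b : β, Nat.card {a // f a = b} = Nat.card γ := fun b => Nat.card_congr (h b).some
  simp only [h1, Finset.sum_const, Finset.card_univ, smul_eq_mul, Nat.card_eq_fintype_card]

end Count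

section Main

variable [Finite F] {X Y V : Type*} [AddCommGroup X] [Module F X] [FiniteDimensional F X] [AddCommGroup Y] [Module F Y] [FiniteDimensional F Y]
  [AddCommGroup V] [Module F V] [FiniteDimensional F V]

instance finite_equiv {U W : Type*} [AddCommGroup U] [Module F U] [FiniteDimensional F U] [AddCommGroup W] [Module F W]
    [FiniteDimensional F W] : Finite (U ≃ₗ[F] W) := by
  haveI : Finite U := Module.finite_of_finite F
  haveI : Finite W := Module.finite_of_finite F
  exact Finite.of_injective (fun e : U ≃ₗ[F] W => (e : U → W)) DFunLike.coe_injective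

instance finite_end {U : Type*} [AddCommGroup U] [Module F U] [FiniteDimensional F U] : Finite (Module.End F U) := by
  haveI : Finite U := Module.finite_of_finite F
  exact Finite.of_injective (fun e : Module.End F U => (e : U → U)) DFunLike.coe_injective

theorem card_mul (hd : finrank F V = finrank F X + finrank F Y) (m k : ℕ) (hm : finrank F V = m) (hk : finrank F X = k) :
    Nat.card ((X × Y) ≃ₗ[F] V) * Nat.card {A : Module.End F X // IsNilpotent A} * Nat.card (Y ≃ₗ[F] Y) =
      Nat.card {T : Module.End F V // finrank F (LinearMap.ker (T ^ m)) = k} *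
        (Nat.card (X ≃ₗ[F] X) * Nat.card (Y ≃ₗ[F] Y)) := by
  classical
  subst hm
  subst hk
  have hpowX : ∀ A : {A : Module.End F X // IsNilpotent A}, A.1 ^ finrank F V = 0 := by
    rintro ⟨A, hA⟩
    have h1 : A ^ finrank F X = 0 := by
      obtain ⟨N, hN⟩ := hA
      have h2 : LinearMap.ker (A ^ N) = ⊤ := by rw [hN]; simp
      have h3 := Module.End.ker_pow_le_ker_pow_finrank A N
      rw [h2] at h3
      apply LinearMap.ext
      intro x
      exact LinearMap.mem_ker.1 (h3 Submodule.mem_top)
    have hle : finrank F X ≤ finrank F V := by omega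
    simp only
    rw [← Nat.sub_add_cancel hle, pow_add, h1, mul_zero]
  let Φ : ((X × Y) ≃ₗ[F] V) × {A : Module.End F X // IsNilpotent A} × (Y ≃ₗ[F] Y) →
      {T : Module.End F V // finrank F (LinearMap.ker (T ^ finrank F V)) = finrank F X} :=
    fun d => ⟨Phi d.1 d.2.1.1 d.2.2, finrank_ker_Phi _ _ _ _ (hpowX d.2.1)⟩
  have hmain := card_of_fibres (γ := (X ≃ₗ[F] X) × (Y ≃ₗ[F] Y)) Φ ?_
  · rw [Nat.card_prod, Nat.card_prod] at hmain
    rw [Nat.card_prod] at hmain
    rw [mul_assoc, hmain]
  · rintro ⟨T, hT⟩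
    obtain ⟨e₀, A₀, B₀, hA₀, rfl⟩ := exists_Phi (X := X) (Y := Y) T hT hd
    let conjA : (X ≃ₗ[F] X) → Module.End F X := fun a => a.toLinearMap ∘ₗ A₀ ∘ₗ a.symm.toLinearMap
    have hconj : ∀ a, IsNilpotent (conjA a) := by
      intro a
      obtain ⟨N, hN⟩ := hA₀
      refine ⟨N, ?_⟩
      have hpow : ∀ (k : ℕ) (x : X), ((conjA a) ^ k) x = a ((A₀ ^ k) (a.symm x)) := by
        intro k
        induction k with
        | zero => intro x; simp
        | succ k ih =>
          intro x
          rw [pow_succ, Module.End.mul_apply, ih, pow_succ, Module.End.mul_apply]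
          simp [conjA]
      apply LinearMap.ext
      intro x
      rw [hpow, hN]
      simp
    let conjB : (Y ≃ₗ[F] Y) → (Y ≃ₗ[F] Y) := fun b => b.symm.trans (B₀.trans b)
    let ξ : (X ≃ₗ[F] X) × (Y ≃ₗ[F] Y) → ((X × Y) ≃ₗ[F] V) × {A : Module.End F X // IsNilpotent A} × (Y ≃ₗ[F] Y) :=
      fun p => ((p.1.prodCongr p.2).symm.trans e₀, ⟨conjA p.1, hconj p.1⟩, conjB p.2)
    have hξ : ∀ p, Φ (ξ p) = ⟨Phi e₀ A₀ B₀, hT⟩ := by
      rintro ⟨a, b⟩
      apply Subtype.ext
      apply LinearMap.ext
      intro v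
      change Phi ((a.prodCongr b).symm.trans e₀) (conjA a) (conjB b) v = Phi e₀ A₀ B₀ v
      rw [Phi_apply, Phi_apply]
      simp [conjA, conjB]
    let ξ' : (X ≃ₗ[F] X) × (Y ≃ₗ[F] Y) → {d // Φ d = ⟨Phi e₀ A₀ B₀, hT⟩} := fun p => ⟨ξ p, hξ p⟩
    have hbij : Function.Bijective ξ' := by
      constructor
      · rintro ⟨a, b⟩ ⟨a', b'⟩ h
        have h1 : (a.prodCongr b).symm.trans e₀ = (a'.prodCongr b').symm.trans e₀ :=
          congrArg (fun d => (d.1 : (X × Y) ≃ₗ[F] V)) (congrArg Subtype.val h)
        have h2 : ∀ x y, (a.symm x, b.symm y) = (a'.symm x, b'.symm y) := by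
          intro x y
          have h3 := LinearEquiv.congr_fun h1 (x, y)
          exact e₀.injective h3
        refine Prod.ext ?_ ?_
        · apply LinearEquiv.symm_bijective.injective
          apply LinearEquiv.ext
          intro x
          exact congrArg Prod.fst (h2 x 0)
        · apply LinearEquiv.symm_bijective.injective
          apply LinearEquiv.ext
          intro y
          exact congrArg Prod.snd (h2 0 y)
      · rintro ⟨⟨e, ⟨A, hA⟩, B⟩, hd'⟩
        have hP : Phi e A B = Phi e₀ A₀ B₀ := congrArg Subtype.val hd'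
        let g : (X × Y) ≃ₗ[F] (X × Y) := e₀.trans e.symm
        have hrel : ∀ v, g (A₀ v.1, B₀ v.2) = (A (g v).1, B (g v).2) := by
          intro v
          apply e.injective
          have h1 := LinearMap.congr_fun hP (e₀ v)
          rw [Phi_apply, Phi_apply] at h1
          simp only [LinearEquiv.symm_apply_apply] at h1
          simp only [g, LinearEquiv.trans_apply, LinearEquiv.apply_symm_apply]
          exact h1.symm
        obtain ⟨a, b, hab⟩ := block_of_conj g A A₀ B B₀ hA hA₀ hrel
        refine ⟨(a, b), ?_⟩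
        apply Subtype.ext
        have hg : ∀ x y, e.symm (e₀ (x, y)) = (a x, b y) := fun x y => hab x y
        have he : ∀ x y, e (a x, b y) = e₀ (x, y) := by
          intro x y
          rw [← hg, LinearEquiv.apply_symm_apply]
        have hAa : ∀ x, A (a x) = a (A₀ x) := by
          intro x
          have h1 := hrel (x, 0)
          rw [show g (x, 0) = (a x, b 0) from hab x 0] at h1
          rw [show g (A₀ x, B₀ 0) = (a (A₀ x), b (B₀ 0)) from hab _ _] at h1
          exact (congrArg Prod.fst h1).symm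
        have hBb : ∀ y, B (b y) = b (B₀ y) := by
          intro y
          have h1 := hrel (0, y)
          rw [show g (0, y) = (a 0, b y) from hab 0 y] at h1
          rw [show g (A₀ 0, B₀ y) = (a (A₀ 0), b (B₀ y)) from hab _ _] at h1
          exact (congrArg Prod.snd h1).symm
        refine Prod.ext ?_ (Prod.ext ?_ ?_)
        · apply LinearEquiv.ext
          rintro ⟨x, y⟩
          change e₀ (a.symm x, b.symm y) = e (x, y)
          rw [← he]
          simp
        · apply Subtype.ext
          apply LinearMap.ext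
          intro x
          change a (A₀ (a.symm x)) = A x
          rw [← hAa]
          simp
        · apply LinearEquiv.ext
          intro y
          change b (B₀ (b.symm y)) = B y
          rw [← hBb]
          simp
    exact ⟨(Equiv.ofBijective ξ' hbij).symm⟩

end Main

section Final

variable (F) [Fintype F]

theorem card_equiv_eq {U W : Type*} [AddCommGroup U] [Module F U] [FiniteDimensional F U] [AddCommGroup W] [Module F W]
    [FiniteDimensional F W] {n : ℕ} (hU : finrank F U = n) (hW : finrank F W = n) :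
    Nat.card (U ≃ₗ[F] W) = ∏ i : Fin n, (Fintype.card F ^ n - Fintype.card F ^ (i : ℕ)) := by
  rw [← Matrix.card_GL_field]
  let φU : U ≃ₗ[F] (Fin n → F) := LinearEquiv.ofFinrankEq _ _ (by simp [hU])
  let φW : W ≃ₗ[F] (Fin n → F) := LinearEquiv.ofFinrankEq _ _ (by simp [hW])
  let E : (U ≃ₗ[F] W) ≃ ((Fin n → F) ≃ₗ[F] (Fin n → F)) :=
    { toFun := fun e => φU.symm.trans (e.trans φW)
      invFun := fun e => φU.trans (e.trans φW.symm)
      left_inv := by
        intro e
        ext x
        simp
      right_inv := by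
        intro e
        ext x
        simp }
  rw [Nat.card_congr E]
  exact Nat.card_congr ((Matrix.GeneralLinearGroup.toLin (n := Fin n) (R := F)).trans
    (LinearMap.GeneralLinearGroup.generalLinearEquiv F (Fin n → F))).toEquiv.symm

theorem glc_succ (q n : ℕ) : (∏ i : Fin (n + 1), (q ^ (n + 1) - q ^ (i : ℕ))) =
    (q ^ (n + 1) - 1) * q ^ n * ∏ i : Fin n, (q ^ n - q ^ (i : ℕ)) := by
  rw [Fin.prod_univ_succ]
  simp only [Fin.val_zero, pow_zero, Fin.val_succ]
  have h1 : ∀ i : Fin n, q ^ (n + 1) - q ^ ((i : ℕ) + 1) = q * (q ^ n - q ^ (i : ℕ)) := by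
    intro i
    rw [Nat.mul_sub, pow_succ', pow_succ']
  simp only [h1, Finset.prod_mul_distrib, Finset.prod_const, Finset.card_univ, Fintype.card_fin]
  ring

/-- The number of nilpotent endomorphisms. -/
noncomputable def nilc (k : ℕ) : ℕ := Nat.card {A : Module.End F (Fin k → F) // IsNilpotent A}

/-- The order of the general linear group. -/
def glc (k : ℕ) : ℕ := ∏ i : Fin k, (Fintype.card F ^ k - Fintype.card F ^ (i : ℕ))

theorem glc_pos (k : ℕ) : 0 < glc F k := by
  have h : Nat.card ((Fin k → F) ≃ₗ[F] (Fin k → F)) = glc F k := card_equiv_eq F (by simp) (by simp)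
  rw [← h]
  haveI : Nonempty ((Fin k → F) ≃ₗ[F] (Fin k → F)) := ⟨LinearEquiv.refl _ _⟩
  exact Nat.card_pos

theorem layer (n k : ℕ) (hk : k ≤ n) :
    glc F n * nilc F k = Nat.card {T : Module.End F (Fin n → F) // finrank F (LinearMap.ker (T ^ n)) = k} * glc F k := by
  have h := card_mul (F := F) (X := Fin k → F) (Y := Fin (n - k) → F) (V := Fin n → F) (by simp; omega) n k (by simp) (by simp)
  have h1 : Nat.card (((Fin k → F) × (Fin (n - k) → F)) ≃ₗ[F] (Fin n → F)) = glc F n :=
    card_equiv_eq F (by simp; omega) (by simp)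
  have h2 : Nat.card ((Fin k → F) ≃ₗ[F] (Fin k → F)) = glc F k := card_equiv_eq F (by simp) (by simp)
  have h3 : Nat.card ((Fin (n - k) → F) ≃ₗ[F] (Fin (n - k) → F)) = glc F (n - k) := card_equiv_eq F (by simp) (by simp)
  rw [h1, h2, h3] at h
  have h4 : glc F n * nilc F k * glc F (n - k) =
      Nat.card {T : Module.End F (Fin n → F) // finrank F (LinearMap.ker (T ^ n)) = k} * glc F k * glc F (n - k) := by
    rw [mul_assoc (Nat.card _)]
    exact h
  exact Nat.eq_of_mul_eq_mul_right (glc_pos F _) h4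

theorem sum_layers (n : ℕ) :
    ∑ k ∈ Finset.range (n + 1), Nat.card {T : Module.End F (Fin n → F) // finrank F (LinearMap.ker (T ^ n)) = k} =
      Fintype.card F ^ (n * n) := by
  classical
  have hcard : Nat.card (Module.End F (Fin n → F)) = Fintype.card F ^ (n * n) := by
    rw [Module.natCard_eq_pow_finrank (K := F), Nat.card_eq_fintype_card]
    congr 1
    have h0 : finrank F ((Fin n → F) →ₗ[F] (Fin n → F)) = n * n := by
      rw [Module.finrank_linearMap, Module.finrank_fin_fun]
    exact h0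
  rw [← hcard, ← Fin.sum_univ_eq_sum_range (fun k => Nat.card {T : Module.End F (Fin n → F) // finrank F (LinearMap.ker (T ^ n)) = k})]
  let f : Module.End F (Fin n → F) → Fin (n + 1) := fun T => ⟨finrank F (LinearMap.ker (T ^ n)), by
    have := Submodule.finrank_le (LinearMap.ker (T ^ n))
    rw [Module.finrank_fin_fun] at this
    omega⟩
  rw [Nat.card_congr (Equiv.sigmaFiberEquiv f).symm, Nat.card_sigma]
  apply Finset.sum_congr rfl
  intro k _
  apply Nat.card_congr
  exact Equiv.subtypeEquivRight (fun T => by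
    constructor
    · intro h
      exact Fin.ext h
    · intro h
      exact congrArg Fin.val h)

theorem sum_ratio (n : ℕ) :
    ∑ k ∈ Finset.range (n + 1), (nilc F k : ℚ) / glc F k = (Fintype.card F : ℚ) ^ (n * n) / glc F n := by
  have hn : (glc F n : ℚ) ≠ 0 := by
    exact_mod_cast (glc_pos F n).ne'
  rw [eq_div_iff hn, Finset.sum_mul]
  have h1 := sum_layers F n
  have h2 : ((Fintype.card F : ℚ) ^ (n * n)) = ((∑ k ∈ Finset.range (n + 1), Nat.card {T : Module.End F (Fin n → F) // finrank F (LinearMap.ker (T ^ n)) = k} : ℕ) : ℚ) := by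
    rw [h1]
    push_cast
    rfl
  rw [h2]
  push_cast
  apply Finset.sum_congr rfl
  intro k hk
  have hk' : k ≤ n := by
    have := Finset.mem_range.1 hk
    omega
  have h3 := layer F n k hk'
  have hk0 : (glc F k : ℚ) ≠ 0 := by
    exact_mod_cast (glc_pos F k).ne'
  have h4 : (glc F n : ℚ) * nilc F k = (Nat.card {T : Module.End F (Fin n → F) // finrank F (LinearMap.ker (T ^ n)) = k} : ℚ) * glc F k := by
    exact_mod_cast h3
  field_simp
  linarith

theorem card_nilpotent (n : ℕ) :
    Nat.card {A : Module.End F (Fin n → F) // IsNilpotent A} = Fintype.card F ^ (n * (n - 1)) := by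
  change nilc F n = _
  cases n with
  | zero =>
    have h := sum_ratio F 0
    simp only [zero_add, Finset.range_one, Finset.sum_singleton, mul_zero, pow_zero] at h
    have h0 : (glc F 0 : ℚ) ≠ 0 := by
      exact_mod_cast (glc_pos F 0).ne'
    rw [div_left_inj' h0] at h
    simp only [zero_mul, pow_zero]
    exact_mod_cast h
  | succ n =>
    have h1 := sum_ratio F (n + 1)
    have h2 := sum_ratio F n
    rw [Finset.sum_range_succ, h2] at h1
    have h3 : glc F (n + 1) = (Fintype.card F ^ (n + 1) - 1) * Fintype.card F ^ n * glc F n := glc_succ _ n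
    have hq : 1 ≤ Fintype.card F ^ (n + 1) := Nat.one_le_pow _ _ Fintype.card_pos
    have h4 : (glc F (n + 1) : ℚ) = ((Fintype.card F : ℚ) ^ (n + 1) - 1) * (Fintype.card F : ℚ) ^ n * glc F n := by
      rw [h3]
      push_cast [Nat.cast_sub hq]
      ring
    have h0 : (glc F n : ℚ) ≠ 0 := by
      exact_mod_cast (glc_pos F n).ne'
    have h00 : (glc F (n + 1) : ℚ) ≠ 0 := by
      exact_mod_cast (glc_pos F (n + 1)).ne'
    have h5 : (nilc F (n + 1) : ℚ) = (Fintype.card F : ℚ) ^ ((n + 1) * (n + 1)) - (Fintype.card F : ℚ) ^ (n * n) * (glc F (n + 1) / glc F n) := by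
      have h6 : (nilc F (n + 1) : ℚ) / glc F (n + 1) = (Fintype.card F : ℚ) ^ ((n + 1) * (n + 1)) / glc F (n + 1) - (Fintype.card F : ℚ) ^ (n * n) / glc F n := by
        rw [← h1]
        ring
      field_simp at h6 ⊢
      linear_combination h6
    have h7 : (glc F (n + 1) : ℚ) / glc F n = ((Fintype.card F : ℚ) ^ (n + 1) - 1) * (Fintype.card F : ℚ) ^ n := by
      rw [h4]
      field_simp
    rw [h7] at h5
    have h8 : (nilc F (n + 1) : ℚ) = (Fintype.card F : ℚ) ^ ((n + 1) * n) := by
      rw [h5]
      ring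
    simp only [Nat.add_sub_cancel]
    exact_mod_cast h8

end Final

end Cfsg.Agent.H29.Fit
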