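import Mathlib
import Cfsg.Agent.Lib.H29.FpfThree

/-! A 2-group of class two all of whose involutions are central, with a fixed-point-free
automorphism of order three transitive on the involutions: automorphisms of order three
centralizing the involutions are trivial. -/

set_option autoImplicit false

namespace Cfsg.Agent.H29.Fpf3

open scoped commutatorElement

variable {Q : Type*} [Group Q]

theorem tau_trivial (hQ : ∀ x : Q, ∃ k : ℕ, x ^ 2 ^ k = 1) (σ τ : Q ≃* Q)
    (hcl : ∀ x y z : Q, ⁅⁅x, y⁆, z⁆ = 1)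
    (h3 : ∀ x, σ (σ (σ x)) = x) (hs : ∀ x : Q, x * σ x * σ (σ x) = 1)
    (hsc : ∀ x : Q, x * σ x = σ x * x)
    (W : Subgroup Q) (hWc : ∀ w ∈ W, w ∈ Subgroup.center Q) (hWi : ∀ w ∈ W, w ^ 2 = 1)
    (hWinv : ∀ x : Q, x ^ 2 = 1 → x ∈ W)
    (hσm : ∀ w ∈ W, σ w ∈ W)
    (hσW : ∀ u ∈ W, u ≠ 1 → ∀ v ∈ W, v ≠ 1 → v = u ∨ v = σ u ∨ v = σ (σ u))
    (hτ3 : ∀ x, τ (τ (τ x)) = x) (hτW : ∀ w ∈ W, τ w = w) (x : Q) : τ x = x := by
  have hcen : ∀ a b : Q, ⁅a, b⁆ ∈ Subgroup.center Q := by
    intro a b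
    rw [Subgroup.mem_center_iff]
    intro c
    have := hcl a b c
    rw [commutatorElement_eq_one_iff_mul_comm] at this
    exact this.symm
  have hml : ∀ a b c : Q, ⁅a * b, c⁆ = ⁅a, c⁆ * ⁅b, c⁆ := by
    intro a b c
    rw [comm_mul_left a b c (hcen b c)]
    exact (Subgroup.mem_center_iff.1 (hcen a c) _)
  have hswap : ∀ a b : Q, ⁅b, a⁆ = ⁅a, b⁆⁻¹ := fun a b => (commutatorElement_inv a b).symm
  have hmr : ∀ a b c : Q, ⁅a, b * c⁆ = ⁅a, b⁆ * ⁅a, c⁆ := by
    intro a b c
    rw [hswap (b * c) a, hml, mul_inv_rev, ← hswap b a, ← hswap c a]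
    exact (Subgroup.mem_center_iff.1 (hcen a b) _)
  have hsq : ∀ a b : Q, (a * b) ^ 2 = a ^ 2 * b ^ 2 * ⁅b, a⁆ := by
    intro a b
    have h1 : b * a = ⁅b, a⁆ * (a * b) := by
      simp only [commutatorElement_def]; group
    have h2 := Subgroup.mem_center_iff.1 (hcen b a)
    calc (a * b) ^ 2 = a * (b * a) * b := by simp only [pow_two, mul_assoc]
      _ = a * (⁅b, a⁆ * (a * b)) * b := by rw [← h1]
      _ = (a * ⁅b, a⁆) * (a * b) * b := by simp only [mul_assoc]
      _ = (⁅b, a⁆ * a) * (a * b) * b := by rw [h2 a]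
      _ = ⁅b, a⁆ * (a ^ 2 * b ^ 2) := by simp only [pow_two, mul_assoc]
      _ = _ := by rw [← h2 (a ^ 2 * b ^ 2)]
  have hone : ∀ a b : Q, a * b = b * a → ⁅a, b⁆ = 1 := fun a b h =>
    (commutatorElement_eq_one_iff_mul_comm).2 h
  have hcsq : ∀ a b : Q, ⁅a ^ 2, b⁆ = ⁅a, b⁆ ^ 2 := by
    intro a b
    rw [pow_two, hml, pow_two]
  have hcw : ∀ w ∈ W, ∀ b : Q, ⁅w, b⁆ = 1 := by
    intro w hw b
    apply hone
    exact (Subgroup.mem_center_iff.1 (hWc w hw) b).symm
  -- the relations for `σ`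
  have hR1 : ∀ a b : Q, ⁅a, σ b⁆ = ⁅σ a, b⁆ := by
    intro a b
    have h1 : ⁅a * b, σ (a * b)⁆ = 1 := hone _ _ (hsc _)
    rw [map_mul, hml, hmr, hmr, hone _ _ (hsc a), hone _ _ (hsc b), one_mul, mul_one] at h1
    have h2 := hswap (σ a) b
    rw [h2] at h1
    have h3' := mul_inv_eq_one.1 h1
    exact h3'
  have hR2 : ∀ a b : Q, σ ⁅a, b⁆ = ⁅σ (σ a), b⁆ := by
    intro a b
    rw [map_commutatorElement, hR1 (σ a) b]
  have hR3 : ∀ a b : Q, ⁅σ a, b⁆ = σ (σ ⁅a, b⁆) := by
    intro a b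
    have h1 := hR2 (σ a) b
    rw [h3] at h1
    rw [← h1, h3]
  -- equal squares and commuting
  have hE : ∀ a b : Q, a * b = b * a → a ^ 2 = b ^ 2 → a⁻¹ * b ∈ W := by
    intro a b hab h
    apply hWinv
    have h1 := hsq a⁻¹ b
    have h2 : ⁅b, a⁻¹⁆ = 1 := by
      apply hone
      have : b * a⁻¹ = a⁻¹ * b := by
        rw [mul_inv_eq_iff_eq_mul, mul_assoc, ← hab, ← mul_assoc, inv_mul_cancel, one_mul]
      exact this
    rw [h1, h2, mul_one, inv_pow, h, inv_mul_cancel]
  -- step one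
  have hM1 : ∀ a : Q, a ^ 2 ∈ W → a⁻¹ * τ a ∈ W := by
    intro a ha
    by_contra hcon
    set y := τ a with hy
    set u := a ^ 2 with hu
    have hyu : y ^ 2 = u := by rw [hy, ← map_pow, ← hu, hτW u ha]
    set e := ⁅a, y⁆ with he
    have he2 : e ^ 2 = 1 := by
      rw [he, ← hcsq, ← hu, hcw u ha]
    have heW : e ∈ W := hWinv e he2
    have heinv : e⁻¹ = e := by
      have : e * e = 1 := by rw [← pow_two]; exact he2
      exact inv_eq_of_mul_eq_one_left this
    have hu2 : u ^ 2 = 1 := hWi u ha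
    have huinv : u⁻¹ = u := by
      have : u * u = 1 := by rw [← pow_two]; exact hu2
      exact inv_eq_of_mul_eq_one_left this
    have hcomm : a⁻¹ * a = 1 := inv_mul_cancel a
    -- (1)
    have he1 : e ≠ 1 := by
      intro h
      apply hcon
      apply hE
      · exact (commutatorElement_eq_one_iff_mul_comm).1 h
      · rw [hyu]
    have hu1 : u ≠ 1 := by
      intro h
      apply hcon
      have h1 : a ∈ W := hWinv a h
      rw [hy, hτW a h1, inv_mul_cancel]
      exact W.one_mem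
    -- (2)
    have heu : e ≠ u := by
      intro h
      apply he1
      set g := a * σ y with hg
      have hg2 : g ^ 2 = 1 := by
        rw [hg, hsq, ← hu, ← map_pow, hyu, hR3, hswap a y, ← he, heinv, h]
        exact hs u
      have hgW : g ∈ W := hWinv g hg2
      have h1 : ⁅a, g⁆ = 1 := by
        apply hone
        exact (Subgroup.mem_center_iff.1 (hWc g hgW) a)
      rw [hg, hmr, hone a a rfl, one_mul, hR1, hR3, ← he] at h1
      exact σ.injective (σ.injective (by rw [h1, map_one, map_one]))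
    -- (3)
    set y' := τ y with hy'
    have hy'2 : y' ^ 2 = u := by rw [hy', ← map_pow, hyu, hτW u ha]
    have h1 : ⁅y, y'⁆ = e := by
      rw [hy', hy, ← map_commutatorElement]
      have := hτW e heW
      rw [he, hy] at this
      exact this
    have h2 : ⁅y', a⁆ = e := by
      have h3' : a = τ y' := by rw [hy', hy, hτ3]
      conv_lhs => rw [h3']
      rw [hy', ← map_commutatorElement, h1]
      exact hτW e heW
    have h3' : ⁅y', y⁆ = e := by rw [hswap y y', h1, heinv]
    have h4 : ⁅y, a⁆ = e := by rw [hswap a y, ← he, heinv]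
    set z := a * y * y' with hz
    have hza : ⁅z, a⁆ = 1 := by
      rw [hz, hml, hml, hone a a rfl, one_mul, h4, h2, ← pow_two, he2]
    have hzy : ⁅z, y⁆ = 1 := by
      rw [hz, hml, hml, hone y y rfl, mul_one, h3', ← he, ← pow_two, he2]
    have hz2 : z ^ 2 = e * u := by
      have h5 : u ^ 2 = 1 := hu2
      have h6 : u * u = 1 := by rw [← pow_two]; exact h5
      have h7 : e * e = 1 := by rw [← pow_two]; exact he2
      rw [hz, hsq, hsq, hyu, hy'2, hmr, h2, h3', h4, ← hu, h6, one_mul, h7, mul_one]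
    have hz2W : z ^ 2 ∈ W := by rw [hz2]; exact W.mul_mem heW ha
    have hz21 : z ^ 2 ≠ 1 := by
      rw [hz2]
      intro h
      apply heu
      have h5 := eq_inv_of_mul_eq_one_left h
      rw [h5, huinv]
    -- (4)
    have hfin : ∃ z' : Q, z' ^ 2 = u ∧ ⁅z', a⁆ = 1 ∧ ⁅z', y⁆ = 1 := by
      rcases hσW _ hz2W hz21 u ha hu1 with h | h | h
      · exact ⟨z, h.symm, hza, hzy⟩
      · refine ⟨σ z, ?_, ?_, ?_⟩
        · rw [← map_pow]; exact h.symm
        · rw [hR3, hza, map_one, map_one]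
        · rw [hR3, hzy, map_one, map_one]
      · refine ⟨σ (σ z), ?_, ?_, ?_⟩
        · rw [← map_pow, ← map_pow]; exact h.symm
        · rw [← hR2, hza, map_one]
        · rw [← hR2, hzy, map_one]
    obtain ⟨z', hz1, hz3, hz4⟩ := hfin
    have h5 : a⁻¹ * z' ∈ W := by
      apply hE
      · exact ((commutatorElement_eq_one_iff_mul_comm).1 hz3).symm
      · rw [hz1]
    have h6 : a = z' * (a⁻¹ * z')⁻¹ := by group
    apply he1
    rw [he, h6, hml, hz4, one_mul]
    exact hcw _ (W.inv_mem h5) y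
  have hM2 : ∀ a : Q, a ^ 2 ∈ W → τ a = a := by
    intro a ha
    have hc := hM1 a ha
    set c := a⁻¹ * τ a with hcdef
    have h1 : τ a = a * c := by rw [hcdef]; group
    have h2 : τ c = c := hτW c hc
    have h3' : τ (τ a) = a * (c * c) := by
      rw [h1, map_mul, h2, h1, mul_assoc]
    have h4 : c * c = 1 := by rw [← pow_two]; exact hWi c hc
    rw [h4, mul_one] at h3'
    have h5 := hτ3 a
    rw [h3'] at h5
    exact h5
  -- induction on the order
  have hP : ∀ k : ℕ, ∀ a : Q, a ^ 2 ^ k = 1 → τ a = a := by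
    intro k
    induction k with
    | zero =>
      intro a ha
      have : a = 1 := by simpa using ha
      rw [this, map_one]
    | succ k ih =>
      intro a ha
      have h1 : (a ^ 2) ^ 2 ^ k = 1 := by
        rw [← pow_mul, ← pow_succ']; exact ha
      have h2 : τ (a ^ 2) = a ^ 2 := ih _ h1
      set y := τ a with hy
      have hy2 : y ^ 2 = a ^ 2 := by rw [hy, ← map_pow, h2]
      set c := a⁻¹ * y with hc
      have hc2 : c ^ 2 = ⁅y, a⁻¹⁆ := by
        rw [hc, hsq, inv_pow, hy2, inv_mul_cancel, one_mul]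
      have hc4 : (c ^ 2) ^ 2 = 1 := by
        rw [hc2]
        have h3' : ⁅y, a⁻¹⁆ ^ 2 = ⁅y ^ 2, a⁻¹⁆ := (hcsq _ _).symm
        rw [h3', hy2]
        apply hone
        rw [pow_two, mul_assoc, mul_inv_cancel, mul_one, ← mul_assoc, inv_mul_cancel, one_mul]
      have hcW : c ^ 2 ∈ W := hWinv _ hc4
      have hcfix : τ c = c := hM2 c hcW
      have h4 : τ a = a * c := by
        show y = a * c
        rw [hc]; group
      have h5 : τ (τ a) = a * (c * c) := by
        rw [h4, map_mul, hcfix, h4, mul_assoc]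
      have h6 : τ (τ (τ a)) = a * (c * (c * c)) := by
        rw [h5, map_mul, map_mul, hcfix, h4, mul_assoc]
      rw [hτ3] at h6
      have h7 : c * (c * c) = 1 := by
        have := mul_left_cancel (a := a) (b := c * (c * c)) (c := 1) (by rw [← h6, mul_one])
        exact this
      have h8 : c = 1 := by
        have h9 : (c ^ 2) ^ 2 = c * (c * (c * c)) := by simp only [pow_two, mul_assoc]
        rw [h9, h7, mul_one] at hc4
        exact hc4
      exact h4.trans (by rw [h8, mul_one])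
  obtain ⟨k, hk⟩ := hQ x
  exact hP k x hk

end Cfsg.Agent.H29.Fpf3
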