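import Mathlib

/-! Jacobi-Trudi type determinant identity and its coefficient form. -/

set_option autoImplicit false
set_option linter.unusedSectionVars false
set_option linter.unusedVariables false

namespace Cfsg.Agent.H29.JT

open Finset

section Ring

open Polynomial

variable {R : Type*} [CommRing R] {n : ℕ} (y : Fin n → R)

/-- the geometric series -/
noncomputable def geo (a : R) : PowerSeries R := PowerSeries.mk fun l => a ^ l

lemma geo_mul (a : R) : geo a * (1 - PowerSeries.C a * PowerSeries.X) = 1 := by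
  ext l
  rw [mul_sub, mul_one, map_sub, ← mul_assoc, mul_comm (geo a), mul_assoc, PowerSeries.coeff_C_mul]
  cases l with
  | zero =>
    simp [geo, PowerSeries.coeff_zero_eq_constantCoeff]
  | succ k =>
    rw [PowerSeries.coeff_succ_mul_X]
    simp [geo, PowerSeries.coeff_one, pow_succ, mul_comm]

/-- the product of the geometric series -/
noncomputable def HH : PowerSeries R := ∏ m, geo (y m)

/-- complete homogeneous symmetric functions -/
noncomputable def hk (k : ℕ) : R := PowerSeries.coeff k (HH y)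

lemma hk_zero : hk y 0 = 1 := by
  simp only [hk, HH, PowerSeries.coeff_zero_eq_constantCoeff, map_prod]
  apply Finset.prod_eq_one
  intro m _
  simp [geo]

lemma hk_eq (k : ℕ) : hk y k = ∑ l ∈ finsuppAntidiag (univ : Finset (Fin n)) k, ∏ m, y m ^ l m := by
  simp only [hk, HH, PowerSeries.coeff_prod]
  apply Finset.sum_congr rfl
  intro l _
  apply Finset.prod_congr rfl
  intro m _
  simp [geo]

/-- the product of linear factors without the factor `j` -/
noncomputable def cP (j : Fin n) : R[X] := ∏ m ∈ univ.erase j, (1 - C (y m) * X)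

lemma cP_coe (j : Fin n) : ((cP y j : R[X]) : PowerSeries R) =
    ∏ m ∈ univ.erase j, (1 - PowerSeries.C (y m) * PowerSeries.X) := by
  have h := map_prod (Polynomial.coeToPowerSeries.ringHom (R := R)) (fun m => (1 - C (y m) * X : R[X])) (univ.erase j)
  simp only [Polynomial.coeToPowerSeries.ringHom_apply] at h
  rw [cP, h]
  apply Finset.prod_congr rfl
  intro m _
  rw [Polynomial.coe_sub, Polynomial.coe_mul, Polynomial.coe_one, Polynomial.coe_C, Polynomial.coe_X]

lemma HH_mul (j : Fin n) : HH y * ((cP y j : R[X]) : PowerSeries R) = geo (y j) := by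
  rw [cP_coe, HH, ← Finset.mul_prod_erase univ _ (Finset.mem_univ j), mul_assoc, ← Finset.prod_mul_distrib]
  rw [Finset.prod_eq_one, mul_one]
  intro m _
  exact geo_mul _

lemma cP_coeff (j : Fin n) {b : ℕ} (hb : n ≤ b) : (cP y j).coeff b = 0 := by
  apply Polynomial.coeff_eq_zero_of_natDegree_lt
  have h1 : (cP y j).natDegree ≤ ∑ m ∈ univ.erase j, (1 - C (y m) * X : R[X]).natDegree :=
    Polynomial.natDegree_prod_le _ _
  have h2 : ∀ m ∈ univ.erase j, (1 - C (y m) * X : R[X]).natDegree ≤ 1 := by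
    intro m _
    compute_degree
  have h3 := Finset.sum_le_card_nsmul _ _ _ h2
  have h4 : (univ.erase j).card = n - 1 := by
    rw [Finset.card_erase_of_mem (Finset.mem_univ j), Finset.card_univ, Fintype.card_fin]
  rw [h4] at h3
  have h5 : 0 < n := j.pos
  simp only [smul_eq_mul, mul_one] at h3
  omega

lemma key_id (j : Fin n) (l : ℕ) :
    ∑ b : Fin n, (if b.val ≤ l then hk y (l - b.val) else 0) * (cP y j).coeff b.val = y j ^ l := by
  have h := congrArg (PowerSeries.coeff l) (HH_mul y j)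
  rw [mul_comm, PowerSeries.coeff_mul, Finset.Nat.sum_antidiagonal_eq_sum_range_succ_mk] at h
  have h2 : PowerSeries.coeff l (geo (y j)) = y j ^ l := by simp [geo]
  rw [h2] at h
  rw [← h]
  set g : ℕ → R := fun b => (if b ≤ l then hk y (l - b) else 0) * (cP y j).coeff b with hg
  have h3 : ∑ b : Fin n, (if b.val ≤ l then hk y (l - b.val) else 0) * (cP y j).coeff b.val = ∑ b ∈ range n, g b :=
    Fin.sum_univ_eq_sum_range g n
  have h4 : ∑ b ∈ range (l + 1), PowerSeries.coeff b ((cP y j : R[X]) : PowerSeries R) * PowerSeries.coeff (l - b) (HH y) =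
      ∑ b ∈ range (l + 1), g b := by
    apply Finset.sum_congr rfl
    intro b hb
    have hb' : b ≤ l := Nat.lt_succ_iff.mp (mem_range.mp hb)
    simp only [hg, if_pos hb', hk, Polynomial.coeff_coe, mul_comm]
  have h5 : ∑ b ∈ range n, g b = ∑ b ∈ range (n + (l + 1)), g b := by
    apply Finset.sum_subset
    · intro b hb
      simp only [mem_range] at hb ⊢
      omega
    · intro b _ hb
      simp only [mem_range, not_lt] at hb
      simp only [hg, cP_coeff y j hb, mul_zero]
  have h6 : ∑ b ∈ range (l + 1), g b = ∑ b ∈ range (n + (l + 1)), g b := by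
    apply Finset.sum_subset
    · intro b hb
      simp only [mem_range] at hb ⊢
      omega
    · intro b _ hb
      simp only [mem_range, not_lt] at hb
      have : ¬ b ≤ l := by omega
      simp only [hg, if_neg this, zero_mul]
  rw [h3, h5, ← h6, ← h4]

/-- the matrix of complete homogeneous functions -/
noncomputable def HM (lam : Fin n → ℕ) : Matrix (Fin n) (Fin n) R :=
  Matrix.of fun i b => if b.val ≤ lam i then hk y (lam i - b.val) else 0

/-- the power matrix -/
def AM (lam : Fin n → ℕ) : Matrix (Fin n) (Fin n) R := Matrix.of fun i j => y j ^ lam i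

/-- the matrix of coefficients -/
noncomputable def MM : Matrix (Fin n) (Fin n) R := Matrix.of fun b j => (cP y j).coeff b.val

lemma HM_mul (lam : Fin n → ℕ) : HM y lam * MM y = AM y lam := by
  ext i j
  rw [Matrix.mul_apply]
  exact key_id y j (lam i)

lemma det_HM_id : (HM y (fun i : Fin n => i.val)).det = 1 := by
  have h : (HM y (fun i : Fin n => i.val)).IsLowerTriangular := by
    intro i b hb
    have hb' : i < b := hb
    have : ¬ b.val ≤ i.val := not_le.mpr hb'
    simp only [HM, Matrix.of_apply, if_neg this]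
  rw [Matrix.det_of_isLowerTriangular (HM y (fun i : Fin n => i.val)) h]
  apply Finset.prod_eq_one
  intro i _
  simp [HM, hk_zero]

theorem jt (lam : Fin n → ℕ) :
    (HM y lam).det * (AM y (fun i : Fin n => i.val)).det = (AM y lam).det := by
  rw [← HM_mul y lam, ← HM_mul y (fun i : Fin n => i.val), Matrix.det_mul, Matrix.det_mul, det_HM_id, one_mul]

end Ring

section Coef

open MvPolynomial

variable {n : ℕ}

/-- exponent vector -/
noncomputable abbrev fs (γ : Fin n → ℕ) : Fin n →₀ ℕ := Finsupp.equivFunOnFinite.symm γ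

/-- the variables -/
noncomputable abbrev yy : Fin n → MvPolynomial (Fin n) ℤ := fun j => X j

/-- product of complete homogeneous functions -/
noncomputable def AA (α : Fin n → ℕ) : MvPolynomial (Fin n) ℤ := ∏ i, hk yy (α i)

lemma prod_X (l : Fin n →₀ ℕ) : ∏ m, (X m : MvPolynomial (Fin n) ℤ) ^ l m = monomial l 1 := by
  rw [monomial_eq, map_one, one_mul, Finsupp.prod_fintype]
  intro i
  exact pow_zero _

lemma det_H (lam : Fin n → ℕ) : (HM yy lam).det = ∑ κ : Equiv.Perm (Fin n),
    ((Equiv.Perm.sign κ : ℤ) : MvPolynomial (Fin n) ℤ) *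
      (if ∀ i, (κ i).val ≤ lam i then AA (fun i => lam i - (κ i).val) else 0) := by
  rw [← Matrix.det_transpose, Matrix.det_apply']
  apply Finset.sum_congr rfl
  intro κ _
  congr 1
  by_cases h : ∀ i, (κ i).val ≤ lam i
  · rw [if_pos h, AA]
    apply Finset.prod_congr rfl
    intro i _
    simp [Matrix.transpose_apply, HM, h i]
  · rw [if_neg h]
    push Not at h
    obtain ⟨i, hi⟩ := h
    apply Finset.prod_eq_zero (Finset.mem_univ i)
    have : ¬ (κ i).val ≤ lam i := not_le.mpr hi
    simp [Matrix.transpose_apply, HM, this]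

lemma det_A (lam : Fin n → ℕ) : (AM yy lam).det = ∑ τ : Equiv.Perm (Fin n),
    ((Equiv.Perm.sign τ : ℤ) : MvPolynomial (Fin n) ℤ) * monomial (fs fun j => lam (τ⁻¹ j)) 1 := by
  rw [← Matrix.det_transpose, Matrix.det_apply']
  apply Finset.sum_congr rfl
  intro τ _
  congr 1
  rw [← prod_X, ← Equiv.prod_comp τ (fun m => (X m : MvPolynomial (Fin n) ℤ) ^ (fs fun j => lam (τ⁻¹ j)) m)]
  apply Finset.prod_congr rfl
  intro i _
  simp [Matrix.transpose_apply, AM]

lemma term (t : Fin n →₀ ℕ) (a b : ℤ) (P : MvPolynomial (Fin n) ℤ) (s : Fin n →₀ ℕ) :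
    MvPolynomial.coeff t (((a : MvPolynomial (Fin n) ℤ) * P) * ((b : MvPolynomial (Fin n) ℤ) * monomial s 1)) =
      a * b * (if s ≤ t then MvPolynomial.coeff (t - s) P else 0) := by
  have h1 : (a : MvPolynomial (Fin n) ℤ) = C a := (eq_intCast (C : ℤ →+* MvPolynomial (Fin n) ℤ) a).symm
  have h2 : (b : MvPolynomial (Fin n) ℤ) = C b := (eq_intCast (C : ℤ →+* MvPolynomial (Fin n) ℤ) b).symm
  have h3 : ((a : MvPolynomial (Fin n) ℤ) * P) * ((b : MvPolynomial (Fin n) ℤ) * monomial s 1) = C (a * b) * (P * monomial s 1) := by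
    rw [h1, h2, map_mul]
    ring
  rw [h3, coeff_C_mul, coeff_mul_monomial']
  simp

/-- coefficient identity -/
theorem coeff_identity (lam lam' : Fin n → ℕ) :
    ∑ κ : Equiv.Perm (Fin n), ∑ κ' : Equiv.Perm (Fin n),
      ((Equiv.Perm.sign κ : ℤ) * (Equiv.Perm.sign κ' : ℤ)) *
        (if (∀ i, (κ i).val ≤ lam i) ∧ (∀ i, (κ' i).val ≤ lam' i) then
          MvPolynomial.coeff (fs fun i => lam' i - (κ' i).val) (AA (fun i => lam i - (κ i).val)) else 0)
      = ∑ τ : Equiv.Perm (Fin n), (Equiv.Perm.sign τ : ℤ) * (if (fs fun j => lam (τ⁻¹ j)) = fs lam' then 1 else 0) := by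
  have h := congrArg (MvPolynomial.coeff (fs lam')) (jt (yy (n := n)) lam)
  rw [det_H, det_A, det_A] at h
  have hR : MvPolynomial.coeff (fs lam') (∑ τ : Equiv.Perm (Fin n),
      ((Equiv.Perm.sign τ : ℤ) : MvPolynomial (Fin n) ℤ) * monomial (fs fun j => lam (τ⁻¹ j)) 1) =
      ∑ τ : Equiv.Perm (Fin n), (Equiv.Perm.sign τ : ℤ) * (if (fs fun j => lam (τ⁻¹ j)) = fs lam' then 1 else 0) := by
    rw [MvPolynomial.coeff_sum]
    apply Finset.sum_congr rfl
    intro τ _
    have h1 : ((Equiv.Perm.sign τ : ℤ) : MvPolynomial (Fin n) ℤ) = C (Equiv.Perm.sign τ : ℤ) :=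
      (eq_intCast (C : ℤ →+* MvPolynomial (Fin n) ℤ) _).symm
    rw [h1, coeff_C_mul, coeff_monomial]
  rw [hR] at h
  rw [← h, Finset.sum_mul, MvPolynomial.coeff_sum]
  apply Finset.sum_congr rfl
  intro κ _
  rw [Finset.mul_sum, MvPolynomial.coeff_sum, ← Equiv.sum_comp (Equiv.inv (Equiv.Perm (Fin n)))]
  apply Finset.sum_congr rfl
  intro κ' _
  rw [term]
  simp only [Equiv.inv_apply, inv_inv, Equiv.Perm.sign_inv]
  congr 1
  have hle : (fs fun j => ((κ'⁻¹ j : Fin n) : ℕ)) ≤ fs lam' ↔ ∀ i, (κ'⁻¹ i).val ≤ lam' i := by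
    rw [Finsupp.le_def]
    rfl
  have hsub : fs lam' - (fs fun j => ((κ'⁻¹ j : Fin n) : ℕ)) = fs fun i => lam' i - (κ'⁻¹ i).val := by
    ext j
    rfl
  by_cases h1 : ∀ i, (κ i).val ≤ lam i <;> by_cases h2 : ∀ i, (κ'⁻¹ i).val ≤ lam' i
  · rw [if_pos ⟨h1, h2⟩, if_pos (hle.mpr h2), if_pos h1, hsub]
  · rw [if_neg (fun h3 => h2 h3.2), if_neg (fun h3 => h2 (hle.mp h3))]
  · rw [if_neg (fun h3 => h1 h3.1), if_pos (hle.mpr h2), if_neg h1]
    simp
  · rw [if_neg (fun h3 => h1 h3.1), if_neg (fun h3 => h2 (hle.mp h3))]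

lemma rhs_of_strictMono {lam lam' : Fin n → ℕ} (h : StrictMono lam) (h' : StrictMono lam') :
    ∑ τ : Equiv.Perm (Fin n), (Equiv.Perm.sign τ : ℤ) * (if (fs fun j => lam (τ⁻¹ j)) = fs lam' then 1 else 0)
      = if lam = lam' then 1 else 0 := by
  have key : ∀ τ : Equiv.Perm (Fin n), (fs fun j => lam (τ⁻¹ j)) = fs lam' → τ = 1 ∧ lam = lam' := by
    intro τ e
    have e1 : ∀ j, lam (τ⁻¹ j) = lam' j := fun j => DFunLike.congr_fun e j
    have hmono : StrictMono (τ⁻¹ : Equiv.Perm (Fin n)) := by
      intro a b hab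
      have := h' hab
      rw [← e1, ← e1] at this
      exact h.lt_iff_lt.mp this
    have hid : ((τ⁻¹ : Equiv.Perm (Fin n)) : Fin n → Fin n) = id :=
      (hmono.range_inj strictMono_id).mp (by
        rw [Set.range_id]
        exact (τ⁻¹).surjective.range_eq)
    have h1 : τ⁻¹ = 1 := by
      ext j
      exact congrArg Fin.val (congrFun hid j)
    have h2 : τ = 1 := by
      rw [← inv_inv τ, h1, inv_one]
    refine ⟨h2, ?_⟩
    funext j
    rw [← e1, h1]
    rfl
  rw [Finset.sum_eq_single (1 : Equiv.Perm (Fin n))]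
  · by_cases he : lam = lam'
    · subst he
      simp
    · rw [if_neg he]
      simp only [Equiv.Perm.sign_one, Units.val_one, one_mul]
      rw [if_neg]
      intro e
      exact he (key 1 e).2
  · intro τ _ hτ
    rw [if_neg, mul_zero]
    intro e
    exact hτ (key τ e).1
  · intro hh
    exact absurd (Finset.mem_univ _) hh

end Coef

end Cfsg.Agent.H29.JT
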