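/-
Elementary facts on `2 × 2` matrices over a field: commutant of a non-scalar matrix,
Cayley-Hamilton, conjugacy in `SL₂` of non-scalar matrices with the same trace.
-/
import Mathlib

set_option autoImplicit false

namespace Cfsg.Agent.H29

open Matrix

section Mat2

variable {F : Type*} [Field F]

local notation "M₂" => Matrix (Fin 2) (Fin 2) F

/-- Cayley-Hamilton in dimension two. -/
theorem sq_eq_trace (A : M₂) : A * A = A.trace • A - A.det • (1 : M₂) := by
  ext i j
  fin_cases i <;> fin_cases j <;>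
    simp [Matrix.mul_apply, Fin.sum_univ_two, Matrix.trace_fin_two, Matrix.det_fin_two,
      Matrix.one_apply] <;> ring

/-- The commutant of a non-scalar matrix. -/
theorem commutant_two (A B : M₂) (hA : ∀ c : F, A ≠ c • (1 : M₂)) (h : A * B = B * A) :
    ∃ a b : F, B = a • (1 : M₂) + b • A := by
  have h00 := congrFun (congrFun h 0) 0
  have h01 := congrFun (congrFun h 0) 1
  have h10 := congrFun (congrFun h 1) 0
  have h11 := congrFun (congrFun h 1) 1
  simp only [Matrix.mul_apply, Fin.sum_univ_two] at h00 h01 h10 h11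
  by_cases hb : A 0 1 = 0
  · by_cases hc : A 1 0 = 0
    · have had : A 0 0 ≠ A 1 1 := by
        intro had
        apply hA (A 0 0)
        ext i j
        fin_cases i <;> fin_cases j <;> simp [hb, hc, had, Matrix.one_apply]
      have had' : A 0 0 - A 1 1 ≠ 0 := sub_ne_zero.2 had
      obtain ⟨b, hb'⟩ : ∃ b, b * (A 0 0 - A 1 1) = B 0 0 - B 1 1 := ⟨_, div_mul_cancel₀ _ had'⟩
      refine ⟨B 0 0 - b * A 0 0, b, ?_⟩
      simp only [hb, hc, zero_mul, mul_zero, add_zero, zero_add] at h00 h01 h10 h11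
      have h01' : (A 0 0 - A 1 1) * B 0 1 = 0 := by linear_combination h01
      have h10' : (A 0 0 - A 1 1) * B 1 0 = 0 := by linear_combination -h10
      have e01 := (mul_eq_zero.1 h01').resolve_left had'
      have e10 := (mul_eq_zero.1 h10').resolve_left had'
      ext i j
      fin_cases i <;> fin_cases j <;> simp [Matrix.one_apply, hb, hc, e01, e10]
      linear_combination hb'
    · obtain ⟨b, hb'⟩ : ∃ b, b * A 1 0 = B 1 0 := ⟨_, div_mul_cancel₀ _ hc⟩
      refine ⟨B 1 1 - b * A 1 1, b, ?_⟩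
      have h1 : B 0 0 - B 1 1 = b * (A 0 0 - A 1 1) := by
        apply mul_right_cancel₀ hc
        rw [mul_assoc, mul_comm (A 0 0 - A 1 1), ← mul_assoc, hb']
        linear_combination h10
      have h2 : B 0 1 = b * A 0 1 := by
        apply mul_right_cancel₀ hc
        rw [mul_assoc, mul_comm (A 0 1), ← mul_assoc, hb']
        linear_combination -h00
      ext i j
      fin_cases i <;> fin_cases j <;> simp [Matrix.one_apply]
      · linear_combination h1
      · exact h2
      · linear_combination -hb'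
  · obtain ⟨b, hb'⟩ : ∃ b, b * A 0 1 = B 0 1 := ⟨_, div_mul_cancel₀ _ hb⟩
    refine ⟨B 0 0 - b * A 0 0, b, ?_⟩
    have h1 : B 0 0 - B 1 1 = b * (A 0 0 - A 1 1) := by
      apply mul_right_cancel₀ hb
      rw [mul_assoc, mul_comm (A 0 0 - A 1 1), ← mul_assoc, hb']
      linear_combination -h01
    have h2 : B 1 0 = b * A 1 0 := by
      apply mul_right_cancel₀ hb
      rw [mul_assoc, mul_comm (A 1 0), ← mul_assoc, hb']
      linear_combination h00
    ext i j
    fin_cases i <;> fin_cases j <;> simp [Matrix.one_apply]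
    · linear_combination -hb'
    · exact h2
    · linear_combination -h1

/-- A non-scalar matrix has a cyclic vector. -/
theorem exists_cyclic_two (A : M₂) (hA : ∀ c : F, A ≠ c • (1 : M₂)) :
    ∃ v : Fin 2 → F, v 0 * (A.mulVec v) 1 - v 1 * (A.mulVec v) 0 ≠ 0 := by
  by_contra hcon
  push Not at hcon
  have h1 := hcon ![1, 0]
  have h2 := hcon ![0, 1]
  have h3 := hcon ![1, 1]
  simp [Matrix.mulVec, dotProduct, Fin.sum_univ_two] at h1 h2 h3
  apply hA (A 0 0)
  have h4 : A 0 0 = A 1 1 := by linear_combination -h3 + h1 - h2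
  ext i j
  fin_cases i <;> fin_cases j <;> simp [Matrix.one_apply, h1, h2, h4]

/-- The matrix with columns `v` and `A v`. -/
def cycMat (A : M₂) (v : Fin 2 → F) : M₂ :=
  !![v 0, (A.mulVec v) 0; v 1, (A.mulVec v) 1]

theorem cycMat_det (A : M₂) (v : Fin 2 → F) :
    (cycMat A v).det = v 0 * (A.mulVec v) 1 - v 1 * (A.mulVec v) 0 := by
  simp [cycMat, Matrix.det_fin_two]
  ring

/-- The companion matrix of `X² - t X + 1`. -/
def compMat (t d : F) : M₂ := !![0, -d; 1, t]

theorem mul_cycMat (A : M₂) (v : Fin 2 → F) :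
    A * cycMat A v = cycMat A v * compMat A.trace A.det := by
  have hA2 : A.mulVec (A.mulVec v) = A.trace • A.mulVec v - A.det • v := by
    rw [Matrix.mulVec_mulVec, sq_eq_trace, Matrix.sub_mulVec, Matrix.smul_mulVec,
      Matrix.smul_mulVec, Matrix.one_mulVec]
  have h0 := congrFun hA2 0
  have h1 := congrFun hA2 1
  simp only [Pi.sub_apply, Pi.smul_apply, smul_eq_mul] at h0 h1
  have e0 : ∀ w : Fin 2 → F, A.mulVec w 0 = A 0 0 * w 0 + A 0 1 * w 1 := fun w => by
    simp [Matrix.mulVec, dotProduct, Fin.sum_univ_two]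
  have e1 : ∀ w : Fin 2 → F, A.mulVec w 1 = A 1 0 * w 0 + A 1 1 * w 1 := fun w => by
    simp [Matrix.mulVec, dotProduct, Fin.sum_univ_two]
  rw [e0 (A.mulVec v)] at h0
  rw [e1 (A.mulVec v)] at h1
  have e00 := e0 v
  have e10 := e1 v
  generalize A.mulVec v = u at *
  ext i j
  fin_cases i <;> fin_cases j <;>
    simp [cycMat, compMat, Matrix.mul_apply, Fin.sum_univ_two]
  all_goals
    simp only [Matrix.trace_fin_two, Matrix.det_fin_two]
    ring

/-- Conjugacy in `GL₂`: two non-scalar matrices with same trace and determinant. -/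
theorem exists_conj_two (A B : M₂) (hA : ∀ c : F, A ≠ c • (1 : M₂)) (hB : ∀ c : F, B ≠ c • (1 : M₂))
    (ht : A.trace = B.trace) (hd : A.det = B.det) :
    ∃ P : M₂, P.det ≠ 0 ∧ A * P = P * B := by
  obtain ⟨v, hv⟩ := exists_cyclic_two A hA
  obtain ⟨w, hw⟩ := exists_cyclic_two B hB
  let PA := cycMat A v
  let PB := cycMat B w
  have hPA : PA.det ≠ 0 := by rw [cycMat_det]; exact hv
  have hPB : PB.det ≠ 0 := by rw [cycMat_det]; exact hw
  have uB : IsUnit PB.det := IsUnit.mk0 _ hPB
  refine ⟨PA * PB⁻¹, ?_, ?_⟩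
  · rw [Matrix.det_mul, Matrix.det_nonsing_inv]
    exact mul_ne_zero hPA (by simpa [Ring.inverse_eq_inv'] using hPB)
  · have h1 : A * PA = PA * compMat B.trace B.det := by
      have := mul_cycMat A v
      rw [ht, hd] at this
      exact this
    have h2 : B * PB = PB * compMat B.trace B.det := mul_cycMat B w
    have h3 : PB⁻¹ * B = compMat B.trace B.det * PB⁻¹ := by
      calc PB⁻¹ * B = PB⁻¹ * B * (PB * PB⁻¹) := by
            rw [Matrix.mul_nonsing_inv _ uB, mul_one]
        _ = PB⁻¹ * (B * PB) * PB⁻¹ := by simp only [Matrix.mul_assoc]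
        _ = PB⁻¹ * (PB * compMat B.trace B.det) * PB⁻¹ := by rw [h2]
        _ = compMat B.trace B.det * PB⁻¹ := by
            rw [← Matrix.mul_assoc PB⁻¹, Matrix.nonsing_inv_mul _ uB, one_mul]
    calc A * (PA * PB⁻¹) = (A * PA) * PB⁻¹ := by rw [Matrix.mul_assoc]
      _ = PA * (compMat B.trace B.det * PB⁻¹) := by rw [h1, Matrix.mul_assoc]
      _ = PA * PB⁻¹ * B := by rw [← h3, Matrix.mul_assoc]

theorem det_add_smul (A : M₂) (a b : F) :
    (a • (1 : M₂) + b • A).det = a ^ 2 + a * b * A.trace + b ^ 2 * A.det := by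
  simp [Matrix.det_fin_two, Matrix.trace_fin_two, Matrix.one_apply]
  ring

/-- Conjugacy in `SL₂` over a finite field: nonscalar, same trace and determinant, nonzero
discriminant (characteristic not two). -/
theorem exists_conj_two_det_one [Fintype F] (h2 : (2 : F) ≠ 0) (A B : M₂)
    (hA : ∀ c : F, A ≠ c • (1 : M₂)) (hB : ∀ c : F, B ≠ c • (1 : M₂))
    (ht : A.trace = B.trace) (hd : A.det = B.det) (hdisc : A.trace ^ 2 - 4 * A.det ≠ 0) :
    ∃ P : M₂, P.det = 1 ∧ A * P = P * B := by
  obtain ⟨P, hP, hAP⟩ := exists_conj_two A B hA hB ht hd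
  -- solve the norm equation
  let w : F := P.det⁻¹
  have hchar : ringChar F ≠ 2 := by
    intro h
    have : CharP F 2 := by rw [← h]; exact ringChar.charP F
    exact h2 (CharTwo.two_eq_zero)
  let t := A.trace
  let d := A.det
  let δ : F := d - t ^ 2 / 4
  have h4 : (4 : F) ≠ 0 := by
    have : (4 : F) = 2 * 2 := by norm_num
    rw [this]
    exact mul_ne_zero h2 h2
  have hδ : δ ≠ 0 := by
    intro h
    apply hdisc
    have : d = t ^ 2 / 4 := sub_eq_zero.1 h
    show t ^ 2 - 4 * d = 0
    rw [this]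
    field_simp
    ring
  obtain ⟨u, v, huv⟩ := FiniteField.exists_root_sum_quadratic
    (f := Polynomial.X ^ 2 - Polynomial.C w) (g := Polynomial.C δ * Polynomial.X ^ 2)
    (by compute_degree!) (by compute_degree!) (FiniteField.odd_card_of_char_ne_two hchar)
  simp only [Polynomial.eval_sub, Polynomial.eval_pow, Polynomial.eval_X, Polynomial.eval_C,
    Polynomial.eval_mul] at huv
  let a : F := u - t * v / 2
  have hdet : (a • (1 : M₂) + v • A).det = w := by
    rw [det_add_smul]
    show a ^ 2 + a * v * t + v ^ 2 * d = w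
    simp only [a]
    have h3 : δ = d - t ^ 2 / 4 := rfl
    rw [h3] at huv
    field_simp at huv ⊢
    linear_combination huv
  refine ⟨(a • (1 : M₂) + v • A) * P, ?_, ?_⟩
  · rw [Matrix.det_mul, hdet]
    exact inv_mul_cancel₀ hP
  · rw [← Matrix.mul_assoc]
    have hc : A * (a • (1 : M₂) + v • A) = (a • (1 : M₂) + v • A) * A := by
      simp [Matrix.mul_add, Matrix.add_mul, Matrix.mul_smul, Matrix.smul_mul]
    rw [hc, Matrix.mul_assoc, hAP, Matrix.mul_assoc]

end Mat2

end Cfsg.Agent.H29
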