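/-
Block forms of matrices with scalar square: the square case and the non-square case.
-/
import Cfsg.Agent.Lib.H29.Planes
import Cfsg.Agent.S5967

set_option autoImplicit false

open scoped MatrixGroups

namespace Cfsg.Agent.H29

open Module

section

variable {F : Type*} [Field F] [Fintype F] {q n : ℕ}

/-- Square case: the blocks are scalar. -/
theorem blocks_of_square (hq : Fintype.card F = q) (he : Even n) (h20 : (2 : F) ≠ 0)
    (hv : padicValNat 2 (q - 1) ≤ padicValNat 2 n) (hn0' : n ≠ 0)
    (X : Matrix (Fin n) (Fin n) F) (hXdet : X.det = 1) (b : F) (hb0 : b ≠ 0)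
    (hXX : ∀ v, X.mulVec (X.mulVec v) = (b * b) • v) (S : Type) [Fintype S] [DecidableEq S]
    (hcardS : n = 2 * Fintype.card S) :
    ∃ (B : Basis (Fin 2 × S) F (Fin n → F)) (A : S → Matrix (Fin 2) (Fin 2) F),
      (∀ i k, X.mulVec (B (i, k)) = ∑ i', A k i' i • B (i', k)) ∧
      ∀ k, ∃ a, (a = b ∨ a = -b) ∧ A k = !![a, 0; 0, a] := by
  classical
  have h1ne : (1 : F) ≠ -1 := by
    intro h
    apply h20
    have : (2 : F) = 1 + 1 := by norm_num
    rw [this]
    nth_rewrite 2 [h]
    simp
  set Y : (Fin n → F) →ₗ[F] (Fin n → F) := Matrix.toLin' (b⁻¹ • X) with hY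
  have hYY : ∀ v, Y (Y v) = v := by
    intro v
    rw [hY, Matrix.toLin'_apply, Matrix.toLin'_apply, Matrix.smul_mulVec, Matrix.smul_mulVec,
      Matrix.mulVec_smul, hXX, smul_smul, smul_smul]
    have : b⁻¹ * b⁻¹ * (b * b) = 1 := by field_simp
    rw [this, one_smul]
  obtain ⟨B₀, ε, hBε⟩ := exists_eig_basis Y 1 (-1) h1ne (by
    intro v
    rw [hYY]
    simp)
  let c : Fin n → F := fun i => if ε i then b else -b
  have hXB : ∀ i, X.mulVec (B₀ i) = c i • B₀ i := by
    intro i
    have h1 := hBε i
    rw [hY, Matrix.toLin'_apply, Matrix.smul_mulVec] at h1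
    have h2 : X.mulVec (B₀ i) = b • (b⁻¹ • X.mulVec (B₀ i)) := by
      rw [smul_smul, mul_inv_cancel₀ hb0, one_smul]
    rw [h2, h1, smul_smul]
    simp only [c]
    split_ifs <;> simp
  obtain ⟨Q, hQ⟩ := exists_gl_of_basis B₀
  have hdiag : X * (Q : Matrix (Fin n) (Fin n) F) =
      (Q : Matrix (Fin n) (Fin n) F) * Matrix.diagonal c := by
    apply matrix_ext_single
    intro i
    rw [← Matrix.mulVec_mulVec, hQ, hXB, ← Matrix.mulVec_mulVec]
    have h1 : (Matrix.diagonal c).mulVec (Pi.single i 1) = c i • (Pi.single i 1 : Fin n → F) := by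
      ext j
      by_cases hij : j = i
      · subst hij
        simp
      · simp [hij]
    rw [h1, Matrix.mulVec_smul, hQ]
  have hprod : ∏ i, c i = 1 := by
    have h1 := congrArg Matrix.det hdiag
    rw [Matrix.det_mul, Matrix.det_mul, hXdet, one_mul, Matrix.det_diagonal] at h1
    have h2 : (Q : Matrix (Fin n) (Fin n) F).det ≠ 0 := (Matrix.isUnits_det_units Q).ne_zero
    exact (mul_left_cancel₀ h2 (by rw [mul_one]; exact h1)).symm
  set T := (Finset.univ.filter fun i => ε i = true) with hT
  set T' := (Finset.univ.filter fun i => ε i = false) with hT'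
  have hcardT : T.card + T'.card = n := by
    have h1 := Finset.card_filter_add_card_filter_not (s := (Finset.univ : Finset (Fin n))) (fun i => ε i = true)
    simp only [Finset.card_univ, Fintype.card_fin, Bool.not_eq_true] at h1
    exact h1
  have hprod2 : ∏ i, c i = b ^ n * (-1) ^ T'.card := by
    have h1 : ∀ i, c i = b * (if ε i = false then -1 else 1) := by
      intro i
      simp only [c]
      cases ε i <;> simp
    simp only [h1]
    rw [Finset.prod_mul_distrib, Finset.prod_const, Finset.card_univ, Fintype.card_fin,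
      Finset.prod_ite, Finset.prod_const, Finset.prod_const_one, mul_one]
  have hT'even : Even T'.card := by
    by_contra hodd'
    have h1 : Odd T'.card := Nat.not_even_iff_odd.1 hodd'
    rw [hprod2, h1.neg_one_pow] at hprod
    exact Cfsg.Agent.S5967.no_neg_pow hq n hn0' h20 b hb0 (by linear_combination -hprod) hv
  have hTeven : Even T.card := by
    have h1 : Even (T.card + T'.card) := by rw [hcardT]; exact he
    exact (Nat.even_add.1 h1).2 hT'even
  have hfilter1 : (Finset.univ.filter fun s => (id s : Fin n) = s ∧ ε s = true) = T := by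
    ext s
    simp [hT]
  have hfilter2 : (Finset.univ.filter fun s => (id s : Fin n) = s ∧ ε s = false) = T' := by
    ext s
    simp [hT']
  obtain ⟨B, A, e, hBx, hA⟩ := exists_blocks_of_monomial B₀ id (fun _ => rfl) c ε
    (by rw [hfilter1]; exact hTeven) (by rw [hfilter2]; exact hT'even) X (fun s => hXB s) S
    (by rw [Fintype.card_fin]; exact hcardS)
  refine ⟨B, A, hBx, ?_⟩
  intro k
  rcases hA k with ⟨h1, -, -⟩ | ⟨-, -, h3, h4⟩
  · exfalso
    have h2 : e (0, k) = e (1, k) := h1
    have h3 := e.injective h2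
    simp at h3
  · refine ⟨c (e (0, k)), ?_, ?_⟩
    · simp only [c]
      split_ifs
      · exact Or.inl rfl
      · exact Or.inr rfl
    · have h5 : c (e (0, k)) = c (e (1, k)) := by
        simp only [c, h3]
      rw [h4, ← h5]

/-- Non-square case: a basis of cyclic pairs. -/
theorem exists_cyclic_pairs (X : Matrix (Fin n) (Fin n) F) (z : F) (hz0 : z ≠ 0)
    (hXX : ∀ v, X.mulVec (X.mulVec v) = z • v) (hs : ∀ c : F, c * c ≠ z)
    (S : Type) [Fintype S] [DecidableEq S] (hcardS : n = 2 * Fintype.card S) :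
    ∃ B : Basis (Fin 2 × S) F (Fin n → F), ∀ k, B (1, k) = X.mulVec (B (0, k)) := by
  classical
  obtain ⟨S₀, _, _, b, π, c, hπ, hc0, hbX, hcc⟩ := exists_monomial_basis X z hz0 hXX
  have hfree : ∀ s, π s ≠ s := by
    intro s hs'
    have h1 := hcc s
    rw [hs'] at h1
    exact hs _ h1
  have hf1 : (Finset.univ.filter fun s => π s = s ∧ (fun _ : S₀ => true) s = true) = ∅ := by
    ext s
    simp [hfree s]
  have hf2 : (Finset.univ.filter fun s => π s = s ∧ (fun _ : S₀ => true) s = false) = ∅ := by
    ext s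
    simp
  have hcS₀ : Fintype.card S₀ = 2 * Fintype.card S := by
    have h1 := Module.finrank_eq_card_basis b
    rw [Module.finrank_fin_fun] at h1
    omega
  obtain ⟨B, A, e, hBx, hA⟩ := exists_blocks_of_monomial b π hπ c (fun _ => true)
    (by rw [hf1]; simp) (by rw [hf2]; simp) X hbX S hcS₀
  -- rescale the second vectors
  have hw : ∀ p : Fin 2 × S, IsUnit (if p.1 = 1 then c (e (0, p.2)) else 1 : F) := by
    rintro ⟨i, k⟩
    simp only
    split_ifs
    · exact IsUnit.mk0 _ (hc0 _)
    · exact isUnit_one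
  refine ⟨B.isUnitSMul hw, ?_⟩
  intro k
  rw [Basis.isUnitSMul_apply, Basis.isUnitSMul_apply]
  simp only [if_true, zero_ne_one, if_false, one_smul]
  rw [hBx, Fin.sum_univ_two]
  rcases hA k with ⟨h1, -, h3⟩ | ⟨h1, -, -, -⟩
  · rw [h3]
    simp
  · exact absurd h1 (hfree _)

end

end Cfsg.Agent.H29
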