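/-
Alternating forms: any nondegenerate alternating space is isometric to the standard one;
a group preserving a possibly degenerate alternating form maps to the standard symplectic group.
-/
import Cfsg.Agent.Lib.H29.SympRank

set_option autoImplicit false

namespace Cfsg.Agent.H29

open Module Matrix Cfsg.Agent.Lead

section Iso

variable {F : Type*} [Field F] {n : ℕ}

/-- Any symplectic form on `F^n` is isometric to the standard form. -/
theorem exists_std_iso (d : ℕ) (hnd : n = 2 * d) (f : (Fin n → F) → (Fin n → F) → F)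
    (hf : Cfsg.Geo.IsSymplecticForm f) :
    ∃ Λ : (Fin d ⊕ Fin d → F) ≃ₗ[F] (Fin n → F), ∀ u v, f (Λ u) (Λ v) = Cfsg.Agent.Lead.sympForm u v := by
  classical
  obtain ⟨S, _, _, H₀, hself, horth⟩ := exists_hyp_basis f hf
  have hcard : Fintype.card S = d := by
    have h1 := Module.finrank_eq_card_basis H₀
    rw [Module.finrank_fin_fun, Fintype.card_prod, Fintype.card_fin] at h1
    omega
  let e₀ : Fin d ≃ S := (Fintype.equivFinOfCardEq hcard).symm
  have hFalt : ∀ v, f v v = 0 := hf.alternating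
  have hskew := hf.skew
  have hsmulL : ∀ (c : F) (u v : Fin n → F), f (c • u) v = c * f u v := fun c u v => by
    rw [hf.bilinear.smul_left]
  let a : Fin d → F := fun k => f (H₀ (0, e₀ k)) (H₀ (1, e₀ k))
  have ha : ∀ k, a k ≠ 0 := fun k => hself _
  let w : Fin d ⊕ Fin d → (Fin n → F) :=
    Sum.elim (fun k => H₀ (1, e₀ k)) (fun k => (a k)⁻¹ • H₀ (0, e₀ k))
  have horth' : ∀ k l i j, k ≠ l → f (H₀ (i, e₀ k)) (H₀ (j, e₀ l)) = 0 := fun k l i j h =>
    horth _ _ _ _ (fun h' => h (e₀.injective h'))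
  let ω := formLin f hf
  have hω : ∀ u v, ω u v = f u v := fun _ _ => rfl
  let Bs : (Fin d ⊕ Fin d → F) →ₗ[F] (Fin d ⊕ Fin d → F) →ₗ[F] F :=
    LinearMap.mk₂ F Cfsg.Agent.Lead.sympForm Cfsg.Agent.Lead.sympForm_add_left
      (fun c x y => by rw [Cfsg.Agent.Lead.sympForm_smul_left, smul_eq_mul])
      Cfsg.Agent.Lead.sympForm_add_right
      (fun c x y => by rw [Cfsg.Agent.Lead.sympForm_smul_right, smul_eq_mul])
  have hBs : ∀ u v, Bs u v = Cfsg.Agent.Lead.sympForm u v := fun _ _ => rfl
  let bas := Pi.basisFun F (Fin d ⊕ Fin d)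
  let Λ₀ : (Fin d ⊕ Fin d → F) →ₗ[F] (Fin n → F) := bas.constr F w
  have hΛ₀ : ∀ x, Λ₀ (bas x) = w x := fun x => bas.constr_basis F w x
  have hw : ∀ x y, f (w x) (w y) = Bs (bas x) (bas y) := by
    intro x y
    rw [hBs, Cfsg.Agent.Lead.sympForm_apply]
    simp only [bas, Pi.basisFun_apply]
    rcases x with k | k <;> rcases y with l | l
    · simp only [w, Sum.elim_inl]
      by_cases hkl : k = l
      · subst hkl
        simp [hFalt]
      · rw [horth' k l 1 1 hkl]
        simp [Pi.single_apply]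
    · simp only [w, Sum.elim_inl, Sum.elim_inr]
      by_cases hkl : k = l
      · subst hkl
        rw [hf.bilinear.smul_right, hskew]
        simp only [Pi.single_apply, Sum.inr.injEq, Sum.inl.injEq, reduceCtorEq, if_false, mul_zero, zero_mul,
          sub_self, zero_sub]
        simp only [Finset.sum_neg_distrib]
        have hha := ha k
        have : f (H₀ (0, e₀ k)) (H₀ (1, e₀ k)) = a k := rfl
        rw [this]
        simp [hha]
      · rw [hf.bilinear.smul_right, horth' k l 1 0 hkl]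
        simp [Pi.single_apply, hkl, Ne.symm hkl]
    · simp only [w, Sum.elim_inl, Sum.elim_inr]
      by_cases hkl : k = l
      · subst hkl
        rw [hf.bilinear.smul_left]
        simp only [Pi.single_apply, Sum.inr.injEq, Sum.inl.injEq, reduceCtorEq, if_false, mul_zero, zero_mul,
          sub_self, sub_zero]
        have hha := ha k
        have : f (H₀ (0, e₀ k)) (H₀ (1, e₀ k)) = a k := rfl
        rw [this]
        simp [hha]
      · rw [hf.bilinear.smul_left, horth' k l 0 1 hkl]
        simp [Pi.single_apply, hkl, Ne.symm hkl]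
    · simp only [w, Sum.elim_inr]
      rw [hf.bilinear.smul_left, hf.bilinear.smul_right]
      by_cases hkl : k = l
      · subst hkl
        simp [hFalt]
      · rw [horth' k l 0 0 hkl]
        simp [Pi.single_apply]
  have hform : ∀ u v, f (Λ₀ u) (Λ₀ v) = Cfsg.Agent.Lead.sympForm u v := by
    have h1 : ω.compl₁₂ Λ₀ Λ₀ = Bs := by
      apply bas.ext
      intro x
      apply bas.ext
      intro y
      rw [LinearMap.compl₁₂_apply, hΛ₀, hΛ₀, hω]
      exact hw x y
    intro u v
    rw [← hBs, ← h1, LinearMap.compl₁₂_apply, hω]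
  have hinj : Function.Injective Λ₀ := by
    rw [← LinearMap.ker_eq_bot, LinearMap.ker_eq_bot']
    intro u hu
    by_contra hu0
    obtain ⟨z, hz⟩ := Cfsg.Agent.Lead.sympForm_nondeg hu0
    apply hz
    rw [← hform, hu]
    have := hf.bilinear.smul_left 0 (0 : Fin n → F) (Λ₀ z)
    simpa using this
  have hdim : finrank F (Fin d ⊕ Fin d → F) = finrank F (Fin n → F) := by
    simp [hnd]
    omega
  let Λ : (Fin d ⊕ Fin d → F) ≃ₗ[F] (Fin n → F) := LinearMap.linearEquivOfInjective Λ₀ hinj hdim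
  have hΛ : ∀ u, Λ u = Λ₀ u := fun u => LinearMap.linearEquivOfInjective_apply hinj hdim u
  refine ⟨Λ, fun u v => ?_⟩
  rw [hΛ, hΛ, hform]

end Iso

section Mem

variable {F : Type*} [Field F] {l : Type*} [Fintype l] [DecidableEq l]

/-- A matrix preserving the standard form is symplectic. -/
theorem mem_symplecticGroup_of_form (A : Matrix (l ⊕ l) (l ⊕ l) F)
    (h : ∀ u v, Cfsg.Agent.Lead.sympForm (A *ᵥ u) (A *ᵥ v) = Cfsg.Agent.Lead.sympForm u v) : A ∈ symplecticGroup l F := by
  rw [SymplecticGroup.mem_iff']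
  apply Matrix.ext
  intro i j
  have h1 := h (Pi.single i 1) (Pi.single j 1)
  have e1 : ∀ (x y : l ⊕ l → F), Cfsg.Agent.Lead.sympForm x y = x ⬝ᵥ (J l F *ᵥ y) := fun _ _ => rfl
  rw [e1, e1] at h1
  have e2 : ∀ (M : Matrix (l ⊕ l) (l ⊕ l) F) (i j), (Pi.single i 1 : l ⊕ l → F) ⬝ᵥ (M *ᵥ Pi.single j 1) = M i j := by
    intro M i j
    simp
  have e3 : (Aᵀ * J l F * A) i j = (Pi.single i 1 : l ⊕ l → F) ⬝ᵥ ((Aᵀ * J l F * A) *ᵥ Pi.single j 1) := (e2 _ i j).symm
  have e4 : J l F i j = (Pi.single i 1 : l ⊕ l → F) ⬝ᵥ (J l F *ᵥ Pi.single j 1) := (e2 _ i j).symm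
  rw [e3, e4, ← h1, ← Matrix.mulVec_mulVec, ← Matrix.mulVec_mulVec, Matrix.dotProduct_mulVec (Pi.single i 1) Aᵀ, Matrix.vecMul_transpose]

end Mem

section Hom

variable {F U G : Type*} [Field F] [AddCommGroup U] [Module F U] [FiniteDimensional F U] [Group G]

/-- A group preserving an alternating form maps to the standard symplectic group; the elements
going to the identity act trivially modulo the radical. -/
theorem exists_sp_hom (ω : U →ₗ[F] U →ₗ[F] F) (halt : ∀ v, ω v v = 0) (R : Submodule F U)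
    (hR : ∀ x, x ∈ R ↔ ∀ y, ω x y = 0) (d : ℕ) (hd : finrank F U = finrank F R + 2 * d)
    (ρ : G →* Module.End F U) (hρ : ∀ g x y, ω (ρ g x) (ρ g y) = ω x y) :
    ∃ f : G →* symplecticGroup (Fin d) F, ∀ g, f g = 1 → ∀ x, ρ g x - x ∈ R := by
  classical
  have hskew : ∀ x y, ω x y = - ω y x := by
    intro x y
    have h1 := halt (x + y)
    simp only [map_add, LinearMap.add_apply, halt, zero_add, add_zero] at h1
    exact eq_neg_of_add_eq_zero_right h1
  have hR' : ∀ x, x ∈ R → ∀ y, ω y x = 0 := by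
    intro x hx y
    rw [hskew, (hR x).1 hx y, neg_zero]
  have hρ1 : ∀ g x, ρ g⁻¹ (ρ g x) = x := by
    intro g x
    have : (ρ g⁻¹ * ρ g) x = x := by rw [← map_mul, inv_mul_cancel, map_one]; rfl
    exact this
  have hρ2 : ∀ g x, ρ g (ρ g⁻¹ x) = x := by
    intro g x
    have := hρ1 g⁻¹ x
    rwa [inv_inv] at this
  have hρR : ∀ g x, x ∈ R → ρ g x ∈ R := by
    intro g x hx
    rw [hR]
    intro y
    have h1 := hρ g x (ρ g⁻¹ y)
    rw [hρ2] at h1
    rw [h1]
    exact (hR x).1 hx _
  obtain ⟨C, hC⟩ := Submodule.exists_isCompl R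
  have hCdim : finrank F C = 2 * d := by
    have := Submodule.finrank_add_eq_of_isCompl hC
    omega
  let ι : (Fin (2 * d) → F) ≃ₗ[F] C := LinearEquiv.ofFinrankEq _ _ (by rw [hCdim]; simp)
  let f : (Fin (2 * d) → F) → (Fin (2 * d) → F) → F := fun a b => ω (ι a : U) (ι b : U)
  have hf : Cfsg.Geo.IsSymplecticForm f := by
    refine ⟨⟨?_, ?_, ?_, ?_⟩, ?_, ?_, ?_⟩
    · intro x y v
      simp [f]
    · intro c x v
      simp [f]
    · intro v x y
      simp [f]
    · intro c v x
      simp [f]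
    · intro v w
      exact hskew _ _
    · intro v
      exact halt _
    · intro v hv
      have hv' : (ι v : U) ≠ 0 := by
        intro h0
        apply hv
        apply ι.injective
        apply Subtype.ext
        rw [h0]
        simp
      have hnotR : (ι v : U) ∉ R := by
        intro hmem
        apply hv'
        have : (ι v : U) ∈ R ⊓ C := ⟨hmem, (ι v).2⟩
        rw [hC.inf_eq_bot] at this
        exact this
      have hex : ∃ y, ω (ι v : U) y ≠ 0 := by
        by_contra hcon
        push Not at hcon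
        exact hnotR ((hR _).2 hcon)
      obtain ⟨y, hy⟩ := hex
      obtain ⟨r, hr, c, hc, rfl⟩ : ∃ r ∈ R, ∃ c ∈ C, r + c = y := by
        have : y ∈ R ⊔ C := by rw [hC.sup_eq_top]; trivial
        exact Submodule.mem_sup.1 this
      rw [map_add, hR' r hr, zero_add] at hy
      refine ⟨⟨ι.symm ⟨c, hc⟩, ?_⟩, ⟨ι.symm ⟨c, hc⟩, ?_⟩⟩
      · simp only [f, LinearEquiv.apply_symm_apply]
        rw [hskew]
        exact neg_ne_zero.2 hy
      · simp only [f, LinearEquiv.apply_symm_apply]
        exact hy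
  obtain ⟨Λ, hΛ⟩ := exists_std_iso d rfl f hf
  let S : (Fin d ⊕ Fin d → F) →ₗ[F] U := C.subtype ∘ₗ ι.toLinearMap ∘ₗ Λ.toLinearMap
  let π : U →ₗ[F] (Fin d ⊕ Fin d → F) := Λ.symm.toLinearMap ∘ₗ ι.symm.toLinearMap ∘ₗ C.projectionOnto R hC.symm
  have hS : ∀ u v, ω (S u) (S v) = Cfsg.Agent.Lead.sympForm u v := fun u v => hΛ u v
  have hπS : ∀ u, π (S u) = u := by
    intro u
    simp only [π, S, LinearMap.comp_apply, Submodule.subtype_apply, LinearEquiv.coe_coe]
    rw [Submodule.projectionOnto_apply_left hC.symm]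
    simp
  have hSπ : ∀ x, x - S (π x) ∈ R := by
    intro x
    obtain ⟨r, hr, c, hc, rfl⟩ : ∃ r ∈ R, ∃ c ∈ C, r + c = x := by
      have : x ∈ R ⊔ C := by rw [hC.sup_eq_top]; trivial
      exact Submodule.mem_sup.1 this
    have h1 : π r = 0 := by
      simp only [π, LinearMap.comp_apply, LinearEquiv.coe_coe]
      rw [Submodule.projectionOnto_apply_of_mem_right hC.symm hr]
      simp
    have h2 : S (π c) = c := by
      simp only [π, S, LinearMap.comp_apply, Submodule.subtype_apply, LinearEquiv.coe_coe]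
      rw [Submodule.projectionOnto_apply_of_mem_left hC.symm hc]
      simp
    rw [map_add, h1, zero_add, h2, add_sub_cancel_right]
    exact hr
  have hπR : ∀ x, x ∈ R → π x = 0 := by
    intro r hr
    simp only [π, LinearMap.comp_apply, LinearEquiv.coe_coe]
    rw [Submodule.projectionOnto_apply_of_mem_right hC.symm hr]
    simp
  have hπform : ∀ a b, Cfsg.Agent.Lead.sympForm (π a) (π b) = ω a b := by
    intro a b
    have h1 := hSπ a
    have h2 := hSπ b
    rw [← hS]
    have e1 : a = S (π a) + (a - S (π a)) := by abel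
    have e2 : b = S (π b) + (b - S (π b)) := by abel
    conv_rhs => rw [e1, e2]
    rw [map_add (ω (S (π a) + (a - S (π a)))), map_add ω, LinearMap.add_apply, LinearMap.add_apply, hR' _ h2, hR' _ h2, (hR _).1 h1, add_zero, add_zero, add_zero]
  let mat : G → Matrix (Fin d ⊕ Fin d) (Fin d ⊕ Fin d) F := fun g =>
    LinearMap.toMatrix' (π ∘ₗ ρ g ∘ₗ S)
  have hmat : ∀ g u, (mat g) *ᵥ u = π (ρ g (S u)) := by
    intro g u
    rw [← Matrix.toLin'_apply, Matrix.toLin'_toMatrix']
    rfl
  have hmem : ∀ g, mat g ∈ symplecticGroup (Fin d) F := by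
    intro g
    apply mem_symplecticGroup_of_form
    intro u v
    rw [hmat, hmat, hπform, hρ, hS]
  let f₀ : G →* symplecticGroup (Fin d) F := MonoidHom.mk' (fun g => ⟨mat g, hmem g⟩) (by
    intro a b
    apply Subtype.ext
    apply mat_ext_mulVec
    intro u
    change (mat (a * b)) *ᵥ u = (mat a * mat b) *ᵥ u
    rw [← Matrix.mulVec_mulVec, hmat, hmat, hmat]
    have h1 := hSπ (ρ b (S u))
    have h2 := hπR _ (hρR a _ h1)
    rw [map_sub, map_sub, sub_eq_zero] at h2
    rw [← h2, map_mul]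
    rfl)
  refine ⟨f₀, ?_⟩
  intro g hg x
  have h1 : mat g = 1 := congrArg Subtype.val hg
  have h2 : ∀ u, π (ρ g (S u)) = u := by
    intro u
    rw [← hmat, h1, Matrix.one_mulVec]
  have h3 := hSπ x
  have h4 : ρ g (S (π x)) - S (π x) ∈ R := by
    have h5 := hSπ (ρ g (S (π x)))
    rw [h2] at h5
    exact h5
  have e : ρ g x - x = (ρ g (S (π x)) - S (π x)) + (ρ g (x - S (π x)) - (x - S (π x))) := by
    rw [map_sub]
    abel
  rw [e]
  exact R.add_mem h4 (R.sub_mem (hρR g _ h3) h3)

end Hom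

end Cfsg.Agent.H29
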