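import Cfsg.Agent.Lib.H29.UnipGL
import Cfsg.Agent.Lib.H22.DefectZero
import Cfsg.Agent.Lib.H10.CardSL

/-! The Steinberg character of the projective special linear groups. -/

set_option autoImplicit false
set_option linter.unusedSectionVars false
set_option linter.unusedVariables false
set_option linter.style.haveILetI false

namespace Cfsg.Agent.H29.StPSL

open Cfsg Finset MulAction
open Cfsg.Agent.S2423
open scoped MatrixGroups

section general
variable {A B : Type*} [Group A] [Group B]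

/-- induced map on coset spaces -/
def cmap (f : A →* B) (H : Subgroup B) : A ⧸ H.comap f → B ⧸ H :=
  Quotient.map' f (by
    intro a b h
    have h1 : a⁻¹ * b ∈ H.comap f := QuotientGroup.leftRel_apply.mp h
    apply QuotientGroup.leftRel_apply.mpr
    have h2 : f (a⁻¹ * b) ∈ H := h1
    rwa [map_mul, map_inv] at h2)

lemma cmap_mk (f : A →* B) (H : Subgroup B) (a : A) :
    cmap f H ((a : A) : A ⧸ H.comap f) = ((f a : B) : B ⧸ H) := rfl

lemma cmap_inj (f : A →* B) (H : Subgroup B) : Function.Injective (cmap f H) := by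
  intro x y
  induction x using QuotientGroup.induction_on with
  | H a =>
  induction y using QuotientGroup.induction_on with
  | H b =>
  intro e
  rw [cmap_mk, cmap_mk] at e
  have h1 := QuotientGroup.eq.mp e
  apply QuotientGroup.eq.mpr
  show f (a⁻¹ * b) ∈ H
  rwa [map_mul, map_inv]

lemma cmap_surj (f : A →* B) (H : Subgroup B) (h : ∀ b : B, ∃ a : A, ((f a : B) : B ⧸ H) = ((b : B) : B ⧸ H)) :
    Function.Surjective (cmap f H) := by
  intro y
  induction y using QuotientGroup.induction_on with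
  | H b =>
  obtain ⟨a, ha⟩ := h b
  exact ⟨((a : A) : A ⧸ H.comap f), ha⟩

lemma cmap_smul (f : A →* B) (H : Subgroup B) (a : A) (x : A ⧸ H.comap f) :
    cmap f H (a • x) = f a • cmap f H x := by
  induction x using QuotientGroup.induction_on with
  | H c =>
  rw [MulAction.Quotient.smul_coe, cmap_mk, cmap_mk, MulAction.Quotient.smul_coe]
  simp

theorem fpc_comap (f : A →* B) (H : Subgroup B)
    (h : ∀ b : B, ∃ a : A, ((f a : B) : B ⧸ H) = ((b : B) : B ⧸ H)) (a : A) :
    fixedPointCharacter (H.comap f) a = fixedPointCharacter H (f a) := by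
  unfold fixedPointCharacter
  congr 1
  apply Nat.card_congr
  refine Equiv.subtypeEquiv (Equiv.ofBijective (cmap f H) ⟨cmap_inj f H, cmap_surj f H h⟩) ?_
  intro x
  show a • x = x ↔ f a • cmap f H x = cmap f H x
  rw [← cmap_smul]
  exact (cmap_inj f H).eq_iff.symm

/-- Burnside for a product of coset spaces, orbit form -/
theorem inner_orbits [Fintype A] (P Q : Subgroup A) :
    classInner (fixedPointCharacter P) (fixedPointCharacter Q) =
      (Nat.card (orbitRel.Quotient A ((A ⧸ P) × (A ⧸ Q))) : ℂ) := by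
  classical
  have h1 := MulAction.sum_card_fixedBy_eq_card_orbits_mul_card_group A ((A ⧸ P) × (A ⧸ Q))
  simp only [← Nat.card_eq_fintype_card] at h1
  have h2 : ∀ g : A, Nat.card (fixedBy ((A ⧸ P) × (A ⧸ Q)) g) = Nat.card (fixedBy (A ⧸ P) g) * Nat.card (fixedBy (A ⧸ Q) g) := by
    intro g
    rw [← Nat.card_prod]
    apply Nat.card_congr
    exact {
      toFun := fun s => ⟨⟨s.1.1, congrArg Prod.fst s.2⟩, ⟨s.1.2, congrArg Prod.snd s.2⟩⟩
      invFun := fun s => ⟨(s.1.1, s.2.1), Prod.ext s.1.2 s.2.2⟩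
      left_inv := fun s => rfl
      right_inv := fun s => rfl }
  unfold classInner fixedPointCharacter
  have h3 : ∑ g : A, ((Nat.card (fixedBy (A ⧸ P) g) : ℕ) : ℂ) * (starRingEnd ℂ) ((Nat.card (fixedBy (A ⧸ Q) g) : ℕ) : ℂ) =
      ((Nat.card (orbitRel.Quotient A ((A ⧸ P) × (A ⧸ Q))) * Nat.card A : ℕ) : ℂ) := by
    have h4 := h1
    push_cast at h4 ⊢
    rw [show ((Nat.card (orbitRel.Quotient A ((A ⧸ P) × (A ⧸ Q))) : ℕ) : ℂ) * (Nat.card A : ℂ) =
      (((Nat.card (Quotient (orbitRel A ((A ⧸ P) × (A ⧸ Q)))) * Nat.card A : ℕ)) : ℂ) from by push_cast; rfl, ← h1]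
    push_cast
    refine Finset.sum_congr rfl fun g _ => ?_
    rw [h2, Complex.conj_natCast]
    push_cast
    rfl
  rw [h3]
  have hne : (Nat.card A : ℂ) ≠ 0 := by
    exact_mod_cast Nat.card_pos.ne'
  push_cast
  field_simp

/-- inner products pull back when orbits on pairs agree -/
theorem inner_pull [Fintype A] [Fintype B] (f : A →* B) (P Q : Subgroup B)
    (hPQ : ∀ (x : B ⧸ P) (y : B ⧸ Q) (b : B), ∃ a : A, f a • x = b • x ∧ f a • y = b • y) :
    classInner (fixedPointCharacter (P.comap f)) (fixedPointCharacter (Q.comap f)) =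
      classInner (fixedPointCharacter P) (fixedPointCharacter Q) := by
  classical
  rw [inner_orbits, inner_orbits]
  have hP : ∀ b : B, ∃ a : A, ((f a : B) : B ⧸ P) = ((b : B) : B ⧸ P) := by
    intro b
    obtain ⟨a, ha, -⟩ := hPQ ((1 : B) : B ⧸ P) ((1 : B) : B ⧸ Q) b
    refine ⟨a, ?_⟩
    rw [MulAction.Quotient.smul_coe, MulAction.Quotient.smul_coe] at ha
    simpa using ha
  have hQ : ∀ b : B, ∃ a : A, ((f a : B) : B ⧸ Q) = ((b : B) : B ⧸ Q) := by
    intro b
    obtain ⟨a, -, ha⟩ := hPQ ((1 : B) : B ⧸ P) ((1 : B) : B ⧸ Q) b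
    refine ⟨a, ?_⟩
    rw [MulAction.Quotient.smul_coe, MulAction.Quotient.smul_coe] at ha
    simpa using ha
  let φ : (A ⧸ P.comap f) × (A ⧸ Q.comap f) → (B ⧸ P) × (B ⧸ Q) := fun s => (cmap f P s.1, cmap f Q s.2)
  have hφ : ∀ (a : A) s, φ (a • s) = f a • φ s := by
    intro a s
    apply Prod.ext
    · exact cmap_smul f P a s.1
    · exact cmap_smul f Q a s.2
  have hφi : Function.Injective φ := by
    intro s t e
    apply Prod.ext
    · exact cmap_inj f P (congrArg Prod.fst e)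
    · exact cmap_inj f Q (congrArg Prod.snd e)
  have hφs : Function.Surjective φ := by
    intro s
    obtain ⟨u, hu⟩ := cmap_surj f P hP s.1
    obtain ⟨v, hv⟩ := cmap_surj f Q hQ s.2
    exact ⟨(u, v), Prod.ext hu hv⟩
  let Φ : orbitRel.Quotient A ((A ⧸ P.comap f) × (A ⧸ Q.comap f)) → orbitRel.Quotient B ((B ⧸ P) × (B ⧸ Q)) :=
    Quotient.map' φ (by
      intro s t h
      have h1 := (orbitRel_apply).mp h
      obtain ⟨a, ha⟩ := h1
      apply (orbitRel_apply).mpr
      exact ⟨f a, by show f a • φ t = φ s; rw [← hφ]; exact congrArg φ ha⟩)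
  have hΦ : Function.Bijective Φ := by
    constructor
    · intro s t
      induction s using Quotient.inductionOn' with
      | h s =>
      induction t using Quotient.inductionOn' with
      | h t =>
      intro e
      have e1 := Quotient.exact' e
      obtain ⟨b, hb⟩ := (orbitRel_apply).mp e1
      obtain ⟨a, ha1, ha2⟩ := hPQ (φ t).1 (φ t).2 b
      apply Quotient.sound'
      apply (orbitRel_apply).mpr
      refine ⟨a, hφi ?_⟩
      show φ (a • t) = φ s
      rw [hφ]
      have hb' : b • φ t = φ s := hb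
      rw [← hb']
      exact Prod.ext ha1 ha2
    · intro s
      induction s using Quotient.inductionOn' with
      | h s =>
      obtain ⟨u, hu⟩ := hφs s
      exact ⟨Quotient.mk'' u, congrArg Quotient.mk'' hu⟩
  rw [Nat.card_congr (Equiv.ofBijective Φ hΦ)]

end general

section gl
variable {F : Type*} [Field F] [Fintype F] {n : ℕ}

/-- diagonal invertible matrix -/
def dg (a : Fin n → Fˣ) : GL (Fin n) F :=
  ⟨Matrix.diagonal fun i => (a i : F), Matrix.diagonal fun i => ((a i)⁻¹ : Fˣ),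
    by rw [Matrix.diagonal_mul_diagonal]; simp, by rw [Matrix.diagonal_mul_diagonal]; simp⟩

lemma dg_mem (a : Fin n → Fˣ) : dg a ∈ upperTriangularGL n F := by
  show (Matrix.diagonal fun i => (a i : F)).BlockTriangular id
  exact Matrix.blockTriangular_diagonal _

lemma dg_conj (a : Fin n → Fˣ) (σ : Equiv.Perm (Fin n)) :
    dg a * pmGL σ = pmGL σ * dg (fun i => a (σ i)) := by
  apply Units.ext
  ext i j
  show ((Matrix.diagonal (fun i => (a i : F)) * pm σ : Matrix (Fin n) (Fin n) F)) i j = ((pm σ * Matrix.diagonal (fun i => (a (σ i) : F)) : Matrix (Fin n) (Fin n) F)) i j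
  rw [Matrix.diagonal_mul, Matrix.mul_diagonal]
  simp only [pm, Matrix.of_apply]
  split_ifs with h
  · subst h
    rw [mul_one, one_mul]
  · simp

lemma exists_stab (hn : 0 < n) (μ ν : Fin n → ℕ) (x : (GL (Fin n) F) ⧸ parabolicGL n F μ)
    (y : (GL (Fin n) F) ⧸ parabolicGL n F ν) (d : Fˣ) :
    ∃ s : GL (Fin n) F, Matrix.GeneralLinearGroup.det s = d ∧ s • x = x ∧ s • y = y := by
  classical
  induction x using QuotientGroup.induction_on with
  | H a =>
  induction y using QuotientGroup.induction_on with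
  | H b =>
  obtain ⟨b₁, hb₁, σ, b₂, hb₂, e⟩ := bruhat (a⁻¹ * b)
  have hb : b = a * b₁ * pmGL σ * b₂ := by
    have : b = a * (a⁻¹ * b) := by group
    rw [this, e]
    group
  subst hb
  set t : Fin n → Fˣ := Function.update 1 ⟨0, hn⟩ d with ht
  have hT : dg t ∈ parabolicGL n F μ := ut_le μ (dg_mem t)
  have hT' : dg (fun i => t (σ i)) ∈ parabolicGL n F ν := ut_le ν (dg_mem _)
  have hb₁' : b₁ ∈ parabolicGL n F μ := ut_le μ hb₁
  have hb₂' : b₂ ∈ parabolicGL n F ν := ut_le ν hb₂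
  refine ⟨(a * b₁) * dg t * (a * b₁)⁻¹, ?_, ?_, ?_⟩
  · rw [map_mul, map_mul, map_inv, mul_comm, ← mul_assoc, inv_mul_cancel, one_mul]
    apply Units.ext
    rw [Matrix.GeneralLinearGroup.val_det_apply]
    show (Matrix.diagonal fun i => (t i : F)).det = d
    rw [Matrix.det_diagonal, Finset.prod_eq_single (⟨0, hn⟩ : Fin n)]
    · simp [ht]
    · intro i _ hi
      simp [ht, Function.update_of_ne hi]
    · intro h
      exact absurd (Finset.mem_univ _) h
  · rw [MulAction.Quotient.smul_coe]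
    apply QuotientGroup.eq.mpr
    simp only [smul_eq_mul]
    have e1 : ((a * b₁) * dg t * (a * b₁)⁻¹ * a)⁻¹ * a = b₁ * (dg t)⁻¹ * b₁⁻¹ := by group
    rw [e1]
    exact mul_mem (mul_mem hb₁' (inv_mem hT)) (inv_mem hb₁')
  · rw [MulAction.Quotient.smul_coe]
    apply QuotientGroup.eq.mpr
    simp only [smul_eq_mul]
    have e2 : (pmGL σ)⁻¹ * (dg t)⁻¹ * pmGL σ = (dg (fun i => t (σ i)))⁻¹ := by
      have e3 := dg_conj t σ
      have e4 : dg t = pmGL σ * dg (fun i => t (σ i)) * (pmGL σ)⁻¹ := by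
        rw [← e3]; group
      rw [e4]
      group
    have e1 : ((a * b₁) * dg t * (a * b₁)⁻¹ * (a * b₁ * pmGL σ * b₂))⁻¹ * (a * b₁ * pmGL σ * b₂) =
        b₂⁻¹ * ((pmGL σ)⁻¹ * (dg t)⁻¹ * pmGL σ) * b₂ := by group
    rw [e1, e2]
    exact mul_mem (mul_mem (inv_mem hb₂') (inv_mem hT')) hb₂'

lemma gl_hPQ (hn : 0 < n) (μ ν : Fin n → ℕ) (x : (GL (Fin n) F) ⧸ parabolicGL n F μ)
    (y : (GL (Fin n) F) ⧸ parabolicGL n F ν) (g : GL (Fin n) F) :
    ∃ a : Matrix.SpecialLinearGroup (Fin n) F, Matrix.SpecialLinearGroup.toGL a • x = g • x ∧ Matrix.SpecialLinearGroup.toGL a • y = g • y := by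
  obtain ⟨s, hs, h1, h2⟩ := exists_stab hn μ ν x y (Matrix.GeneralLinearGroup.det g)
  have hdet : ((g * s⁻¹ : GL (Fin n) F) : Matrix (Fin n) (Fin n) F).det = 1 := by
    rw [← Matrix.GeneralLinearGroup.val_det_apply, map_mul, map_inv, hs, mul_inv_cancel, Units.val_one]
  have e : Matrix.SpecialLinearGroup.toGL (⟨(g * s⁻¹ : GL (Fin n) F).1, hdet⟩ : Matrix.SpecialLinearGroup (Fin n) F) = g * s⁻¹ := Units.ext rfl
  refine ⟨⟨(g * s⁻¹ : GL (Fin n) F).1, hdet⟩, ?_, ?_⟩
  · rw [e, mul_smul, inv_smul_eq_iff.mpr h1.symm]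
  · rw [e, mul_smul, inv_smul_eq_iff.mpr h2.symm]

lemma center_le (μ : Fin n → ℕ) : Subgroup.center (Matrix.SpecialLinearGroup (Fin n) F) ≤
    (parabolicGL n F μ).comap (Matrix.SpecialLinearGroup.toGL (n := Fin n) (R := F)) := by
  intro z hz
  obtain ⟨r, hr, e⟩ := Matrix.SpecialLinearGroup.mem_center_iff.mp hz
  apply ut_le μ
  show (z : Matrix (Fin n) (Fin n) F).BlockTriangular id
  rw [← e, Matrix.scalar_apply]
  exact Matrix.blockTriangular_diagonal _

/-- the projection -/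
def pr : Matrix.SpecialLinearGroup (Fin n) F →* Matrix.ProjectiveSpecialLinearGroup (Fin n) F := QuotientGroup.mk' _

lemma pr_surj : Function.Surjective (pr : Matrix.SpecialLinearGroup (Fin n) F →* Matrix.ProjectiveSpecialLinearGroup (Fin n) F) :=
  QuotientGroup.mk'_surjective _

/-- the image of a parabolic subgroup -/
def Pbar (μ : Fin n → ℕ) : Subgroup (Matrix.ProjectiveSpecialLinearGroup (Fin n) F) :=
  ((parabolicGL n F μ).comap (Matrix.SpecialLinearGroup.toGL (n := Fin n) (R := F))).map pr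

lemma comap_Pbar (μ : Fin n → ℕ) : (Pbar (F := F) μ).comap pr =
    (parabolicGL n F μ).comap (Matrix.SpecialLinearGroup.toGL (n := Fin n) (R := F)) := by
  apply Subgroup.comap_map_eq_self
  intro z hz
  apply center_le μ
  have h : (z : Matrix.SpecialLinearGroup (Fin n) F) ∈ (QuotientGroup.mk' (Subgroup.center (Matrix.SpecialLinearGroup (Fin n) F))).ker := hz
  rwa [QuotientGroup.ker_mk'] at h

lemma fpc_pbar (hn : 0 < n) (μ : Fin n → ℕ) (s : Matrix.SpecialLinearGroup (Fin n) F) :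
    fixedPointCharacter (Pbar (F := F) μ) (pr s) =
      fixedPointCharacter (parabolicGL n F μ) (Matrix.SpecialLinearGroup.toGL s) := by
  rw [← fpc_comap pr (Pbar μ) (fun b => by
      obtain ⟨a, rfl⟩ := pr_surj b
      exact ⟨a, rfl⟩) s, comap_Pbar,
    fpc_comap _ _ (fun b => by
      obtain ⟨a, ha, -⟩ := gl_hPQ hn μ (fun _ => 0) ((1 : GL (Fin n) F) : (GL (Fin n) F) ⧸ parabolicGL n F μ)
        ((1 : GL (Fin n) F) : (GL (Fin n) F) ⧸ parabolicGL n F (fun _ => 0)) b
      refine ⟨a, ?_⟩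
      rw [MulAction.Quotient.smul_coe, MulAction.Quotient.smul_coe] at ha
      simpa using ha) s]

lemma inner_pbar [Fintype (GL (Fin n) F)] [Fintype (Matrix.SpecialLinearGroup (Fin n) F)]
    [Fintype (Matrix.ProjectiveSpecialLinearGroup (Fin n) F)] (hn : 0 < n) (μ ν : Fin n → ℕ) :
    classInner (fixedPointCharacter (Pbar (F := F) μ)) (fixedPointCharacter (Pbar (F := F) ν)) =
      classInner (fixedPointCharacter (parabolicGL n F μ)) (fixedPointCharacter (parabolicGL n F ν)) := by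
  rw [← inner_pull pr (Pbar μ) (Pbar ν) (fun x y b => by
      obtain ⟨a, rfl⟩ := pr_surj b
      exact ⟨a, rfl, rfl⟩), comap_Pbar, comap_Pbar,
    inner_pull _ _ _ (gl_hPQ hn μ ν)]

/-- the character on the projective group -/
noncomputable def chi (ν : Fin n → ℕ) : Matrix.ProjectiveSpecialLinearGroup (Fin n) F → ℂ :=
  fun x => ∑ κ : Equiv.Perm (Fin n), ((Cfsg.Agent.H29.UnipGL.cf (fun i => ν i + i.val) κ : ℤ) : ℂ) *
    fixedPointCharacter (Pbar (F := F) fun i => ν i + i.val - (κ i).val) x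

lemma chi_pr (hn : 0 < n) (ν : Fin n → ℕ) (s : Matrix.SpecialLinearGroup (Fin n) F) :
    chi (F := F) ν (pr s) = unipotentCharacterGL n F ν (Matrix.SpecialLinearGroup.toGL s) := by
  rw [Cfsg.Agent.H29.UnipGL.unip_eq]
  unfold chi
  refine Finset.sum_congr rfl fun κ _ => ?_
  rw [fpc_pbar hn]

lemma chi_one (hn : 0 < n) (ν : Fin n → ℕ) :
    chi (F := F) ν 1 = unipotentCharacterGL n F ν 1 := by
  have := chi_pr (F := F) hn ν 1
  rwa [map_one, map_one] at this

theorem chi_irr (hn : 0 < n) (ν : Fin n → ℕ) (hmono : Monotone ν) (hsum : ∑ i, ν i = n) :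
    IsIrrCharacter (Matrix.ProjectiveSpecialLinearGroup (Fin n) F) (chi (F := F) ν) := by
  classical
  haveI : Finite (Matrix.SpecialLinearGroup (Fin n) F) := Finite.of_injective (fun A => A.1) Subtype.val_injective
  haveI : Finite (Matrix.ProjectiveSpecialLinearGroup (Fin n) F) := Finite.of_surjective _ (pr_surj (F := F) (n := n))
  haveI : Fintype (GL (Fin n) F) := Fintype.ofFinite _
  haveI : Fintype (Matrix.SpecialLinearGroup (Fin n) F) := Fintype.ofFinite _
  haveI : Fintype (Matrix.ProjectiveSpecialLinearGroup (Fin n) F) := Fintype.ofFinite _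
  haveI : Fintype (IrrCharacter (Matrix.ProjectiveSpecialLinearGroup (Fin n) F)) := Fintype.ofFinite _
  apply Cfsg.Agent.H01.isIrrCharacter_of_int_norm_one
  · intro g h
    show (∑ κ : Equiv.Perm (Fin n), _) = (∑ κ : Equiv.Perm (Fin n), _)
    refine Finset.sum_congr rfl fun κ _ => ?_
    rw [Cfsg.Agent.H21.isClassFunction_of_isCharacter (Cfsg.Agent.H10.isCharacter_fpc _) g h]
  · intro χ
    unfold chi
    rw [Cfsg.Agent.H29.UnipGL.inner_expand_left]
    have h3 : ∀ κ : Equiv.Perm (Fin n), ∃ m : ℕ, classInner (fixedPointCharacter (Pbar (F := F) fun i => ν i + i.val - (κ i).val)) (χ : Matrix.ProjectiveSpecialLinearGroup (Fin n) F → ℂ) = m :=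
      fun κ => Cfsg.Agent.H21.classInner_isNat (Cfsg.Agent.H10.isCharacter_fpc _) χ
    choose m hm using h3
    refine ⟨∑ κ, Cfsg.Agent.H29.UnipGL.cf (fun i => ν i + i.val) κ * m κ, ?_⟩
    push_cast
    exact Finset.sum_congr rfl fun κ _ => by rw [hm κ]
  · have h1 : unipotentCharacterGL n F ν = fun g => ∑ κ : Equiv.Perm (Fin n), ((Cfsg.Agent.H29.UnipGL.cf (fun i => ν i + i.val) κ : ℤ) : ℂ) *
        fixedPointCharacter (parabolicGL n F fun i => ν i + i.val - (κ i).val) g := funext (Cfsg.Agent.H29.UnipGL.unip_eq ν)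
    have h2 := Cfsg.Agent.H29.UnipGL.inner_unip (F := F) ν ν hmono hsum hmono hsum
    rw [if_pos rfl, h1, Cfsg.Agent.H29.UnipGL.inner_expand] at h2
    unfold chi
    rw [Cfsg.Agent.H29.UnipGL.inner_expand, ← h2]
    refine Finset.sum_congr rfl fun κ _ => Finset.sum_congr rfl fun κ' _ => ?_
    rw [inner_pbar hn]
  · rw [chi_one hn]
    exact Cfsg.Agent.H29.UnipGL.degree_pos ν hmono hsum

end gl

section degree
open Cfsg.Agent.H11.Para

lemma prod_Qi (q n : ℕ) : ∏ j ∈ Finset.range n, ((Qi q (j + 1) : ℕ) : ℂ) = (qF q n : ℂ) := by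
  induction n with
  | zero => simp [qF]
  | succ n ih =>
    rw [Finset.prod_range_succ, ih, qF_succ]
    push_cast
    ring

lemma van (q n a : ℕ) : ∏ i : Fin n, ∏ j ∈ Finset.Ioi i,
    (((Qi q (a + j.val) : ℕ) : ℂ) - ((Qi q (a + i.val) : ℕ) : ℂ)) =
    (q : ℂ) ^ (a * n.choose 2 + n.choose 3) * ∏ m ∈ Finset.range n, (qF q m : ℂ) := by
  induction n generalizing a with
  | zero => simp
  | succ n ih =>
    rw [Fin.prod_univ_succ]
    have h1 : ∏ j ∈ Finset.Ioi (0 : Fin (n + 1)),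
        (((Qi q (a + j.val) : ℕ) : ℂ) - ((Qi q (a + (0 : Fin (n + 1)).val) : ℕ) : ℂ)) =
        (q : ℂ) ^ (a * n) * (qF q n : ℂ) := by
      rw [Fin.prod_Ioi_zero]
      have h2 : ∀ j : Fin n, (((Qi q (a + (j.succ).val) : ℕ) : ℂ) - ((Qi q (a + (0 : Fin (n + 1)).val) : ℕ) : ℂ)) =
          (q : ℂ) ^ a * ((Qi q (j.val + 1) : ℕ) : ℂ) := by
        intro j
        have h3 := Qi_sub q (a + (j.val + 1)) a (by omega)
        rw [show a + (j.val + 1) - a = j.val + 1 by omega] at h3
        rw [Fin.val_succ, Fin.val_zero, add_zero]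
        exact h3
      simp only [h2]
      rw [Finset.prod_mul_distrib, Finset.prod_const, Finset.card_univ, Fintype.card_fin, ← pow_mul,
        Fin.prod_univ_eq_prod_range (fun j => ((Qi q (j + 1) : ℕ) : ℂ)) n, prod_Qi]
    have h2 : ∏ i : Fin n, ∏ j ∈ Finset.Ioi (i.succ),
        (((Qi q (a + j.val) : ℕ) : ℂ) - ((Qi q (a + (i.succ).val) : ℕ) : ℂ)) =
        ∏ i : Fin n, ∏ j ∈ Finset.Ioi i,
        (((Qi q (a + 1 + j.val) : ℕ) : ℂ) - ((Qi q (a + 1 + i.val) : ℕ) : ℂ)) := by
      refine Finset.prod_congr rfl fun i _ => ?_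
      rw [Fin.prod_Ioi_succ]
      refine Finset.prod_congr rfl fun j _ => ?_
      rw [Fin.val_succ, Fin.val_succ, show a + (j.val + 1) = a + 1 + j.val by omega,
        show a + (i.val + 1) = a + 1 + i.val by omega]
    rw [h1, h2, ih (a + 1), Finset.prod_range_succ]
    have e1 : (n + 1).choose 2 = n + n.choose 2 := by
      have := Nat.choose_succ_succ' n 1
      rw [Nat.choose_one_right] at this
      exact this
    have e2 : (n + 1).choose 3 = n.choose 2 + n.choose 3 := Nat.choose_succ_succ' n 2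
    have e3 : a * (n + 1).choose 2 + (n + 1).choose 3 = a * n + ((a + 1) * n.choose 2 + n.choose 3) := by
      rw [e1, e2]; ring
    rw [e3, pow_add]
    ring

lemma six_choose (n : ℕ) : n * (n - 1) * (n - 2) / 6 = n.choose 3 := by
  have h := Nat.descFactorial_eq_factorial_mul_choose n 3
  have h2 : n.descFactorial 3 = n * (n - 1) * (n - 2) := by
    simp only [Nat.descFactorial_succ, Nat.descFactorial_zero, Nat.sub_zero]
    ring
  rw [← h2, h]
  simp [Nat.factorial]

theorem st_degree {F : Type*} [Field F] [Fintype F] (n : ℕ) :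
    unipotentCharacterGL n F (fun _ => 1) 1 = ((Fintype.card F : ℕ) : ℂ) ^ (n.choose 2) := by
  classical
  set q := Fintype.card F with hq
  have hq1 : 1 ≤ q := Fintype.card_pos
  have h := Cfsg.Agent.H11.Para.degree_formula (F := F) (q := q) hq.symm (n := n) (fun _ => (1 : ℕ)) (by simp)
  beta_reduce at h
  rw [van q n 1, six_choose, one_mul] at h
  have e3 : ∏ i : Fin n, (qF q (1 + i.val) : ℂ) = (∏ m ∈ Finset.range n, (qF q m : ℂ)) * (qF q n : ℂ) := by
    rw [Fin.prod_univ_eq_prod_range (fun m => (qF q (1 + m) : ℂ)) n]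
    have h1 := Finset.prod_range_succ' (fun m => (qF q m : ℂ)) n
    have h2 := Finset.prod_range_succ (fun m => (qF q m : ℂ)) n
    rw [h2] at h1
    rw [h1]
    simp only [qF, Finset.range_zero, Finset.prod_empty, Nat.cast_one, mul_one]
    refine Finset.prod_congr rfl fun m _ => ?_
    rw [add_comm]
  rw [e3] at h
  have hR : (∏ m ∈ Finset.range n, (qF q m : ℂ)) ≠ 0 := by
    apply Finset.prod_ne_zero_iff.mpr
    intro m _
    exact_mod_cast (Cfsg.Agent.H29.UnipGL.qF_pos q hq1 m).ne'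
  have hFn : (qF q n : ℂ) ≠ 0 := by
    exact_mod_cast (Cfsg.Agent.H29.UnipGL.qF_pos q hq1 n).ne'
  have hq0 : (q : ℂ) ≠ 0 := by
    exact_mod_cast (by omega : q ≠ 0)
  have hC : (q : ℂ) ^ (n.choose 3) * ((∏ m ∈ Finset.range n, (qF q m : ℂ)) * (qF q n : ℂ)) ≠ 0 :=
    mul_ne_zero (pow_ne_zero _ hq0) (mul_ne_zero hR hFn)
  apply mul_right_cancel₀ hC
  rw [pow_add] at h
  linear_combination h

end degree

section card
variable {F : Type*} [Field F] [Fintype F] {n : ℕ}

lemma not_dvd_pow_sub {p q k : ℕ} (hp : p.Prime) (hq : p ∣ q) (hq1 : 1 ≤ q) (hk : 0 < k) : ¬ p ∣ q ^ k - 1 := by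
  intro h
  have h1 : p ∣ q ^ k := dvd_pow hq hk.ne'
  have h2 : q ^ k - 1 + 1 = q ^ k := Nat.sub_add_cancel (Nat.one_le_pow _ _ hq1)
  have h3 : p ∣ 1 := (Nat.dvd_add_right h).mp (h2 ▸ h1)
  exact hp.one_lt.ne' (Nat.dvd_one.mp h3)

lemma peel {p e B C m : ℕ} (hp : p.Prime) (hA : B * C = p ^ e * m) (hB : ¬ p ∣ B) (hm : ¬ p ∣ m) :
    ∃ m', C = p ^ e * m' ∧ ¬ p ∣ m' := by
  have h1 : p ^ e ∣ B * C := ⟨m, hA⟩
  have hcop : Nat.Coprime (p ^ e) B := Nat.Coprime.pow_left _ ((Nat.Prime.coprime_iff_not_dvd hp).mpr hB)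
  have h2 : p ^ e ∣ C := hcop.dvd_of_dvd_mul_left h1
  obtain ⟨m', rfl⟩ := h2
  refine ⟨m', rfl, ?_⟩
  intro h3
  apply hm
  have h4 : m = B * m' := by
    have hpos : 0 < p ^ e := pow_pos hp.pos _
    apply Nat.eq_of_mul_eq_mul_left hpos
    rw [← hA]
    ring
  rw [h4]
  exact Dvd.dvd.mul_left h3 _

lemma card_GL_split (n : ℕ) : Nat.card (GL (Fin n) F) =
    (Fintype.card F) ^ (n.choose 2) * ∏ i : Fin n, ((Fintype.card F) ^ (n - i.val) - 1) := by
  rw [Matrix.card_GL_field]
  have h1 : ∀ i : Fin n, (Fintype.card F) ^ n - (Fintype.card F) ^ i.val = (Fintype.card F) ^ i.val * ((Fintype.card F) ^ (n - i.val) - 1) := by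
    intro i
    rw [Nat.mul_sub, ← pow_add, mul_one, Nat.add_sub_cancel' i.isLt.le]
  simp only [h1]
  rw [Finset.prod_mul_distrib, Finset.prod_pow_eq_pow_sum,
    Fin.sum_univ_eq_sum_range (fun i => i) n, Finset.sum_range_id, Nat.choose_two_right]

theorem card_psl (p : ℕ) [hp : Fact p.Prime] [CharP F p] (hn : 0 < n) :
    ∃ m, Nat.card (Matrix.ProjectiveSpecialLinearGroup (Fin n) F) = (Fintype.card F) ^ (n.choose 2) * m ∧ ¬ p ∣ m := by
  classical
  obtain ⟨f, hpp, hf⟩ := FiniteField.card F p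
  set q := Fintype.card F with hq
  have hq1 : 1 ≤ q := Fintype.card_pos
  have hpq : p ∣ q := by
    rw [hf]
    exact dvd_pow_self _ f.ne_zero
  have hqe : q ^ (n.choose 2) = p ^ ((f : ℕ) * n.choose 2) := by rw [hf, pow_mul]
  have hM : ¬ p ∣ ∏ i : Fin n, (q ^ (n - i.val) - 1) := by
    intro h
    obtain ⟨i, -, hi⟩ := (Prime.dvd_finsetProd_iff (Nat.Prime.prime hp.out) _).mp h
    exact not_dvd_pow_sub hp.out hpq hq1 (by have := i.isLt; omega) hi
  have hq2 : ¬ p ∣ q - 1 := by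
    have := not_dvd_pow_sub (k := 1) hp.out hpq hq1 one_pos
    rwa [pow_one] at this
  have h1 : (q - 1) * Nat.card (Matrix.SpecialLinearGroup (Fin n) F) = p ^ ((f : ℕ) * n.choose 2) * ∏ i : Fin n, (q ^ (n - i.val) - 1) := by
    rw [← hqe, mul_comm, Cfsg.Agent.H10.card_SL_mul n hn, card_GL_split]
  obtain ⟨m₁, e₁, hm₁⟩ := peel hp.out h1 hq2 hM
  have hZ : ¬ p ∣ Nat.card (Subgroup.center (Matrix.SpecialLinearGroup (Fin n) F)) := by
    intro h
    apply hq2
    apply dvd_trans h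
    rw [Nat.card_congr (Matrix.SpecialLinearGroup.center_equiv_rootsOfUnity' (⟨0, hn⟩ : Fin n)).toEquiv]
    have h2 := Subgroup.card_subgroup_dvd_card (rootsOfUnity (Fintype.card (Fin n)) F)
    rwa [Nat.card_eq_fintype_card (α := Fˣ), Fintype.card_units] at h2
  have h2 : Nat.card (Subgroup.center (Matrix.SpecialLinearGroup (Fin n) F)) *
      Nat.card (Matrix.ProjectiveSpecialLinearGroup (Fin n) F) = p ^ ((f : ℕ) * n.choose 2) * m₁ := by
    rw [← e₁, Subgroup.card_eq_card_quotient_mul_card_subgroup (Subgroup.center (Matrix.SpecialLinearGroup (Fin n) F)), mul_comm]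
  obtain ⟨m₂, e₂, hm₂⟩ := peel hp.out h2 hZ hm₁
  exact ⟨m₂, by rw [e₂, hqe], hm₂⟩

theorem card_sylow (p : ℕ) [hp : Fact p.Prime] [CharP F p] (hn : 0 < n)
    [Finite (Matrix.ProjectiveSpecialLinearGroup (Fin n) F)]
    (P : Sylow p (Matrix.ProjectiveSpecialLinearGroup (Fin n) F)) :
    Nat.card P = (Fintype.card F) ^ (n.choose 2) := by
  classical
  obtain ⟨f, hpp, hf⟩ := FiniteField.card F p
  obtain ⟨m, hm, hm'⟩ := card_psl (F := F) p hn
  rw [Sylow.card_eq_multiplicity, hm]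
  have hm0 : m ≠ 0 := by
    rintro rfl
    exact hm' (dvd_zero _)
  have hq0 : (Fintype.card F) ^ (n.choose 2) ≠ 0 := pow_ne_zero _ Fintype.card_ne_zero
  rw [Nat.factorization_mul hq0 hm0, Finsupp.add_apply, Nat.factorization_eq_zero_of_not_dvd hm', add_zero, hf,
    ← pow_mul, hp.out.factorization_pow, Finsupp.single_eq_same]

end card

end Cfsg.Agent.H29.StPSL
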