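import Mathlib
import Cfsg.Prelude.Def_SteinbergCover

/-! The group presented by Steinberg's relators is perfect: commutator formula with a single
term, or two leading terms modulo the commutator subgroup. -/

set_option autoImplicit false

namespace Cfsg.Agent.H29.StP

open Cfsg.Lie Cfsg.Lie.ChevalleyDatum
open scoped commutatorElement

variable (D : ChevalleyDatum) (K : Type*) [Field K]

local notation "C'" => commutator (D.SteinbergCover K)

/-- The map from words. -/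
theorem mk_stWord (w : List (ℕ × K)) :
    PresentedGroup.mk (D.steinbergRelsAB K) (D.stWord w) = (w.map fun p => D.scGen K p.1 p.2).prod := by
  induction w with
  | nil => simp [stWord]
  | cons p w ih =>
    have e : D.stWord (p :: w) = D.stX p.1 p.2 * D.stWord w := by
      simp [stWord]
    rw [e, map_mul, ih]
    simp [scGen]

variable {K}

/-- The additivity relation. -/
theorem sc_add (r : ℕ) (hr : r < D.nroots) (a b : K) :
    D.scGen K r a * D.scGen K r b = D.scGen K r (a + b) := by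
  have h : D.stX r a * D.stX r b * (D.stX r (a + b))⁻¹ ∈ D.steinbergRelsAB K :=
    Or.inl ⟨r, a, b, hr, rfl⟩
  have h1 := PresentedGroup.one_of_mem h
  rw [map_mul, map_mul, map_inv] at h1
  exact mul_inv_eq_one.1 h1

theorem sc_zero (r : ℕ) (hr : r < D.nroots) : D.scGen K r 0 = 1 := by
  have h := sc_add D r hr (0 : K) 0
  rw [add_zero] at h
  exact mul_eq_left.1 h

theorem sc_neg (r : ℕ) (hr : r < D.nroots) (a : K) : (D.scGen K r a)⁻¹ = D.scGen K r (-a) := by
  have h := sc_add D r hr a (-a)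
  rw [add_neg_cancel, sc_zero D r hr] at h
  exact inv_eq_of_mul_eq_one_right h

/-- The commutator relation. -/
theorem sc_comm (a s : ℕ) (ha : a < D.nroots) (hs : s < D.nroots) (h1 : s ≠ a) (h2 : s ≠ D.neg a) (t u : K) :
    (D.scGen K s u)⁻¹ * (D.scGen K a t)⁻¹ * D.scGen K s u * D.scGen K a t =
      ((D.commWord K a s t u).map fun p => D.scGen K p.1 p.2).prod := by
  have h : (D.stX s u)⁻¹ * (D.stX a t)⁻¹ * D.stX s u * D.stX a t * (D.stWord (D.commWord K a s t u))⁻¹ ∈ D.steinbergRelsAB K :=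
    Or.inr ⟨a, s, t, u, ha, hs, h1, h2, rfl⟩
  have h3 := PresentedGroup.one_of_mem h
  rw [map_mul, map_inv, mk_stWord] at h3
  have h4 := mul_inv_eq_one.1 h3
  rw [← h4]
  simp only [map_mul, map_inv]
  rfl

/-- The left side of the commutator relation lies in the commutator subgroup. -/
theorem comm_word_mem (a s : ℕ) (ha : a < D.nroots) (hs : s < D.nroots) (h1 : s ≠ a) (h2 : s ≠ D.neg a) (t u : K) :
    ((D.commWord K a s t u).map fun p => D.scGen K p.1 p.2).prod ∈ C' := by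
  rw [← sc_comm D a s ha hs h1 h2 t u]
  have e : (D.scGen K s u)⁻¹ * (D.scGen K a t)⁻¹ * D.scGen K s u * D.scGen K a t =
      ⁅(D.scGen K s u)⁻¹, (D.scGen K a t)⁻¹⁆ := by
    rw [commutatorElement_def, inv_inv, inv_inv]
  rw [e, commutator_def]
  exact Subgroup.commutator_mem_commutator (Subgroup.mem_top _) (Subgroup.mem_top _)

/-- A single term. -/
theorem mem_of_single (a s r : ℕ) (c : ℤ) (ha : a < D.nroots) (hs : s < D.nroots) (h1 : s ≠ a) (h2 : s ≠ D.neg a)
    (hT : D.commTerms a s = [(r, c, 1, 1)]) (hc : c = 1 ∨ c = -1) (v : K) : D.scGen K r v ∈ C' := by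
  have hc2 : (c : K) * (c : K) = 1 := by
    rcases hc with rfl | rfl <;> simp
  have h := comm_word_mem D a s ha hs h1 h2 (-(c : K) * v) 1
  simp only [commWord, hT, List.map_cons, List.map_nil, List.prod_cons, List.prod_nil, mul_one] at h
  have e : (c : K) * (- (-(c : K) * v)) ^ 1 * 1 ^ 1 = v := by
    simp only [pow_one, neg_mul, neg_neg, mul_one]
    rw [← mul_assoc, hc2, one_mul]
  rw [e] at h
  exact h

/-- Two leading terms. -/
theorem mem_of_two {p q : ℕ} (hq : q < D.nroots) (c₁ c₂ : K) (hc₁ : c₁ * c₁ = 1) (hc₂ : c₂ * c₂ = 1)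
    (l : K) (hl0 : l ≠ 0) (hl1 : l ≠ 1)
    (hW : ∀ t u : K, D.scGen K p (c₁ * -t * u) * D.scGen K q (c₂ * -t * u ^ 2) ∈ C') (v : K) :
    D.scGen K q v ∈ C' ∧ D.scGen K p v ∈ C' := by
  have hqmem : ∀ v : K, D.scGen K q v ∈ C' := by
    intro v
    have hne : l * (l - 1) ≠ 0 := mul_ne_zero hl0 (sub_ne_zero.2 hl1)
    set t : K := - c₂ * v / (l * (l - 1)) with ht
    have h1 := hW t l
    have h2 := hW (t * l) 1
    have h3 := Subgroup.mul_mem _ (Subgroup.inv_mem _ h2) h1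
    have e1 : c₁ * -(t * l) * 1 = c₁ * -t * l := by ring
    rw [e1, mul_inv_rev, mul_assoc, inv_mul_cancel_left, sc_neg D q hq, sc_add D q hq] at h3
    have ht' : t * (l * (l - 1)) = - c₂ * v := div_mul_cancel₀ _ hne
    have e2 : -(c₂ * -(t * l) * 1 ^ 2) + c₂ * -t * l ^ 2 = v := by
      linear_combination (-c₂) * ht' + v * hc₂
    rw [e2] at h3
    exact h3
  refine ⟨hqmem v, ?_⟩
  have h1 := hW (- c₁ * v) 1
  have e1 : c₁ * -(-c₁ * v) * 1 = v := by
    linear_combination v * hc₁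
  rw [e1] at h1
  have h2 := Subgroup.mul_mem _ h1 (Subgroup.inv_mem _ (hqmem (c₂ * -(-c₁ * v) * 1 ^ 2)))
  rwa [mul_inv_cancel_right] at h2

/-- The perfectness from generators. -/
theorem top_of_gens (h : ∀ r : ℕ, r < D.nroots → ∀ v : K, D.scGen K r v ∈ C') : C' = ⊤ := by
  rw [eq_top_iff, ← PresentedGroup.closure_range_of (D.steinbergRelsAB K), Subgroup.closure_le]
  rintro _ ⟨⟨r, v⟩, rfl⟩
  have h1 := h r r.2 v
  have e : D.scGen K r v = PresentedGroup.of (rels := D.steinbergRelsAB K) (r, v) := by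
    simp [scGen, stX, PresentedGroup.of]
  rw [e] at h1
  exact h1

/-- The check for a single-term witness. -/
def chk (r a s : ℕ) : Bool :=
  decide (a < D.nroots) && decide (s < D.nroots) && decide (s ≠ a) && decide (s ≠ D.neg a) &&
    (match D.commTerms a s with
     | [(k, c, 1, 1)] => decide (k = r) && (decide (c = 1) || decide (c = -1))
     | _ => false)

theorem chk_spec {r a s : ℕ} (h : chk D r a s = true) :
    a < D.nroots ∧ s < D.nroots ∧ s ≠ a ∧ s ≠ D.neg a ∧ ∃ c : ℤ, D.commTerms a s = [(r, c, 1, 1)] ∧ (c = 1 ∨ c = -1) := by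
  simp only [chk, Bool.and_eq_true, decide_eq_true_eq] at h
  obtain ⟨⟨⟨⟨h1, h2⟩, h3⟩, h4⟩, h5⟩ := h
  refine ⟨h1, h2, h3, h4, ?_⟩
  split at h5
  · rename_i k c heq
    simp only [Bool.and_eq_true, Bool.or_eq_true, decide_eq_true_eq] at h5
    obtain ⟨rfl, h6⟩ := h5
    exact ⟨c, heq, h6⟩
  · exact absurd h5 (by simp)

def chkAll (w : List (ℕ × ℕ)) : Bool :=
  (List.range D.nroots).all fun r => chk D r (w.getD r (0, 0)).1 (w.getD r (0, 0)).2

theorem perfect_of_chkAll (w : List (ℕ × ℕ)) (h : chkAll D w = true) : C' = ⊤ := by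
  apply top_of_gens
  intro r hr v
  have h1 := List.all_eq_true.1 h r (List.mem_range.2 hr)
  obtain ⟨ha, hs, h3, h4, c, hT, hc⟩ := chk_spec D h1
  exact mem_of_single D _ _ r c ha hs h3 h4 hT hc v

/-- Two terms in the commutator formula. -/
theorem mem_of_two_terms (a s p q : ℕ) (c₁ c₂ : ℤ) (ha : a < D.nroots) (hs : s < D.nroots) (hq : q < D.nroots)
    (h1 : s ≠ a) (h2 : s ≠ D.neg a) (hT : D.commTerms a s = [(p, c₁, 1, 1), (q, c₂, 1, 2)])
    (hc₁ : c₁ = 1 ∨ c₁ = -1) (hc₂ : c₂ = 1 ∨ c₂ = -1) (l : K) (hl0 : l ≠ 0) (hl1 : l ≠ 1) (v : K) :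
    D.scGen K q v ∈ C' ∧ D.scGen K p v ∈ C' := by
  have e₁ : (c₁ : K) * (c₁ : K) = 1 := by rcases hc₁ with rfl | rfl <;> simp
  have e₂ : (c₂ : K) * (c₂ : K) = 1 := by rcases hc₂ with rfl | rfl <;> simp
  apply mem_of_two D hq _ _ e₁ e₂ l hl0 hl1
  intro t u
  have h := comm_word_mem D a s ha hs h1 h2 t u
  simp only [commWord, hT, List.map_cons, List.map_nil, List.prod_cons, List.prod_nil, mul_one, pow_one] at h
  exact h

/-- Two leading terms, and two further terms already in the commutator subgroup. -/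
theorem mem_of_four_terms (a s p q l₁ l₂ : ℕ) (c₁ c₂ c₃ c₄ : ℤ) (ha : a < D.nroots) (hs : s < D.nroots) (hq : q < D.nroots)
    (h1 : s ≠ a) (h2 : s ≠ D.neg a)
    (hT : D.commTerms a s = [(p, c₁, 1, 1), (q, c₂, 1, 2), (l₁, c₃, 1, 3), (l₂, c₄, 2, 3)])
    (hc₁ : c₁ = 1 ∨ c₁ = -1) (hc₂ : c₂ = 1 ∨ c₂ = -1) (l : K) (hl0 : l ≠ 0) (hl1 : l ≠ 1)
    (hl₁ : ∀ v : K, D.scGen K l₁ v ∈ C') (hl₂ : ∀ v : K, D.scGen K l₂ v ∈ C') (v : K) :
    D.scGen K q v ∈ C' ∧ D.scGen K p v ∈ C' := by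
  have e₁ : (c₁ : K) * (c₁ : K) = 1 := by rcases hc₁ with rfl | rfl <;> simp
  have e₂ : (c₂ : K) * (c₂ : K) = 1 := by rcases hc₂ with rfl | rfl <;> simp
  apply mem_of_two D hq _ _ e₁ e₂ l hl0 hl1
  intro t u
  have h := comm_word_mem D a s ha hs h1 h2 t u
  simp only [commWord, hT, List.map_cons, List.map_nil, List.prod_cons, List.prod_nil, mul_one, pow_one] at h
  have h3 := Subgroup.mul_mem _ h (Subgroup.inv_mem _ (hl₂ ((c₄ : K) * (-t) ^ 2 * u ^ 3)))
  have h4 := Subgroup.mul_mem _ h3 (Subgroup.inv_mem _ (hl₁ ((c₃ : K) * -t * u ^ 3)))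
  have e : D.scGen K p ((c₁ : K) * -t * u) * (D.scGen K q ((c₂ : K) * -t * u ^ 2) *
      (D.scGen K l₁ ((c₃ : K) * -t * u ^ 3) * D.scGen K l₂ ((c₄ : K) * (-t) ^ 2 * u ^ 3))) *
      (D.scGen K l₂ ((c₄ : K) * (-t) ^ 2 * u ^ 3))⁻¹ * (D.scGen K l₁ ((c₃ : K) * -t * u ^ 3))⁻¹ =
      D.scGen K p ((c₁ : K) * -t * u) * D.scGen K q ((c₂ : K) * -t * u ^ 2) := by
    group
  rw [e] at h4
  exact h4

end Cfsg.Agent.H29.StP
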