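/-
Subfield subgroups: membership, conjugation into them, squares in subfields.
-/
import Cfsg.Prelude.Def_GeometricClasses
import Mathlib.FieldTheory.Finite.Basic
import Mathlib.LinearAlgebra.Matrix.SpecialLinearGroup

set_option autoImplicit false

open scoped MatrixGroups

namespace Cfsg.Agent.H29

section Mem

variable {F : Type*} [Field F] {n : ℕ} {F₀ : Subfield F}

/-- Membership in the subfield subgroup with trivial base change. -/
theorem mem_subfieldSubgroup_iff (x : GL (Fin n) F) :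
    x ∈ Cfsg.Geo.subfieldSubgroup F₀ 1 ↔ ∃ (c : F) (g : GL (Fin n) F₀), c ≠ 0 ∧
      (x : Matrix (Fin n) (Fin n) F) = c • (g : Matrix (Fin n) (Fin n) F₀).map F₀.subtype := by
  constructor
  · rintro ⟨y, hy, rfl⟩
    have hy' : y ∈ (Matrix.GeneralLinearGroup.map (F₀.subtype : F₀ →+* F)).range ⊔
        Cfsg.Geo.scalars (Fin n) F := hy
    have hy2 : y ∈ (((Matrix.GeneralLinearGroup.map (F₀.subtype : F₀ →+* F)).range ⊔
        Cfsg.Geo.scalars (Fin n) F : Subgroup (GL (Fin n) F)) : Set (GL (Fin n) F)) := hy'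
    rw [Subgroup.mul_normal] at hy2
    obtain ⟨a, ⟨g, rfl⟩, s, hs, rfl⟩ := hy2
    obtain ⟨c, hc⟩ := (Cfsg.Geo.mem_scalars_iff _).1 hs
    refine ⟨c, g, c.ne_zero, ?_⟩
    simp only [MulEquiv.coe_toMonoidHom, MulAut.conj_apply, one_mul, inv_one, mul_one]
    rw [Units.val_mul, hc, Matrix.mul_smul, Matrix.mul_one]
    rfl
  · rintro ⟨c, g, hc, hx⟩
    refine ⟨x, ?_, by simp⟩
    have h1 : x = Matrix.GeneralLinearGroup.map (F₀.subtype : F₀ →+* F) g *
        (Units.map (Matrix.scalar (Fin n) : F →+* Matrix (Fin n) (Fin n) F).toMonoidHom (Units.mk0 c hc)) := by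
      apply Units.ext
      rw [hx, Units.val_mul]
      have h2 : ((Units.map (Matrix.scalar (Fin n) : F →+* Matrix (Fin n) (Fin n) F).toMonoidHom
          (Units.mk0 c hc) : GL (Fin n) F) : Matrix (Fin n) (Fin n) F) = c • (1 : Matrix (Fin n) (Fin n) F) := by
        simp [Matrix.smul_one_eq_diagonal]
      rw [h2, Matrix.mul_smul, Matrix.mul_one]
      rfl
    rw [h1]
    exact Subgroup.mul_mem_sup ⟨g, rfl⟩ ⟨_, rfl⟩

/-- A conjugation lemma: from a conjugacy with the right determinant to membership. -/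
theorem conj_into_subfield (x : Matrix.SpecialLinearGroup (Fin n) F) (b : F) (hb : b ≠ 0)
    (Q C : GL (Fin n) F) (g₀ W : GL (Fin n) F₀)
    (hQ : (x : Matrix (Fin n) (Fin n) F) * (Q : Matrix (Fin n) (Fin n) F) =
      (Q : Matrix (Fin n) (Fin n) F) * (b • (g₀ : Matrix (Fin n) (Fin n) F₀).map F₀.subtype))
    (hC : (C : Matrix (Fin n) (Fin n) F) * (g₀ : Matrix (Fin n) (Fin n) F₀).map F₀.subtype =
      (g₀ : Matrix (Fin n) (Fin n) F₀).map F₀.subtype * (C : Matrix (Fin n) (Fin n) F))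
    (hdet : (Q : Matrix (Fin n) (Fin n) F).det * (C : Matrix (Fin n) (Fin n) F).det *
      ((W : Matrix (Fin n) (Fin n) F₀).det : F) = 1) :
    ∃ P : Matrix.SpecialLinearGroup (Fin n) F, P⁻¹ * x * P ∈
      (Cfsg.Geo.subfieldSubgroup F₀ 1).comap
        (Matrix.SpecialLinearGroup.toGL : Matrix.SpecialLinearGroup (Fin n) F →* GL (Fin n) F) := by
  classical
  let ι : F₀ →+* F := F₀.subtype
  let IW : GL (Fin n) F := Matrix.GeneralLinearGroup.map ι W
  let Ig : GL (Fin n) F := Matrix.GeneralLinearGroup.map ι (W⁻¹ * g₀ * W)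
  have hIW : (IW : Matrix (Fin n) (Fin n) F) = (W : Matrix (Fin n) (Fin n) F₀).map ι := rfl
  have hIg₀ : ((Matrix.GeneralLinearGroup.map ι g₀ : GL (Fin n) F) : Matrix (Fin n) (Fin n) F) =
      (g₀ : Matrix (Fin n) (Fin n) F₀).map ι := rfl
  have hIgW : IW * Ig = Matrix.GeneralLinearGroup.map ι g₀ * IW := by
    simp only [IW, Ig, ← map_mul]
    congr 1
    group
  let A : GL (Fin n) F := Q * C * IW
  have hAdet : (A : Matrix (Fin n) (Fin n) F).det = 1 := by
    simp only [A, Units.val_mul, Matrix.det_mul]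
    rw [hIW, ← RingHom.mapMatrix_apply, ← RingHom.map_det]
    exact hdet
  obtain ⟨P, hP⟩ : ∃ P : Matrix.SpecialLinearGroup (Fin n) F,
      (P : Matrix (Fin n) (Fin n) F) = (A : Matrix (Fin n) (Fin n) F) :=
    ⟨⟨A, hAdet⟩, rfl⟩
  refine ⟨P, ?_⟩
  rw [Subgroup.mem_comap, mem_subfieldSubgroup_iff]
  refine ⟨b, W⁻¹ * g₀ * W, hb, ?_⟩
  rw [Matrix.SpecialLinearGroup.coe_GL_coe_matrix]
  have hxA : (x : Matrix (Fin n) (Fin n) F) * (A : Matrix (Fin n) (Fin n) F) =
      (A : Matrix (Fin n) (Fin n) F) * (b • (Ig : Matrix (Fin n) (Fin n) F)) := by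
    have h1 : (IW : Matrix (Fin n) (Fin n) F) * (Ig : Matrix (Fin n) (Fin n) F) =
        (g₀ : Matrix (Fin n) (Fin n) F₀).map ι * (IW : Matrix (Fin n) (Fin n) F) := by
      rw [← Units.val_mul, hIgW, Units.val_mul, hIg₀]
    simp only [A, Units.val_mul]
    set G : Matrix (Fin n) (Fin n) F := (g₀ : Matrix (Fin n) (Fin n) F₀).map ι with hG
    have hC' : (C : Matrix (Fin n) (Fin n) F) * G = G * (C : Matrix (Fin n) (Fin n) F) := hC
    have hQ' : (x : Matrix (Fin n) (Fin n) F) * (Q : Matrix (Fin n) (Fin n) F) =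
        (Q : Matrix (Fin n) (Fin n) F) * (b • G) := hQ
    have h3 : (Q : Matrix (Fin n) (Fin n) F) * G * (C : Matrix (Fin n) (Fin n) F) =
        (Q : Matrix (Fin n) (Fin n) F) * (C : Matrix (Fin n) (Fin n) F) * G := by
      rw [mul_assoc, ← hC', mul_assoc]
    calc (x : Matrix (Fin n) (Fin n) F) * ((Q : Matrix (Fin n) (Fin n) F) * (C : Matrix (Fin n) (Fin n) F) * (IW : Matrix (Fin n) (Fin n) F))
        = ((x : Matrix (Fin n) (Fin n) F) * (Q : Matrix (Fin n) (Fin n) F)) * (C : Matrix (Fin n) (Fin n) F) * (IW : Matrix (Fin n) (Fin n) F) := by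
          simp only [mul_assoc]
      _ = b • ((Q : Matrix (Fin n) (Fin n) F) * G * (C : Matrix (Fin n) (Fin n) F) * (IW : Matrix (Fin n) (Fin n) F)) := by
          rw [hQ']
          simp only [Matrix.mul_smul, Matrix.smul_mul]
      _ = b • ((Q : Matrix (Fin n) (Fin n) F) * (C : Matrix (Fin n) (Fin n) F) * (G * (IW : Matrix (Fin n) (Fin n) F))) := by
          rw [h3]
          simp only [mul_assoc]
      _ = b • ((Q : Matrix (Fin n) (Fin n) F) * (C : Matrix (Fin n) (Fin n) F) * ((IW : Matrix (Fin n) (Fin n) F) * (Ig : Matrix (Fin n) (Fin n) F))) := by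
          rw [h1]
      _ = (Q : Matrix (Fin n) (Fin n) F) * (C : Matrix (Fin n) (Fin n) F) * (IW : Matrix (Fin n) (Fin n) F) * (b • (Ig : Matrix (Fin n) (Fin n) F)) := by
          simp only [Matrix.mul_smul, mul_assoc]
  have hP1 : ((P⁻¹ * x * P : Matrix.SpecialLinearGroup (Fin n) F) : Matrix (Fin n) (Fin n) F) =
      b • (Ig : Matrix (Fin n) (Fin n) F) := by
    have h2 : ((P⁻¹ : Matrix.SpecialLinearGroup (Fin n) F) : Matrix (Fin n) (Fin n) F) *
        (P : Matrix (Fin n) (Fin n) F) = 1 := by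
      rw [← Matrix.SpecialLinearGroup.coe_mul, inv_mul_cancel, Matrix.SpecialLinearGroup.coe_one]
    rw [Matrix.SpecialLinearGroup.coe_mul, Matrix.SpecialLinearGroup.coe_mul, mul_assoc, hP, hxA, ← hP,
      ← mul_assoc, h2, one_mul]
  rw [hP1]
  rfl

end Mem

section Squares

variable {F : Type*} [Field F] [Fintype F] {F₀ : Subfield F} {q q₀ k : ℕ}

theorem pow_sub_one_subfield (hF₀ : Nat.card F₀ = q₀) (w : F₀) (hw : w ≠ 0) : (w : F) ^ (q₀ - 1) = 1 := by
  have : Fintype F₀ := Fintype.ofFinite _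
  have h1 := FiniteField.pow_card_sub_one_eq_one w hw
  rw [← Nat.card_eq_fintype_card, hF₀] at h1
  have h2 := congrArg (fun y : F₀ => (y : F)) h1
  simpa using h2

/-- Elements of the subfield are squares in a quadratic extension. -/
theorem isSquare_of_subfield_two (hq : Fintype.card F = q) (hodd : Odd q) (hqk : q = q₀ ^ 2)
    (hF₀ : Nat.card F₀ = q₀) (w : F₀) (hw : w ≠ 0) : IsSquare (w : F) := by
  have hchar : ringChar F ≠ 2 := by
    intro h
    have h1 := FiniteField.even_card_of_char_two h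
    rw [hq] at h1
    exact (Nat.not_even_iff_odd.2 hodd) (Nat.even_iff.2 h1)
  have hw' : (w : F) ≠ 0 := by
    intro h
    exact hw (Subtype.ext h)
  rw [FiniteField.isSquare_iff hchar hw', hq]
  have hq₀odd : Odd q₀ := by
    rw [hqk] at hodd
    exact (Nat.odd_pow_iff (by norm_num)).1 hodd
  obtain ⟨t, ht⟩ := hq₀odd
  have h1 : q / 2 = (q₀ - 1) * (t + 1) := by
    rw [hqk, ht]
    have : (2 * t + 1) ^ 2 = 2 * ((2 * t + 1 - 1) * (t + 1)) + 1 := by
      have : 2 * t + 1 - 1 = 2 * t := by omega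
      rw [this]
      ring
    omega
  rw [h1, pow_mul, pow_sub_one_subfield hF₀ w hw, one_pow]

theorem geom_sum_odd {q₀ : ℕ} (h : Odd q₀) (k : ℕ) (hk : Odd k) :
    Odd (∑ i ∈ Finset.range k, q₀ ^ i) := by
  have h1 : ∀ k : ℕ, (∑ i ∈ Finset.range k, q₀ ^ i) % 2 = k % 2 := by
    intro k
    induction k with
    | zero => simp
    | succ k ih =>
      rw [Finset.sum_range_succ, Nat.add_mod, ih]
      have : Odd (q₀ ^ k) := h.pow
      rw [Nat.odd_iff.1 this]
      omega
  rw [Nat.odd_iff, h1, ← Nat.odd_iff]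
  exact hk

theorem mul_geom_sum_add_one {q₀ : ℕ} (h : 1 ≤ q₀) (k : ℕ) :
    (q₀ - 1) * (∑ i ∈ Finset.range k, q₀ ^ i) + 1 = q₀ ^ k := by
  induction k with
  | zero => simp
  | succ k ih =>
    rw [Finset.sum_range_succ, mul_add, pow_succ]
    obtain ⟨r, rfl⟩ : ∃ r, q₀ = r + 1 := ⟨q₀ - 1, by omega⟩
    simp only [Nat.add_sub_cancel] at ih ⊢
    rw [← ih]
    ring

/-- In an odd degree extension, non-squares of the subfield stay non-squares. -/
theorem exists_nonsquare_subfield_odd (hq : Fintype.card F = q) (hodd : Odd q) (hqk : q = q₀ ^ k)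
    (hkodd : Odd k) (hF₀ : Nat.card F₀ = q₀) :
    ∃ w : F₀, w ≠ 0 ∧ ¬ IsSquare (w : F) := by
  have hchar : ringChar F ≠ 2 := by
    intro h
    have h1 := FiniteField.even_card_of_char_two h
    rw [hq] at h1
    exact (Nat.not_even_iff_odd.2 hodd) (Nat.even_iff.2 h1)
  have : Fintype F₀ := Fintype.ofFinite _
  have hk0 : k ≠ 0 := by
    rintro rfl
    exact (Nat.not_even_iff_odd.2 hkodd) (by simp)
  obtain ⟨g, hg⟩ := IsCyclic.exists_generator (α := F₀ˣ)
  have hord : orderOf g = q₀ - 1 := by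
    rw [orderOf_eq_card_of_forall_mem_zpowers hg, Nat.card_units, hF₀]
  refine ⟨(g : F₀), g.ne_zero, ?_⟩
  have hg' : ((g : F₀) : F) ≠ 0 := by
    intro h
    exact g.ne_zero (Subtype.ext h)
  rw [FiniteField.isSquare_iff hchar hg', hq]
  intro h1
  have hq₀odd : Odd q₀ := by
    rw [hqk] at hodd
    exact (Nat.odd_pow_iff hk0).1 hodd
  have h2 : g ^ (q / 2) = 1 := by
    apply Units.ext
    apply Subtype.ext
    simpa using h1
  have h3 : q₀ - 1 ∣ q / 2 := by
    rw [← hord]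
    exact orderOf_dvd_of_pow_eq_one h2
  obtain ⟨y, hy⟩ := h3
  have hsum := mul_geom_sum_add_one hq₀odd.pos k
  have hSodd := geom_sum_odd hq₀odd k hkodd
  set S := ∑ i ∈ Finset.range k, q₀ ^ i with hS
  have hq2 : q = 2 * (q / 2) + 1 := by
    have := Nat.odd_iff.1 hodd
    omega
  have hpos : 0 < q₀ - 1 := by
    have h4 : 2 ≤ q₀ := by
      rw [← hF₀]
      exact Finite.one_lt_card
    omega
  have h5 : (q₀ - 1) * S = (q₀ - 1) * (2 * y) := by
    have h6 : (q₀ - 1) * S + 1 = q := by rw [hsum, hqk]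
    have h7 : 2 * ((q₀ - 1) * y) + 1 = q := by rw [← hy]; omega
    nlinarith
  have h8 := Nat.eq_of_mul_eq_mul_left hpos h5
  rw [h8] at hSodd
  exact (Nat.not_even_iff_odd.2 hSodd) (even_two_mul y)

/-- Product of two non-squares. -/
theorem isSquare_mul_of_not {a b : F} (hF : ringChar F ≠ 2) (ha : a ≠ 0) (hb : b ≠ 0)
    (h1 : ¬ IsSquare a) (h2 : ¬ IsSquare b) : IsSquare (a * b) := by
  rw [FiniteField.isSquare_iff hF (mul_ne_zero ha hb), mul_pow]
  have h3 : a ^ (Fintype.card F / 2) = -1 := by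
    rcases FiniteField.pow_dichotomy hF ha with h | h
    · exact absurd ((FiniteField.isSquare_iff hF ha).2 h) h1
    · exact h
  have h4 : b ^ (Fintype.card F / 2) = -1 := by
    rcases FiniteField.pow_dichotomy hF hb with h | h
    · exact absurd ((FiniteField.isSquare_iff hF hb).2 h) h2
    · exact h
  rw [h3, h4]
  norm_num

end Squares

/-- Invertible matrices of every determinant. -/
theorem exists_gl_det {R : Type*} [Field R] {n : ℕ} (hn : 0 < n) (w : R) (hw : w ≠ 0) :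
    ∃ W : GL (Fin n) R, (W : Matrix (Fin n) (Fin n) R).det = w := by
  classical
  let i₀ : Fin n := ⟨0, hn⟩
  let D : Matrix (Fin n) (Fin n) R := Matrix.diagonal (Function.update (fun _ => 1) i₀ w)
  have hD : D.det = w := by
    rw [Matrix.det_diagonal, Finset.prod_update_of_mem (Finset.mem_univ _)]
    simp
  refine ⟨Matrix.GeneralLinearGroup.mkOfDetNeZero D (by rw [hD]; exact hw), hD⟩

end Cfsg.Agent.H29
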