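/-
Isometries with square `±1` of a nondegenerate alternating form, characteristic not 2:
pairs of complementary totally isotropic subspaces fixed or interchanged.
-/
import Cfsg.Agent.Lib.H29.SympPlanes

set_option autoImplicit false

namespace Cfsg.Agent.H29

section Lagr

variable {F V : Type*} [Field F] [AddCommGroup V] [Module F V]

/-- Totally isotropic. -/
def TotIso (ω : V →ₗ[F] V →ₗ[F] F) (A : Submodule F V) : Prop := ∀ u ∈ A, ∀ v ∈ A, ω u v = 0

theorem totIso_sup_span {ω : V →ₗ[F] V →ₗ[F] F} (halt : ∀ v, ω v v = 0) {A : Submodule F V}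
    (hA : TotIso ω A) {e : V} (he : ∀ a ∈ A, ω a e = 0) :
    TotIso ω (Submodule.span F {e} ⊔ A) := by
  intro u hu v hv
  obtain ⟨u₁, hu₁, u₂, hu₂, rfl⟩ := Submodule.mem_sup.1 hu
  obtain ⟨v₁, hv₁, v₂, hv₂, rfl⟩ := Submodule.mem_sup.1 hv
  obtain ⟨α, rfl⟩ := Submodule.mem_span_singleton.1 hu₁
  obtain ⟨β, rfl⟩ := Submodule.mem_span_singleton.1 hv₁
  have h1 : ω e v₂ = 0 := by rw [form_swap halt, he _ hv₂, neg_zero]
  simp only [map_add, map_smul, LinearMap.add_apply, LinearMap.smul_apply, halt, he _ hu₂, h1,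
    hA _ hu₂ _ hv₂]
  simp

theorem step_sup {ω : V →ₗ[F] V →ₗ[F] F} (halt : ∀ v, ω v v = 0) {W A' B' : Submodule F V} {e f : V}
    (he : e ∈ W) (hf : f ∈ W) (hef : ω e f ≠ 0)
    (hsup : A' ⊔ B' = orthIn ω W (Submodule.span F {e, f})) :
    (Submodule.span F {e} ⊔ A') ⊔ (Submodule.span F {f} ⊔ B') = W := by
  rw [← sup_orth_plane halt he hf hef, ← hsup]
  have : Submodule.span F {e, f} = Submodule.span F {e} ⊔ Submodule.span F {f} := by
    rw [← Submodule.span_union]; rfl
  rw [this]
  ac_rfl

variable [FiniteDimensional F V]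

/-- The case of square 1. -/
theorem exists_lagr_fix {ω : V →ₗ[F] V →ₗ[F] F} (halt : ∀ v, ω v v = 0) (h2 : (2 : F) ≠ 0)
    (x : V →ₗ[F] V) (hxω : ∀ u v, ω (x u) (x v) = ω u v) (hx : ∀ v, x (x v) = v) :
    ∀ (m : ℕ) (W : Submodule F V), Module.finrank F W = m → (∀ v ∈ W, x v ∈ W) → NondegOn ω W →
      ∃ A B : Submodule F V, A ⊔ B = W ∧ TotIso ω A ∧ TotIso ω B ∧ A.map x = A ∧ B.map x = B := by
  intro m
  induction m using Nat.strong_induction_on with
  | _ m ih =>
    intro W hm hinv hnd
    by_cases hbot : W = ⊥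
    · subst hbot
      exact ⟨⊥, ⊥, by simp, by simp [TotIso], by simp [TotIso], by simp, by simp⟩
    have hx' : ∀ v, x (x v) = (1 : F) • v := fun v => by rw [hx, one_smul]
    obtain ⟨w, hw, hw0⟩ := (Submodule.ne_bot_iff W).1 hbot
    obtain ⟨ε, hε, u, hu, hu0, hxu⟩ : ∃ ε : F, ε * ε = 1 ∧ ∃ u ∈ W, u ≠ 0 ∧ x u = ε • u := by
      by_cases h : w + x w = 0
      · refine ⟨-1, by ring, w - x w, W.sub_mem hw (hinv _ hw), ?_, ?_⟩
        · intro h'
          have : (2 : F) • w = 0 := by
            rw [two_smul]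
            calc w + w = (w + x w) + (w - x w) := by abel
              _ = 0 := by rw [h, h', add_zero]
          exact (smul_ne_zero h2 hw0) this
        · rw [map_sub, hx]
          simp
      · refine ⟨1, by ring, w + x w, W.add_mem hw (hinv _ hw), h, ?_⟩
        rw [map_add, hx, one_smul, add_comm]
    obtain ⟨v, hv, huv⟩ := hnd u hu hu0
    let v' := v + ε • x v
    have hv'W : v' ∈ W := W.add_mem hv (W.smul_mem _ (hinv _ hv))
    have hxv' : x v' = ε • v' := by
      simp only [v', map_add, map_smul, hx, smul_add, smul_smul, hε, one_smul]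
      rw [add_comm]
    have hε0 : ε ≠ 0 := fun h => by rw [h, zero_mul] at hε; exact zero_ne_one hε
    have huv' : ω u v' ≠ 0 := by
      have h3 : ω u (x v) = ε * ω u v := by
        have := hxω (x u) v
        rw [hx, hxu, map_smul, LinearMap.smul_apply, smul_eq_mul] at this
        exact this
      simp only [v', map_add, map_smul, smul_eq_mul, h3]
      rw [← mul_assoc, hε, one_mul, ← two_mul]
      exact mul_ne_zero h2 huv
    have hPinv : ∀ y ∈ Submodule.span F {u, v'}, x y ∈ Submodule.span F {u, v'} := by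
      intro y hy
      obtain ⟨α, β, rfl⟩ := Submodule.mem_span_pair.1 hy
      rw [map_add, map_smul, map_smul, hxu, hxv', smul_smul, smul_smul]
      exact Submodule.mem_span_pair.2 ⟨_, _, rfl⟩
    let W' := orthIn ω W (Submodule.span F {u, v'})
    have hW'inv : ∀ y ∈ W', x y ∈ W' := fun y hy =>
      orthIn_invariant one_ne_zero hxω hx' hinv hPinv hy
    have hnd' := nondeg_orth_plane halt hnd hu hv'W huv'
    have hfr : Module.finrank F W' < m := by
      rw [← hm]
      apply Submodule.finrank_lt_finrank_of_lt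
      refine lt_of_le_of_ne (fun y hy => hy.1) (fun h => ?_)
      have : u ∈ W' := h ▸ hu
      exact huv' (this.2 v' (Submodule.subset_span (by simp)))
    obtain ⟨A', B', hsup, hA', hB', hmA, hmB⟩ := ih _ hfr W' rfl hW'inv hnd'
    have hAle : A' ≤ W' := hsup ▸ le_sup_left
    have hBle : B' ≤ W' := hsup ▸ le_sup_right
    refine ⟨Submodule.span F {u} ⊔ A', Submodule.span F {v'} ⊔ B',
      step_sup halt hu hv'W huv' hsup, ?_, ?_, ?_, ?_⟩
    · apply totIso_sup_span halt hA'
      intro a ha
      exact (hAle ha).2 u (Submodule.subset_span (by simp))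
    · apply totIso_sup_span halt hB'
      intro a ha
      exact (hBle ha).2 v' (Submodule.subset_span (by simp))
    · rw [Submodule.map_sup, hmA, Submodule.map_span, Set.image_singleton, hxu,
        Submodule.span_singleton_smul_eq (IsUnit.mk0 ε hε0)]
    · rw [Submodule.map_sup, hmB, Submodule.map_span, Set.image_singleton, hxv',
        Submodule.span_singleton_smul_eq (IsUnit.mk0 ε hε0)]

/-- The case of square -1. -/
theorem exists_lagr_swap {ω : V →ₗ[F] V →ₗ[F] F} (halt : ∀ v, ω v v = 0) (h2 : (2 : F) ≠ 0)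
    (x : V →ₗ[F] V) (hxω : ∀ u v, ω (x u) (x v) = ω u v) (hx : ∀ v, x (x v) = (-1 : F) • v) :
    ∀ (m : ℕ) (W : Submodule F V), Module.finrank F W = m → (∀ v ∈ W, x v ∈ W) → NondegOn ω W →
      ∃ A B : Submodule F V, A ⊔ B = W ∧ TotIso ω A ∧ TotIso ω B ∧ A.map x = B ∧ B.map x = A := by
  intro m
  induction m using Nat.strong_induction_on with
  | _ m ih =>
    intro W hm hinv hnd
    by_cases hbot : W = ⊥
    · subst hbot
      exact ⟨⊥, ⊥, by simp, by simp [TotIso], by simp [TotIso], by simp, by simp⟩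
    have hex : ∃ v ∈ W, ω v (x v) ≠ 0 := by
      by_contra hcon
      push Not at hcon
      have hsym : ∀ a b, ω a (x b) = ω b (x a) := by
        intro a b
        have := hxω b (x a)
        rw [hx, map_smul, smul_eq_mul, neg_one_mul] at this
        rw [← this, form_swap halt]
      have hall : ∀ a ∈ W, ∀ b ∈ W, ω a (x b) = 0 := by
        intro a ha b hb
        have h3 := hcon (a + b) (W.add_mem ha hb)
        simp only [map_add, LinearMap.add_apply, hcon a ha, hcon b hb, add_zero, zero_add] at h3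
        rw [hsym b a, ← two_mul] at h3
        exact (mul_eq_zero.1 h3).resolve_left h2
      obtain ⟨w, hw, hw0⟩ := (Submodule.ne_bot_iff W).1 hbot
      obtain ⟨y, hy, hwy⟩ := hnd w hw hw0
      apply hwy
      have h4 := hall w hw (x y) (hinv _ hy)
      rw [hx, map_smul, smul_eq_mul, neg_one_mul, neg_eq_zero] at h4
      exact h4
    obtain ⟨v, hv, hvx⟩ := hex
    have hxvW := hinv _ hv
    have hPinv : ∀ y ∈ Submodule.span F {v, x v}, x y ∈ Submodule.span F {v, x v} := by
      intro y hy
      obtain ⟨α, β, rfl⟩ := Submodule.mem_span_pair.1 hy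
      rw [map_add, map_smul, map_smul, hx, smul_smul]
      exact Submodule.mem_span_pair.2 ⟨β * (-1), α, by rw [add_comm]⟩
    let W' := orthIn ω W (Submodule.span F {v, x v})
    have hW'inv : ∀ y ∈ W', x y ∈ W' := fun y hy =>
      orthIn_invariant (neg_ne_zero.2 one_ne_zero) hxω hx hinv hPinv hy
    have hnd' := nondeg_orth_plane halt hnd hv hxvW hvx
    have hfr : Module.finrank F W' < m := by
      rw [← hm]
      apply Submodule.finrank_lt_finrank_of_lt
      refine lt_of_le_of_ne (fun y hy => hy.1) (fun h => ?_)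
      have : v ∈ W' := h ▸ hv
      exact hvx (this.2 _ (Submodule.subset_span (by simp)))
    obtain ⟨A', B', hsup, hA', hB', hmA, hmB⟩ := ih _ hfr W' rfl hW'inv hnd'
    have hAle : A' ≤ W' := hsup ▸ le_sup_left
    have hBle : B' ≤ W' := hsup ▸ le_sup_right
    refine ⟨Submodule.span F {v} ⊔ A', Submodule.span F {x v} ⊔ B',
      step_sup halt hv hxvW hvx hsup, ?_, ?_, ?_, ?_⟩
    · apply totIso_sup_span halt hA'
      intro a ha
      exact (hAle ha).2 v (Submodule.subset_span (by simp))
    · apply totIso_sup_span halt hB'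
      intro a ha
      exact (hBle ha).2 _ (Submodule.subset_span (by simp))
    · rw [Submodule.map_sup, hmA, Submodule.map_span, Set.image_singleton]
    · rw [Submodule.map_sup, hmB, Submodule.map_span, Set.image_singleton, hx,
        Submodule.span_singleton_smul_eq (IsUnit.mk0 _ (neg_ne_zero.2 one_ne_zero))]

end Lagr

end Cfsg.Agent.H29
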