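import Cfsg.Agent.S2423
import Cfsg.Agent.Lib.H29.JT
import Cfsg.Agent.Lib.H11.Para2
import Cfsg.Agent.Lib.H01.Frobenius

/-! Inner products of the partition-indexed characters of `GL_n(q)`. -/

set_option autoImplicit false
set_option linter.unusedSectionVars false
set_option linter.unusedVariables false
set_option linter.style.haveILetI false

namespace Cfsg.Agent.H29.UnipGL

open Cfsg Finset
open Cfsg.Agent.S2423 Cfsg.Agent.H29.JT
open scoped MatrixGroups

variable {n : ℕ}

lemma coeff_AA (α : Fin n → ℕ) (β : Fin n →₀ ℕ) : MvPolynomial.coeff β (AA α) =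
    (((Fintype.piFinset fun i => finsuppAntidiag (univ : Finset (Fin n)) (α i)).filter fun p => ∑ i, p i = β).card : ℤ) := by
  classical
  have h1 : AA α = ∑ p ∈ Fintype.piFinset (fun i => finsuppAntidiag (univ : Finset (Fin n)) (α i)),
      MvPolynomial.monomial (∑ i, p i) (1 : ℤ) := by
    unfold AA
    simp only [hk_eq, prod_X]
    rw [Finset.prod_univ_sum]
    apply Finset.sum_congr rfl
    intro p _
    rw [MvPolynomial.monomial_sum_one]
  rw [h1, MvPolynomial.coeff_sum, Finset.card_filter]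
  push_cast
  apply Finset.sum_congr rfl
  intro p _
  rw [MvPolynomial.coeff_monomial]

/-- cell counts -/
noncomputable def cc (ν μ : Fin n → ℕ) (σ : Equiv.Perm (Fin n)) (a b : ℕ) : ℕ :=
  (univ.filter fun j : Fin n => compLabel μ j = b ∧ compLabel ν (σ j) = a).card

/-- the matrix of cell counts -/
noncomputable def mm (ν μ : Fin n → ℕ) (σ : Equiv.Perm (Fin n)) : Fin n → (Fin n →₀ ℕ) :=
  fun a => fs fun b => cc ν μ σ a.val b.val

lemma fiber_sum (s : Finset (Fin n)) (f : Fin n → ℕ) (hf : ∀ j, f j < n) :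
    s.card = ∑ b : Fin n, (s.filter fun j => f j = b.val).card := by
  classical
  have := Finset.card_eq_sum_card_fiberwise (f := fun j => (⟨f j, hf j⟩ : Fin n)) (s := s) (t := univ)
    (by intro x _; exact Finset.mem_coe.2 (mem_univ _))
  rw [this]
  apply Finset.sum_congr rfl
  intro b _
  congr 1
  ext j
  simp [Fin.ext_iff]

lemma card_fib (μ : Fin n → ℕ) (hμ : ∑ i, μ i = n) (l : Fin n) :
    (univ.filter fun j : Fin n => compLabel μ j = l.val).card = μ l := by
  rw [← Fintype.card_subtype]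
  exact Cfsg.Agent.H11.Para.card_fiber μ hμ l

lemma card_fib_big (μ : Fin n → ℕ) (hμ : ∑ i, μ i = n) {c : ℕ} (hc : n ≤ c) :
    (univ.filter fun j : Fin n => compLabel μ j = c).card = 0 := by
  rw [Finset.card_eq_zero, Finset.filter_eq_empty_iff]
  intro j _ h
  have := Cfsg.Agent.H11.Para.compLabel_lt μ hμ j
  omega

lemma row_sum (ν μ : Fin n → ℕ) (hν : ∑ i, ν i = n) (hμ : ∑ i, μ i = n) (σ : Equiv.Perm (Fin n)) (a : Fin n) :
    ∑ b : Fin n, cc ν μ σ a.val b.val = ν a := by
  classical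
  have h1 := fiber_sum (univ.filter fun j : Fin n => compLabel ν (σ j) = a.val) (compLabel μ)
    (Cfsg.Agent.H11.Para.compLabel_lt μ hμ)
  have h2 : (univ.filter fun j : Fin n => compLabel ν (σ j) = a.val).card = ν a := by
    rw [← card_fib ν hν a]
    apply Finset.card_equiv σ
    intro j
    simp
  rw [← h2, h1]
  apply Finset.sum_congr rfl
  intro b _
  unfold cc
  rw [Finset.filter_filter]
  congr 1
  ext j
  simp [and_comm]

lemma col_sum (ν μ : Fin n → ℕ) (hν : ∑ i, ν i = n) (hμ : ∑ i, μ i = n) (σ : Equiv.Perm (Fin n)) (b : Fin n) :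
    ∑ a : Fin n, cc ν μ σ a.val b.val = μ b := by
  classical
  have h1 := fiber_sum (univ.filter fun j : Fin n => compLabel μ j = b.val) (fun j => compLabel ν (σ j))
    (fun j => Cfsg.Agent.H11.Para.compLabel_lt ν hν (σ j))
  rw [← card_fib μ hμ b, h1]
  apply Finset.sum_congr rfl
  intro a _
  unfold cc
  rw [Finset.filter_filter]

lemma mm_mem (ν μ : Fin n → ℕ) (hν : ∑ i, ν i = n) (hμ : ∑ i, μ i = n) (σ : Equiv.Perm (Fin n)) :
    mm ν μ σ ∈ (Fintype.piFinset fun i => finsuppAntidiag (univ : Finset (Fin n)) (ν i)).filter fun p => ∑ i, p i = fs μ := by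
  classical
  rw [Finset.mem_filter, Fintype.mem_piFinset]
  constructor
  · intro a
    rw [mem_finsuppAntidiag]
    exact ⟨row_sum ν μ hν hμ σ a, Finset.subset_univ _⟩
  · ext b
    rw [Finsupp.finset_sum_apply]
    exact col_sum ν μ hν hμ σ b

lemma cc_double (ν μ : Fin n → ℕ) {σ τ y y' : Equiv.Perm (Fin n)} (hy : y ∈ youngSubgroup ν) (hy' : y' ∈ youngSubgroup μ)
    (e : τ = y * σ * y') (a b : ℕ) : cc ν μ τ a b = cc ν μ σ a b := by
  classical
  unfold cc
  apply Finset.card_equiv y'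
  intro j
  simp only [mem_filter, mem_univ, true_and]
  have h1 : compLabel μ (y' j) = compLabel μ j := hy' j
  have h2 : compLabel ν (τ j) = compLabel ν (σ (y' j)) := by
    rw [e]
    exact hy (σ (y' j))
  rw [h1, h2]

lemma cc_big_a (ν μ : Fin n → ℕ) (hν : ∑ i, ν i = n) (σ : Equiv.Perm (Fin n)) {a : ℕ} (ha : n ≤ a) (b : ℕ) : cc ν μ σ a b = 0 := by
  unfold cc
  rw [Finset.card_eq_zero, Finset.filter_eq_empty_iff]
  rintro j _ ⟨_, h⟩
  have := Cfsg.Agent.H11.Para.compLabel_lt ν hν (σ j)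
  omega

lemma cc_big_b (ν μ : Fin n → ℕ) (hμ : ∑ i, μ i = n) (σ : Equiv.Perm (Fin n)) (a : ℕ) {b : ℕ} (hb : n ≤ b) : cc ν μ σ a b = 0 := by
  unfold cc
  rw [Finset.card_eq_zero, Finset.filter_eq_empty_iff]
  rintro j _ ⟨h, _⟩
  have := Cfsg.Agent.H11.Para.compLabel_lt μ hμ j
  omega

lemma cc_of_mm (ν μ : Fin n → ℕ) (hν : ∑ i, ν i = n) (hμ : ∑ i, μ i = n) {σ τ : Equiv.Perm (Fin n)}
    (h : mm ν μ σ = mm ν μ τ) (a b : ℕ) : cc ν μ σ a b = cc ν μ τ a b := by
  by_cases ha : a < n
  · by_cases hb : b < n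
    · have := DFunLike.congr_fun (congrFun h ⟨a, ha⟩) ⟨b, hb⟩
      exact this
    · rw [cc_big_b ν μ hμ σ a (not_lt.mp hb), cc_big_b ν μ hμ τ a (not_lt.mp hb)]
  · rw [cc_big_a ν μ hν σ (not_lt.mp ha), cc_big_a ν μ hν τ (not_lt.mp ha)]

lemma double_of_cc (ν μ : Fin n → ℕ) {σ τ : Equiv.Perm (Fin n)} (h : ∀ a b, cc ν μ σ a b = cc ν μ τ a b) :
    ∃ y ∈ youngSubgroup ν, ∃ y' ∈ youngSubgroup μ, τ = y * σ * y' := by
  classical
  obtain ⟨y', hy'⟩ := exists_perm (fun j => (compLabel μ j, compLabel ν (σ j))) (fun j => (compLabel μ j, compLabel ν (τ j))) (by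
    rintro ⟨b, a⟩
    have := h a b
    simpa only [Prod.mk.injEq, cc] using this)
  have e1 : ∀ j, compLabel μ (y' j) = compLabel μ j := fun j => congrArg Prod.fst (hy' j)
  have e2 : ∀ j, compLabel ν (σ (y' j)) = compLabel ν (τ j) := fun j => congrArg Prod.snd (hy' j)
  refine ⟨τ * y'⁻¹ * σ⁻¹, ?_, y', e1, ?_⟩
  · intro i
    show compLabel ν (τ (y'⁻¹ (σ⁻¹ i))) = _
    rw [← e2]
    simp
  · group

lemma exists_equiv_fib {T : Type*} [Fintype T] (f : T → ℕ) (g : Fin n → ℕ)
    (h : ∀ c, (univ.filter fun t => f t = c).card = (univ.filter fun j => g j = c).card) :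
    ∃ e : T ≃ Fin n, ∀ t, g (e t) = f t := by
  classical
  have e : ∀ c, Nonempty ({t // f t = c} ≃ {j // g j = c}) := by
    intro c
    apply Fintype.card_eq.mp
    rw [Fintype.card_subtype, Fintype.card_subtype]
    exact h c
  let E : ∀ c, ({t // f t = c} ≃ {j // g j = c}) := fun c => (e c).some
  exact ⟨Equiv.ofFiberEquiv E, fun t => Equiv.ofFiberEquiv_map E t⟩

lemma card_T (w : Fin n × Fin n → ℕ) (P : Fin n × Fin n → Prop) [DecidablePred P] :
    (univ.filter fun t : (Σ q : Fin n × Fin n, Fin (w q)) => P t.1).card = ∑ q, if P q then w q else 0 := by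
  rw [Finset.card_filter, Fintype.sum_sigma]
  apply Finset.sum_congr rfl
  intro q _
  by_cases h : P q <;> simp [h]

lemma surj (ν μ : Fin n → ℕ) (hν : ∑ i, ν i = n) (hμ : ∑ i, μ i = n) {p : Fin n → (Fin n →₀ ℕ)}
    (hp : p ∈ (Fintype.piFinset fun i => finsuppAntidiag (univ : Finset (Fin n)) (ν i)).filter fun p => ∑ i, p i = fs μ) :
    ∃ σ : Equiv.Perm (Fin n), mm ν μ σ = p := by
  classical
  rw [Finset.mem_filter, Fintype.mem_piFinset] at hp
  obtain ⟨hp1, hp2⟩ := hp
  have hrow : ∀ a, ∑ b, p a b = ν a := fun a => (mem_finsuppAntidiag.mp (hp1 a)).1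
  have hcol : ∀ b, ∑ a, p a b = μ b := by
    intro b
    have := DFunLike.congr_fun hp2 b
    rwa [Finsupp.finset_sum_apply] at this
  set w : Fin n × Fin n → ℕ := fun q => p q.1 q.2 with hw
  obtain ⟨eμ, heμ⟩ := exists_equiv_fib (T := Σ q : Fin n × Fin n, Fin (w q)) (fun t => t.1.2.val) (compLabel μ) (by
    intro c
    rw [card_T w (fun q => q.2.val = c), Fintype.sum_prod_type]
    by_cases hc : c < n
    · rw [card_fib μ hμ ⟨c, hc⟩, ← hcol ⟨c, hc⟩]
      apply Finset.sum_congr rfl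
      intro a _
      rw [Finset.sum_eq_single (⟨c, hc⟩ : Fin n)]
      · simp [hw]
      · intro b _ hb
        rw [if_neg]
        intro h
        exact hb (Fin.ext h)
      · intro h
        exact absurd (mem_univ _) h
    · rw [card_fib_big μ hμ (not_lt.mp hc)]
      apply Finset.sum_eq_zero
      intro a _
      apply Finset.sum_eq_zero
      intro b _
      rw [if_neg]
      have := b.2
      simp only
      omega)
  obtain ⟨eν, heν⟩ := exists_equiv_fib (T := Σ q : Fin n × Fin n, Fin (w q)) (fun t => t.1.1.val) (compLabel ν) (by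
    intro c
    rw [card_T w (fun q => q.1.val = c), Fintype.sum_prod_type]
    by_cases hc : c < n
    · rw [card_fib ν hν ⟨c, hc⟩, ← hrow ⟨c, hc⟩]
      rw [Finset.sum_eq_single (⟨c, hc⟩ : Fin n)]
      · simp [hw]
      · intro a _ ha
        apply Finset.sum_eq_zero
        intro b _
        rw [if_neg]
        intro h
        exact ha (Fin.ext h)
      · intro h
        exact absurd (mem_univ _) h
    · rw [card_fib_big ν hν (not_lt.mp hc)]
      apply Finset.sum_eq_zero
      intro a _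
      apply Finset.sum_eq_zero
      intro b _
      rw [if_neg]
      have := a.2
      simp only
      omega)
  refine ⟨eμ.symm.trans eν, ?_⟩
  funext a
  ext b
  show cc ν μ (eμ.symm.trans eν) a.val b.val = p a b
  unfold cc
  have h3 : (univ.filter fun j : Fin n => compLabel μ j = b.val ∧ compLabel ν ((eμ.symm.trans eν) j) = a.val).card =
      (univ.filter fun t : (Σ q : Fin n × Fin n, Fin (w q)) => t.1.2.val = b.val ∧ t.1.1.val = a.val).card := by
    apply Finset.card_equiv eμ.symm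
    intro j
    simp only [mem_filter, mem_univ, true_and]
    have h4 := heμ (eμ.symm j)
    simp only [Equiv.apply_symm_apply] at h4
    have h5 : compLabel ν ((eμ.symm.trans eν) j) = (eμ.symm j).1.1.val := heν (eμ.symm j)
    rw [h4, h5]
  rw [h3, card_T w (fun q => q.2.val = b.val ∧ q.1.val = a.val)]
  rw [Finset.sum_eq_single (a, b)]
  · simp [hw]
  · intro q _ hq
    rw [if_neg]
    rintro ⟨h1, h2⟩
    exact hq (Prod.ext (Fin.ext h2) (Fin.ext h1))
  · intro h
    exact absurd (mem_univ _) h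

variable {F : Type*} [Field F] [Fintype F]

/-- inner product of two flag characters -/
theorem inner_flag [Fintype (GL (Fin n) F)] (ν μ : Fin n → ℕ) (hν : ∑ i, ν i = n) (hμ : ∑ i, μ i = n) :
    classInner (fixedPointCharacter (parabolicGL n F ν)) (fixedPointCharacter (parabolicGL n F μ)) =
      ((MvPolynomial.coeff (fs μ) (AA ν) : ℤ) : ℂ) := by
  classical
  set S := (Fintype.piFinset fun i => finsuppAntidiag (univ : Finset (Fin n)) (ν i)).filter fun p => ∑ i, p i = fs μ with hS
  let r : S → Equiv.Perm (Fin n) := fun i => (surj ν μ hν hμ i.2).choose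
  have hr : ∀ i : S, mm ν μ (r i) = i.1 := fun i => (surj ν μ hν hμ i.2).choose_spec
  have hdj : ∀ (i j : S) (σ : Equiv.Perm (Fin n)), (∃ y ∈ youngSubgroup ν, ∃ y' ∈ youngSubgroup μ, r j = y * r i * y') → i = j := by
    rintro i j _ ⟨y, hy, y', hy', e⟩
    apply Subtype.ext
    rw [← hr i, ← hr j]
    funext a
    ext b
    exact (cc_double ν μ hy hy' e a.val b.val).symm
  have hG := Cfsg.Agent.H10.inner_fpc_eq_card (parabolicGL n F ν) (parabolicGL n F μ) (fun i : S => (pmGL (r i) : GL (Fin n) F))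
    (fun g => by
      obtain ⟨b, hb, σ, b', hb', e⟩ := bruhat g
      let i : S := ⟨mm ν μ σ, mm_mem ν μ hν hμ σ⟩
      obtain ⟨y, hy, y', hy', e'⟩ := double_of_cc ν μ (σ := r i) (τ := σ) (cc_of_mm ν μ hν hμ (hr i))
      refine ⟨i, b * pmGL y, mul_mem (ut_le ν hb) (pm_mem ν hy), pmGL y' * b',
        mul_mem (pm_mem μ hy') (ut_le μ hb'), ?_⟩
      have e2 : (pmGL σ : GL (Fin n) F) = pmGL y * pmGL (r i) * pmGL y' := by
        conv_lhs => rw [e']
        apply Units.ext
        show (pm (y * r i * y') : Matrix (Fin n) (Fin n) F) = pm y * pm (r i) * pm y'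
        rw [pm_mul, pm_mul]
      rw [e, e2]
      group)
    (fun i j p hp q hq e =>
      hdj i j 1 (double_of_counts ν μ (σ := r i) (τ := r j) (fun a b => count_inv ν μ hp hq e a b)))
  rw [hG, coeff_AA, Fintype.card_coe]
  push_cast
  rfl

/-- the integer coefficients of the alternating sum -/
noncomputable def cf (lam : Fin n → ℕ) (κ : Equiv.Perm (Fin n)) : ℤ :=
  if ∀ i : Fin n, (κ i).val ≤ lam i then (Equiv.Perm.sign κ : ℤ) else 0

lemma unip_eq (ν : Fin n → ℕ) (g : GL (Fin n) F) : unipotentCharacterGL n F ν g =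
    ∑ κ : Equiv.Perm (Fin n), ((cf (fun i => ν i + i.val) κ : ℤ) : ℂ) *
      fixedPointCharacter (parabolicGL n F fun i => ν i + i.val - (κ i).val) g := by
  unfold unipotentCharacterGL cf
  apply Finset.sum_congr rfl
  intro κ _
  by_cases h : ∀ i : Fin n, (κ i).val ≤ ν i + i.val
  · rw [if_pos h, if_pos h]
  · rw [if_neg h, if_neg h]
    simp

lemma inner_expand {G ι ι' : Type*} [Group G] [Fintype G] [Fintype ι] [Fintype ι'] (c : ι → ℤ) (d : ι' → ℤ)
    (f : ι → G → ℂ) (f' : ι' → G → ℂ) :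
    classInner (fun g => ∑ i, ((c i : ℤ) : ℂ) * f i g) (fun g => ∑ j, ((d j : ℤ) : ℂ) * f' j g) =
      ∑ i, ∑ j, ((c i : ℤ) : ℂ) * ((d j : ℤ) : ℂ) * classInner (f i) (f' j) := by
  unfold classInner
  simp only [map_sum, map_mul, map_intCast, Finset.mul_sum, Finset.sum_mul]
  refine (Finset.sum_congr rfl fun y _ => Finset.sum_comm).trans ?_
  rw [Finset.sum_comm]
  apply Finset.sum_congr rfl
  intro i _
  rw [Finset.sum_comm]
  apply Finset.sum_congr rfl
  intro j _
  apply Finset.sum_congr rfl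
  intro g _
  ring

lemma inner_expand_left {G ι : Type*} [Group G] [Fintype G] [Fintype ι] (c : ι → ℤ)
    (f : ι → G → ℂ) (h : G → ℂ) :
    classInner (fun g => ∑ i, ((c i : ℤ) : ℂ) * f i g) h =
      ∑ i, ((c i : ℤ) : ℂ) * classInner (f i) h := by
  unfold classInner
  simp only [Finset.mul_sum, Finset.sum_mul]
  rw [Finset.sum_comm]
  apply Finset.sum_congr rfl
  intro i _
  apply Finset.sum_congr rfl
  intro g _
  ring

lemma sum_comp (ν : Fin n → ℕ) (hsum : ∑ i, ν i = n) (κ : Equiv.Perm (Fin n)) (hk : ∀ i : Fin n, (κ i).val ≤ ν i + i.val) :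
    ∑ i, (ν i + i.val - (κ i).val) = n := by
  have h1 : ∑ i, (ν i + i.val - (κ i).val) + ∑ i : Fin n, (κ i).val = ∑ i, (ν i + i.val) := by
    rw [← Finset.sum_add_distrib]
    apply Finset.sum_congr rfl
    intro i _
    have := hk i
    omega
  rw [Cfsg.Agent.H11.Para.sum_perm_vals, Finset.sum_add_distrib, hsum] at h1
  omega

lemma strict_lam (ν : Fin n → ℕ) (hmono : Monotone ν) : StrictMono (fun i : Fin n => ν i + i.val) := by
  intro i j hij
  have h1 := hmono hij.le
  have h2 : i.val < j.val := hij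
  show ν i + i.val < ν j + j.val
  omega

/-- orthonormality -/
theorem inner_unip [Fintype (GL (Fin n) F)] (ν ν' : Fin n → ℕ) (hmono : Monotone ν) (hsum : ∑ i, ν i = n)
    (hmono' : Monotone ν') (hsum' : ∑ i, ν' i = n) :
    classInner (unipotentCharacterGL n F ν) (unipotentCharacterGL n F ν') = if ν = ν' then 1 else 0 := by
  classical
  have h1 : unipotentCharacterGL n F ν = fun g => ∑ κ : Equiv.Perm (Fin n), ((cf (fun i => ν i + i.val) κ : ℤ) : ℂ) *
      fixedPointCharacter (parabolicGL n F fun i => ν i + i.val - (κ i).val) g := funext (unip_eq ν)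
  have h2 : unipotentCharacterGL n F ν' = fun g => ∑ κ : Equiv.Perm (Fin n), ((cf (fun i => ν' i + i.val) κ : ℤ) : ℂ) *
      fixedPointCharacter (parabolicGL n F fun i => ν' i + i.val - (κ i).val) g := funext (unip_eq ν')
  rw [h1, h2, inner_expand]
  have h3 := coeff_identity (fun i : Fin n => ν i + i.val) (fun i : Fin n => ν' i + i.val)
  rw [rhs_of_strictMono (strict_lam ν hmono) (strict_lam ν' hmono')] at h3
  have h4 : (fun i : Fin n => ν i + i.val) = (fun i : Fin n => ν' i + i.val) ↔ ν = ν' := by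
    constructor
    · intro e
      funext i
      have : ν i + i.val = ν' i + i.val := congrFun e i
      omega
    · rintro rfl
      rfl
  have h5 := congrArg (fun z : ℤ => (z : ℂ)) h3
  simp only [h4] at h5
  have h6 : ((if ν = ν' then (1 : ℤ) else 0 : ℤ) : ℂ) = if ν = ν' then 1 else 0 := by
    split_ifs <;> simp
  rw [h6] at h5
  rw [← h5]
  simp only [Int.cast_sum]
  apply Finset.sum_congr rfl
  intro κ _
  apply Finset.sum_congr rfl
  intro κ' _
  by_cases ha : ∀ i : Fin n, (κ i).val ≤ ν i + i.val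
  · by_cases hb : ∀ i : Fin n, (κ' i).val ≤ ν' i + i.val
    · have e1 : cf (fun i : Fin n => ν i + i.val) κ = (Equiv.Perm.sign κ : ℤ) := if_pos ha
      have e2 : cf (fun i : Fin n => ν' i + i.val) κ' = (Equiv.Perm.sign κ' : ℤ) := if_pos hb
      rw [e1, e2, if_pos ⟨ha, hb⟩, inner_flag (F := F) _ _ (sum_comp ν hsum κ ha) (sum_comp ν' hsum' κ' hb)]
      push_cast
      rfl
    · have e2 : cf (fun i : Fin n => ν' i + i.val) κ' = 0 := if_neg hb
      rw [e2, if_neg (show ¬ ((∀ i : Fin n, (κ i).val ≤ (fun i : Fin n => ν i + i.val) i) ∧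
        (∀ i : Fin n, (κ' i).val ≤ (fun i : Fin n => ν' i + i.val) i)) from fun h => hb h.2)]
      simp
  · have e1 : cf (fun i : Fin n => ν i + i.val) κ = 0 := if_neg ha
    rw [e1, if_neg (show ¬ ((∀ i : Fin n, (κ i).val ≤ (fun i : Fin n => ν i + i.val) i) ∧
        (∀ i : Fin n, (κ' i).val ≤ (fun i : Fin n => ν' i + i.val) i)) from fun h => ha h.1)]
    simp

lemma Qi_strict (q : ℕ) (hq : 1 ≤ q) : StrictMono (Cfsg.Agent.H11.Para.Qi q) := by
  apply strictMono_nat_of_lt_succ
  intro r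
  unfold Cfsg.Agent.H11.Para.Qi
  rw [Finset.sum_range_succ]
  have : 0 < q ^ r := Nat.pos_of_ne_zero (pow_ne_zero _ (by omega))
  omega

lemma qF_pos (q : ℕ) (hq : 1 ≤ q) (m : ℕ) : 0 < Cfsg.Agent.H11.Para.qF q m := by
  unfold Cfsg.Agent.H11.Para.qF
  apply Finset.prod_pos
  intro j _
  apply Finset.sum_pos
  · intro l _
    exact Nat.pos_of_ne_zero (pow_ne_zero _ (by omega))
  · exact ⟨0, by simp⟩

/-- positivity of the degree -/
theorem degree_pos (ν : Fin n → ℕ) (hmono : Monotone ν) (hsum : ∑ i, ν i = n) :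
    0 < (unipotentCharacterGL n F ν 1).re := by
  classical
  set q := Fintype.card F with hq
  have hq1 : 1 ≤ q := Fintype.card_pos
  have h := Cfsg.Agent.H11.Para.degree_formula (F := F) (hq.symm) ν hsum
  set C : ℝ := (q : ℝ) ^ (n * (n - 1) * (n - 2) / 6) * ∏ i : Fin n, (Cfsg.Agent.H11.Para.qF q (ν i + i.val) : ℝ) with hC
  set D : ℝ := (Cfsg.Agent.H11.Para.qF q n : ℝ) * ∏ i : Fin n, ∏ j ∈ Finset.Ioi i,
      (((Cfsg.Agent.H11.Para.Qi q (ν j + j.val) : ℕ) : ℝ) - ((Cfsg.Agent.H11.Para.Qi q (ν i + i.val) : ℕ) : ℝ)) with hD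
  have hq0 : (0 : ℝ) < q := by exact_mod_cast hq1
  have hCpos : 0 < C := by
    apply mul_pos (pow_pos hq0 _)
    apply Finset.prod_pos
    intro i _
    exact_mod_cast qF_pos q hq1 _
  have hDpos : 0 < D := by
    apply mul_pos
    · exact_mod_cast qF_pos q hq1 _
    · apply Finset.prod_pos
      intro i _
      apply Finset.prod_pos
      intro j hj
      have hij : i < j := Finset.mem_Ioi.mp hj
      have := Qi_strict q hq1 (strict_lam ν hmono hij)
      rw [sub_pos]
      exact_mod_cast this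
  have h1 : unipotentCharacterGL n F ν 1 * (C : ℂ) = (D : ℂ) := by
    rw [hC, hD]
    push_cast
    rw [← mul_assoc]
    exact h
  have hCne : (C : ℂ) ≠ 0 := by exact_mod_cast hCpos.ne'
  have h2 : unipotentCharacterGL n F ν 1 = ((D / C : ℝ) : ℂ) := by
    push_cast
    rw [eq_div_iff hCne]
    exact h1
  rw [h2, Complex.ofReal_re]
  exact div_pos hDpos hCpos

/-- irreducibility -/
theorem irr_unip (ν : Fin n → ℕ) (hmono : Monotone ν) (hsum : ∑ i, ν i = n) :
    IsIrrCharacter (GL (Fin n) F) (unipotentCharacterGL n F ν) := by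
  classical
  haveI : Fintype (GL (Fin n) F) := Fintype.ofFinite _
  haveI : Fintype (IrrCharacter (GL (Fin n) F)) := Fintype.ofFinite _
  have h1 : unipotentCharacterGL n F ν = fun g => ∑ κ : Equiv.Perm (Fin n), ((cf (fun i => ν i + i.val) κ : ℤ) : ℂ) *
      fixedPointCharacter (parabolicGL n F fun i => ν i + i.val - (κ i).val) g := funext (unip_eq ν)
  apply Cfsg.Agent.H01.isIrrCharacter_of_int_norm_one
  · rw [h1]
    intro g h
    show (∑ κ : Equiv.Perm (Fin n), _) = (∑ κ : Equiv.Perm (Fin n), _)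
    refine Finset.sum_congr rfl fun κ _ => ?_
    rw [Cfsg.Agent.H21.isClassFunction_of_isCharacter (Cfsg.Agent.H10.isCharacter_fpc _) g h]
  · intro χ
    rw [h1, inner_expand_left]
    have h3 : ∀ κ : Equiv.Perm (Fin n), ∃ m : ℕ, classInner (fixedPointCharacter (parabolicGL n F fun i => ν i + i.val - (κ i).val)) (χ : GL (Fin n) F → ℂ) = m :=
      fun κ => Cfsg.Agent.H21.classInner_isNat (Cfsg.Agent.H10.isCharacter_fpc _) χ
    choose m hm using h3
    refine ⟨∑ κ, cf (fun i => ν i + i.val) κ * m κ, ?_⟩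
    push_cast
    exact Finset.sum_congr rfl fun κ _ => by rw [hm κ]
  · rw [inner_unip ν ν hmono hsum hmono hsum, if_pos rfl]
  · exact degree_pos ν hmono hsum

/-- distinctness -/
theorem unip_inj (ν ν' : Fin n → ℕ) (hmono : Monotone ν) (hsum : ∑ i, ν i = n)
    (hmono' : Monotone ν') (hsum' : ∑ i, ν' i = n)
    (h : unipotentCharacterGL n F ν = unipotentCharacterGL n F ν') : ν = ν' := by
  classical
  haveI : Fintype (GL (Fin n) F) := Fintype.ofFinite _
  by_contra hne
  have h1 := inner_unip (F := F) ν ν' hmono hsum hmono' hsum'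
  rw [if_neg hne, ← h, inner_unip (F := F) ν ν hmono hsum hmono hsum, if_pos rfl] at h1
  exact one_ne_zero h1

end Cfsg.Agent.H29.UnipGL
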